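import Mathlib
import Cfsg.Agent.Lib.Classical.PSUSimple
import Cfsg.Agent.Lib.Classical.UnitComm
import Cfsg.Agent.Lib.Classical.SUOrder

/-! The group `PSU`: lifts, point stabilisers, unipotent radicals. -/

set_option autoImplicit false
set_option linter.unusedSimpArgs false
set_option linter.unusedVariables false
set_option linter.unusedSectionVars false

namespace Cfsg.Agent.Lib.AutPSU

open Matrix Module MulAction Cfsg.Agent.Lib.Classical
open scoped LinearAlgebra.Projectivization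

variable {F : Type*} [Field F] [Fintype F] {q n : ℕ}

local notation "hh" => Cfsg.hermForm n F q

/-- Standing hypotheses. -/
class Good (n q : ℕ) (F : Type*) [Field F] [Fintype F] : Prop where
  hF : Fintype.card F = q ^ 2
  hn : 3 ≤ n

/-- The projection. -/
noncomputable def pr : Cfsg.SU n F q →* Cfsg.PSU n F q := QuotientGroup.mk' _

theorem pr_surj (x : Cfsg.PSU n F q) : ∃ A, pr A = x := QuotientGroup.mk_surjective x

section main

variable [h : Good n q F]

/-- The action of `PSU` on isotropic points. -/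
noncomputable instance act : MulAction (Cfsg.PSU n F q) (IsoPt n F q) := psuAction h.hF h.hn

theorem pr_smul (A : Cfsg.SU n F q) (x : IsoPt n F q) : pr A • x = A • x := rfl

theorem pr_smul_isoMk (A : Cfsg.SU n F q) {v : Fin n → F} (hv : v ≠ 0) (hvv : hh v v = 0) :
    pr A • (isoMk hv hvv : IsoPt n F q) = isoMk (su_mulVec_ne_zero A hv) ((su_form A v v).trans hvv) :=
  su_smul_isoMk A hv hvv

instance faithful : FaithfulSMul (Cfsg.PSU n F q) (IsoPt n F q) := psu_faithful h.hF h.hn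

instance preprim : IsPreprimitive (Cfsg.PSU n F q) (IsoPt n F q) := psu_preprimitive h.hF h.hn

theorem mem_center_iff {z : Cfsg.SU n F q} : z ∈ Subgroup.center (Cfsg.SU n F q) ↔ ∃ a : F, suM z = a • (1 : Matrix (Fin n) (Fin n) F) := by
  constructor
  · intro hz
    obtain ⟨a, ha⟩ := su_center_scalar h.hF h.hn ⟨z, hz⟩
    refine ⟨a, ?_⟩
    have ha' : suM z = Matrix.diagonal (fun _ => a) := ha
    rw [ha', Matrix.smul_one_eq_diagonal]
  · rintro ⟨a, ha⟩
    rw [Subgroup.mem_center_iff]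
    intro g
    apply su_ext
    intro x
    show suM (g * z) *ᵥ x = suM (z * g) *ᵥ x
    rw [su_mul_mulVec, su_mul_mulVec, ha, Matrix.smul_mulVec, Matrix.smul_mulVec, one_mulVec, one_mulVec, mulVec_smul]

theorem pr_eq_iff {A B : Cfsg.SU n F q} : pr A = pr B ↔ ∃ a : F, suM B = a • suM A := by
  have e1 : suM A * suM A⁻¹ = 1 := by
    rw [← suM_mul, mul_inv_cancel, suM_one]
  have e2 : suM A⁻¹ * suM A = 1 := by
    rw [← suM_mul, inv_mul_cancel, suM_one]
  constructor
  · intro h1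
    have h2 : A⁻¹ * B ∈ Subgroup.center (Cfsg.SU n F q) := QuotientGroup.eq.1 h1
    obtain ⟨a, ha⟩ := mem_center_iff.1 h2
    refine ⟨a, ?_⟩
    have h3 : suM B = suM A * suM (A⁻¹ * B) := by
      rw [suM_mul, ← mul_assoc, e1, one_mul]
    rw [h3, ha, Matrix.mul_smul, mul_one]
  · rintro ⟨a, ha⟩
    apply QuotientGroup.eq.2
    rw [mem_center_iff]
    refine ⟨a, ?_⟩
    rw [suM_mul, ha, Matrix.mul_smul, e2]

theorem pr_eq_one_iff {A : Cfsg.SU n F q} : pr A = 1 ↔ ∃ a : F, suM A = a • (1 : Matrix (Fin n) (Fin n) F) := by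
  rw [← map_one (pr (n := n) (F := F) (q := q)), eq_comm, pr_eq_iff, suM_one]

theorem exists_one_vec : ∃ x : Fin n → F, hh x x = 1 := by
  have hn := h.hn
  have hq := two_le_q h.hF
  refine ⟨Pi.single ⟨0, by omega⟩ 1, ?_⟩
  rw [herm_apply]
  rw [Finset.sum_eq_single (⟨0, by omega⟩ : Fin n)]
  · simp
  · intro b _ hb
    simp [Pi.single_apply, hb]
  · simp

theorem scalar_facts {z : Cfsg.SU n F q} {a : F} (hz : suM z = a • (1 : Matrix (Fin n) (Fin n) F)) :
    a ≠ 0 ∧ a ^ n = 1 ∧ a ^ (q + 1) = 1 := by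
  have h1 : a ^ n = 1 := by
    have h2 : (suM z).det = 1 := z.1.2
    rw [hz, Matrix.det_smul, Matrix.det_one, mul_one, Fintype.card_fin] at h2
    exact h2
  have h3 : a ≠ 0 := by
    rintro rfl
    have := h.hn
    rw [zero_pow (by omega)] at h1
    exact zero_ne_one h1
  refine ⟨h3, h1, ?_⟩
  obtain ⟨x, hx⟩ := exists_one_vec (n := n) (q := q) (F := F)
  have h4 := su_form z x x
  have e : suM z *ᵥ x = a • x := by
    rw [hz, Matrix.smul_mulVec, one_mulVec]
  have e2 : (z.1 : Matrix.SpecialLinearGroup (Fin n) F).1 *ᵥ x = a • x := e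
  rw [e2, herm_smul_left, herm_smul_right, hx] at h4
  rw [pow_succ, mul_comm]
  linear_combination h4

/-- The scalar element of `SU`. -/
noncomputable def scSU (a : F) (h1 : a ^ n = 1) (h2 : a ^ (q + 1) = 1) : Cfsg.SU n F q :=
  ⟨⟨a • (1 : Matrix (Fin n) (Fin n) F), by
      rw [Matrix.det_smul, Matrix.det_one, mul_one, Fintype.card_fin, h1]⟩, by
    intro x y
    change hh ((a • (1 : Matrix (Fin n) (Fin n) F)) *ᵥ x) ((a • (1 : Matrix (Fin n) (Fin n) F)) *ᵥ y) = hh x y
    rw [Matrix.smul_mulVec, Matrix.smul_mulVec, one_mulVec, one_mulVec, herm_smul_left, herm_smul_right]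
    have : a * a ^ q = 1 := by
      rw [pow_succ, mul_comm] at h2
      exact h2
    rw [← mul_assoc, this, one_mul]⟩

theorem scSU_coe (a : F) (h1 : a ^ n = 1) (h2 : a ^ (q + 1) = 1) :
    suM (scSU (n := n) (q := q) a h1 h2) = a • (1 : Matrix (Fin n) (Fin n) F) := rfl

theorem pr_scSU (a : F) (h1 : a ^ n = 1) (h2 : a ^ (q + 1) = 1) : pr (scSU (n := n) (q := q) a h1 h2) = 1 :=
  pr_eq_one_iff.2 ⟨a, rfl⟩

/-- Point stabilisers. -/
noncomputable abbrev P (x : IsoPt n F q) : Subgroup (Cfsg.PSU n F q) := MulAction.stabilizer (Cfsg.PSU n F q) x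

theorem mem_P_iff {A : Cfsg.SU n F q} {v : Fin n → F} (hv : v ≠ 0) (hvv : hh v v = 0) :
    pr A ∈ P (isoMk hv hvv) ↔ ∃ c : F, suM A *ᵥ v = c • v := by
  rw [MulAction.mem_stabilizer_iff, pr_smul_isoMk, isoMk_eq_iff]
  constructor
  · rintro ⟨c, -, hc⟩
    exact ⟨c, hc.symm⟩
  · rintro ⟨c, hc⟩
    refine ⟨c, ?_, hc.symm⟩
    rintro rfl
    apply su_mulVec_ne_zero A hv
    rw [hc, zero_smul]

instance pts_nontrivial : Nontrivial (IsoPt n F q) := by
  obtain ⟨p, p', hne⟩ := two_isoPts (F := F) (q := q) (n := n) h.hF h.hn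
  exact ⟨p, p', hne⟩

theorem isCoatom_P (x : IsoPt n F q) : IsCoatom (P x) :=
  MulAction.IsPreprimitive.isCoatom_stabilizer_of_isPreprimitive (Cfsg.PSU n F q) x

/-! ### The unipotent elements -/

theorem ue_congr {v v' w w' : Fin n → F} {s s' : F} (H : UV q v w s) (H' : UV q v' w' s') (e1 : v = v') (e2 : w = w')
    (e3 : s = s') : ue h.hF H = ue h.hF H' := by
  subst e1 e2 e3
  rfl

theorem suM_ue {v w : Fin n → F} {s : F} (H : UV q v w s) (x : Fin n → F) :
    suM (ue h.hF H) *ᵥ x = x + hh x v • (w + s • v) - hh x w • v := ue_mulVec h.hF H x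

theorem UV.scale {v w : Fin n → F} {s : F} {c : F} (H : UV q (c • v) w s) (hc : c ≠ 0) :
    UV q v (c ^ q • w) (c * c ^ q * s) := by
  have hF := h.hF
  have e1 := H.vv
  have e2 := H.vw
  have e3 := H.sw
  rw [herm_smul_left, herm_smul_right] at e1
  rw [herm_smul_left] at e2
  have hc' : c ^ q ≠ 0 := pow_ne_zero _ hc
  refine ⟨?_, ?_, ?_⟩
  · exact (mul_eq_zero.1 ((mul_eq_zero.1 e1).resolve_left hc)).resolve_left hc'
  · rw [herm_smul_right, (mul_eq_zero.1 e2).resolve_left hc, mul_zero]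
  · rw [herm_smul_left, herm_smul_right, mul_pow, mul_pow, pow_q_pow_q hF, ← frobQ_apply hF s, frobQ_apply]
    linear_combination (c * c ^ q) * e3

/-- Rescaling the base vector of a unipotent element. -/
theorem ue_scale {v w : Fin n → F} {s : F} {c : F} (H : UV q (c • v) w s) (hc : c ≠ 0) :
    ue h.hF H = ue h.hF (UV.scale H hc) := by
  have hF := h.hF
  apply su_ext
  intro x
  show suM (ue hF H) *ᵥ x = suM (ue hF (UV.scale H hc)) *ᵥ x
  rw [suM_ue, suM_ue, herm_smul_right, herm_smul_right, pow_q_pow_q hF]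
  module

theorem ue_conj' (g : Cfsg.SU n F q) {v w : Fin n → F} {s : F} (H : UV q v w s) :
    g * ue h.hF H * g⁻¹ = ue h.hF (UV.conj h.hF H g) := ue_conj h.hF H g

/-- Any isotropic vector has a partner. -/
theorem exists_partner {v : Fin n → F} (hv : v ≠ 0) (hvv : hh v v = 0) : ∃ f, hh f f = 0 ∧ hh v f = 1 := by
  obtain ⟨f, -, h1, h2⟩ := exists_partner_in h.hF (nds_top h.hF) (Submodule.mem_top (x := v)) hv hvv
  exact ⟨f, h1, h2⟩

/-- The trace map is onto the fixed field. -/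
theorem exists_s (w : Fin n → F) : ∃ s : F, s + s ^ q + hh w w = 0 := by
  have hF := h.hF
  obtain ⟨t, ht⟩ := exists_trace_eq' hF (- hh w w) (by
    rw [neg_pow_q hF, herm_self_conj hF])
  exact ⟨t, by rw [ht]; ring⟩

include h in
/-- A non-zero element of trace zero. -/
theorem exists_s0 : ∃ s : F, s ≠ 0 ∧ s + s ^ q = 0 := by
  have hF := h.hF
  have hq := two_le_q hF
  -- a non-zero element of the kernel of the trace
  by_contra hcon
  push Not at hcon
  obtain ⟨c, hc⟩ : ∃ c : F, c ^ q ≠ c := by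
    by_contra h2
    push Not at h2
    apply frobQ_ne_id hF
    ext x
    rw [frobQ_apply]
    exact h2 x
  apply hc
  have := hcon (c - c ^ q)
  by_contra h3
  apply this (sub_ne_zero.2 (Ne.symm h3))
  rw [← frobQ_apply hF (c - c ^ q), map_sub, frobQ_apply, frobQ_apply, pow_q_pow_q hF]
  ring

/-- The unipotent radical of a point stabiliser, in `SU`. -/
noncomputable def qSub {v : Fin n → F} (hvv : hh v v = 0) : Subgroup (Cfsg.SU n F q) where
  carrier := {g | ∃ (w : Fin n → F) (s : F) (H : UV q v w s), g = ue h.hF H}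
  mul_mem' := by
    rintro _ _ ⟨w₁, s₁, H₁, rfl⟩ ⟨w₂, s₂, H₂, rfl⟩
    exact ⟨_, _, UV.mul h.hF H₁ H₂, ue_mul h.hF H₁ H₂⟩
  one_mem' := by
    have H : UV q v (0 : Fin n → F) 0 := uv_root h.hF hvv (by
      have hq := two_le_q h.hF
      rw [zero_pow (by omega)]
      ring)
    exact ⟨0, 0, H, (ue_zero h.hF hvv H).symm⟩
  inv_mem' := by
    rintro _ ⟨w, s, H, rfl⟩
    exact ⟨_, _, UV.inv h.hF H, ue_inv h.hF H⟩

theorem ue_mem_qSub {v w : Fin n → F} {s : F} (H : UV q v w s) : ue h.hF H ∈ qSub H.vv := ⟨w, s, H, rfl⟩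

/-- The unipotent radical of a point stabiliser. -/
noncomputable def Qr {v : Fin n → F} (hvv : hh v v = 0) : Subgroup (Cfsg.PSU n F q) := (qSub hvv).map pr

theorem pr_ue_mem_Qr {v w : Fin n → F} {s : F} (H : UV q v w s) : pr (ue h.hF H) ∈ Qr H.vv :=
  Subgroup.mem_map_of_mem _ (ue_mem_qSub H)

/-- The root group. -/
noncomputable def Xr {v : Fin n → F} (hvv : hh v v = 0) : Subgroup (Cfsg.PSU n F q) := (rootSub h.hF hvv).map pr

theorem mem_Xr {v : Fin n → F} {hvv : hh v v = 0} {y : Cfsg.PSU n F q} :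
    y ∈ Xr hvv ↔ ∃ (s : F) (H : UV q v (0 : Fin n → F) s), y = pr (ue h.hF H) := by
  constructor
  · rintro ⟨_, ⟨s, H, rfl⟩, rfl⟩
    exact ⟨s, H, rfl⟩
  · rintro ⟨s, H, rfl⟩
    exact ⟨_, ⟨s, H, rfl⟩, rfl⟩

theorem Xr_le_Qr {v : Fin n → F} (hvv : hh v v = 0) : Xr hvv ≤ Qr hvv := by
  intro y hy
  obtain ⟨s, H, rfl⟩ := mem_Xr.1 hy
  exact pr_ue_mem_Qr H

theorem Qr_le_P {v : Fin n → F} (hv : v ≠ 0) (hvv : hh v v = 0) : Qr hvv ≤ P (isoMk hv hvv) := by
  rintro _ ⟨_, ⟨w, s, H, rfl⟩, rfl⟩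
  show pr (ue h.hF H) ∈ _
  rw [mem_P_iff]
  refine ⟨1, ?_⟩
  rw [suM_ue, hvv, H.vw]
  simp

theorem Xr_le_P {v : Fin n → F} (hv : v ≠ 0) (hvv : hh v v = 0) : Xr hvv ≤ P (isoMk hv hvv) :=
  (Xr_le_Qr hvv).trans (Qr_le_P hv hvv)

/-- A point fixed by the unipotent radical is the base point. -/
theorem fixed_unique {v z : Fin n → F} (hv : v ≠ 0) (hvv : hh v v = 0) (hz : z ≠ 0) (hzz : hh z z = 0)
    (hfix : ∀ y ∈ Qr hvv, y ∈ P (isoMk hz hzz)) : isoMk hv hvv = isoMk hz hzz := by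
  have hF := h.hF
  by_contra hne
  have hnp : ∀ c : F, c • v ≠ z := by
    rintro c rfl
    apply hne
    rw [isoMk_eq_iff]
    have hc : c ≠ 0 := by
      rintro rfl
      exact hz (zero_smul _ _)
    exact ⟨c⁻¹, inv_ne_zero hc, by rw [smul_smul, inv_mul_cancel₀ hc, one_smul]⟩
  have key : ∀ {w : Fin n → F} {s : F} (H : UV q v w s) (b : F), (suM (ue hF H)) *ᵥ z = z + b • v → b = 0 := by
    intro w s H b hb
    have h1 := hfix _ (pr_ue_mem_Qr H)
    rw [mem_P_iff] at h1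
    obtain ⟨c, hc⟩ := h1
    rw [hb] at hc
    by_contra hb0
    have h2 : (c - 1) • z = b • v := by
      rw [sub_smul, one_smul, ← hc]
      abel
    by_cases hc1 : c = 1
    · rw [hc1, sub_self, zero_smul] at h2
      exact hb0 ((smul_eq_zero.1 h2.symm).resolve_right hv)
    · apply hnp ((c - 1)⁻¹ * b)
      rw [← smul_smul, ← h2, smul_smul, inv_mul_cancel₀ (sub_ne_zero.2 hc1), one_smul]
  by_cases hzv : hh z v = 0
  · obtain ⟨a, -, h1, h2⟩ := exists_sep hF (nds_top hF) (Submodule.mem_top (x := v)) (Submodule.mem_top (x := z)) hv hnp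
    obtain ⟨s, hs⟩ := exists_s (n := n) (q := q) (F := F) a
    have H : UV q v a s := ⟨hvv, h1, hs⟩
    have := key H (- hh z a) (by
      rw [suM_ue, hzv, zero_smul, add_zero, neg_smul, sub_eq_add_neg])
    rw [h2] at this
    exact one_ne_zero (neg_eq_zero.1 this)
  · obtain ⟨s, hs0, hs⟩ := exists_s0 (n := n) (q := q) (F := F)
    have H : UV q v (0 : Fin n → F) s := uv_root hF hvv hs
    have := key H (hh z v * s) (by
      rw [root_apply])
    exact (mul_ne_zero hzv hs0) this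

end main

end Cfsg.Agent.Lib.AutPSU
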