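import Mathlib
import Cfsg.Agent.Lib.AutPSU.Basic

/-! `p`-subgroups of `PSU`, the centre of a Sylow subgroup is a root group. -/

set_option autoImplicit false
set_option linter.unusedSimpArgs false
set_option linter.unusedVariables false
set_option linter.unusedSectionVars false

namespace Cfsg.Agent.Lib.AutPSU

open Matrix Module MulAction Cfsg.Agent.Lib.Classical
open scoped LinearAlgebra.Projectivization

variable {F : Type*} [Field F] [Fintype F] {q n : ℕ}

local notation "hh" => Cfsg.hermForm n F q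

section main

variable [h : Good n q F]

/-! ### Conjugation -/

theorem UV.conjc {v w : Fin n → F} {s c : F} (H : UV q v w s) (A : Cfsg.SU n F q) (hA : suM A *ᵥ v = c • v) :
    UV q (c • v) (suM A *ᵥ w) s := by
  have H1 := UV.conj h.hF H A
  have e : (A.1 : Matrix.SpecialLinearGroup (Fin n) F).1 *ᵥ v = c • v := hA
  rw [e] at H1
  exact H1

/-- The conjugate of a unipotent element by an element stabilising the base line. -/
theorem UV.conjs {v w : Fin n → F} {s c : F} (H : UV q v w s) (A : Cfsg.SU n F q) (hA : suM A *ᵥ v = c • v) (hc : c ≠ 0) :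
    UV q v (c ^ q • suM A *ᵥ w) (c * c ^ q * s) := UV.scale (UV.conjc H A hA) hc

theorem conj_ue {v w : Fin n → F} {s c : F} (H : UV q v w s) (A : Cfsg.SU n F q) (hA : suM A *ᵥ v = c • v) (hc : c ≠ 0) :
    A * ue h.hF H * A⁻¹ = ue h.hF (UV.conjs H A hA hc) := by
  rw [ue_conj', ← ue_scale (UV.conjc H A hA) hc]
  exact ue_congr _ _ hA rfl rfl

theorem ne_zero_of_eig {A : Cfsg.SU n F q} {v : Fin n → F} {c : F} (hv : v ≠ 0) (hA : suM A *ᵥ v = c • v) : c ≠ 0 := by
  rintro rfl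
  apply su_mulVec_ne_zero A hv
  rw [hA, zero_smul]

theorem Qr_normal {v : Fin n → F} (hv : v ≠ 0) (hvv : hh v v = 0) {t y : Cfsg.PSU n F q} (ht : t ∈ P (isoMk hv hvv))
    (hy : y ∈ Qr hvv) : t * y * t⁻¹ ∈ Qr hvv := by
  obtain ⟨A, rfl⟩ := pr_surj t
  obtain ⟨_, ⟨w, s, H, rfl⟩, rfl⟩ := hy
  obtain ⟨c, hc⟩ := (mem_P_iff hv hvv).1 ht
  have hc0 := ne_zero_of_eig hv hc
  show pr A * pr (ue h.hF H) * (pr A)⁻¹ ∈ _
  rw [← map_inv, ← map_mul, ← map_mul, conj_ue H A hc hc0]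
  exact pr_ue_mem_Qr _

theorem Xr_normal {v : Fin n → F} (hv : v ≠ 0) (hvv : hh v v = 0) {t y : Cfsg.PSU n F q} (ht : t ∈ P (isoMk hv hvv))
    (hy : y ∈ Xr hvv) : t * y * t⁻¹ ∈ Xr hvv := by
  obtain ⟨A, rfl⟩ := pr_surj t
  obtain ⟨s, H, rfl⟩ := mem_Xr.1 hy
  obtain ⟨c, hc⟩ := (mem_P_iff hv hvv).1 ht
  have hc0 := ne_zero_of_eig hv hc
  rw [← map_inv, ← map_mul, ← map_mul, conj_ue H A hc hc0]
  have H' : UV q v (0 : Fin n → F) (c * c ^ q * s) := by
    have H2 := UV.conjs H A hc hc0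
    rwa [Matrix.mulVec_zero, smul_zero] at H2
  rw [mem_Xr]
  refine ⟨_, H', ?_⟩
  rw [ue_congr _ H' rfl (by rw [Matrix.mulVec_zero, smul_zero]) rfl]

/-! ### Elements of `p`-power order -/

section pgroup

variable {p : ℕ} [Fact p.Prime] [CharP F p]

theorem eq_one_of_pow {x : F} {k : ℕ} (hx : x ^ p ^ k = 1) : x = 1 := by
  have h1 : (x - 1) ^ p ^ k = 0 := by
    rw [sub_pow_char_pow, hx, one_pow, sub_self]
  exact sub_eq_zero.1 (pow_eq_zero_iff (pow_ne_zero k (Fact.out : p.Prime).ne_zero) |>.1 h1)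

theorem ue_pow {v w : Fin n → F} {s : F} (H : UV q v w s) (k : ℕ) :
    ∃ (s' : F) (H' : UV q v ((k : F) • w) s'), (ue h.hF H) ^ k = ue h.hF H' := by
  induction k with
  | zero =>
    have H0 : UV q v (((0 : ℕ) : F) • w) 0 := by
      have := uv_root h.hF H.vv (s := 0) (by
        have hq := two_le_q h.hF
        rw [zero_pow (by omega)]
        ring)
      have e : ((0 : ℕ) : F) • w = 0 := by simp
      rw [e]
      exact this
    refine ⟨0, H0, ?_⟩
    rw [pow_zero]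
    have H1 : UV q v (0 : Fin n → F) 0 := by
      have e : ((0 : ℕ) : F) • w = 0 := by simp
      rw [e] at H0
      exact H0
    rw [ue_congr H0 H1 rfl (by simp) rfl, ue_zero h.hF H.vv H1]
  | succ k ih =>
    obtain ⟨s', H', e⟩ := ih
    have e1 : ((k : F) • w) + w = ((k + 1 : ℕ) : F) • w := by
      push_cast
      rw [add_smul, one_smul]
    have H2 := UV.mul h.hF H' H
    rw [e1] at H2
    refine ⟨_, H2, ?_⟩
    rw [pow_succ, e, ue_mul]
    exact ue_congr _ _ rfl e1 rfl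

theorem root_pow {v : Fin n → F} {s : F} (H : UV q v (0 : Fin n → F) s) (k : ℕ) (x : Fin n → F) :
    suM ((ue h.hF H) ^ k) *ᵥ x = x + ((k : F) * (hh x v * s)) • v := by
  induction k generalizing x with
  | zero =>
    rw [pow_zero, su_one_mulVec]
    simp
  | succ k ih =>
    rw [pow_succ, su_mul_mulVec, root_apply, ih, herm_add_left, herm_smul_left, H.vv]
    push_cast
    module

theorem ue_pow_pow {v w : Fin n → F} {s : F} (H : UV q v w s) : (ue h.hF H) ^ (p ^ 2) = 1 := by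
  obtain ⟨s', H', e⟩ := ue_pow H p
  have e0 : ((p : ℕ) : F) • w = 0 := by
    rw [CharP.cast_eq_zero, zero_smul]
  have H2 : UV q v (0 : Fin n → F) s' := by
    rw [e0] at H'
    exact H'
  rw [sq, pow_mul, e, ue_congr H' H2 rfl e0 rfl]
  apply su_ext
  intro x
  show suM ((ue h.hF H2) ^ p) *ᵥ x = suM 1 *ᵥ x
  rw [root_pow, CharP.cast_eq_zero, zero_mul, zero_smul, add_zero, su_one_mulVec]

theorem qSub_isPGroup {v : Fin n → F} (hvv : hh v v = 0) : IsPGroup p (qSub hvv : Subgroup (Cfsg.SU n F q)) := by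
  rintro ⟨_, ⟨w, s, H, rfl⟩⟩
  refine ⟨2, ?_⟩
  apply Subtype.ext
  exact ue_pow_pow H

theorem Qr_isPGroup {v : Fin n → F} (hvv : hh v v = 0) : IsPGroup p (Qr hvv : Subgroup (Cfsg.PSU n F q)) :=
  (qSub_isPGroup hvv).map pr

instance pts_finite : Finite (IsoPt n F q) := by
  haveI : Finite (ℙ F (Fin n → F)) := by infer_instance
  exact Subtype.finite

include h in
theorem exists_iso : ∃ v : Fin n → F, v ≠ 0 ∧ hh v v = 0 := by
  have hfr : 2 ≤ finrank F (⊤ : Submodule F (Fin n → F)) := by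
    rw [finrank_top_fin h.hF]
    have := h.hn
    omega
  obtain ⟨v, -, hv, hvv⟩ := exists_isotropic_in h.hF (nds_top h.hF) hfr
  exact ⟨v, hv, hvv⟩

include h in
theorem not_dvd_card_pts (p : ℕ) [Fact p.Prime] [CharP F p] : ¬ p ∣ Nat.card (IsoPt n F q) := by
  obtain ⟨v, hv, hvv⟩ := exists_iso (n := n) (q := q) (F := F)
  have hG := Qr_isPGroup (p := p) hvv
  have h1 := hG.card_modEq_card_fixedPoints (IsoPt n F q)
  have h2 : MulAction.fixedPoints (Qr hvv : Subgroup (Cfsg.PSU n F q)) (IsoPt n F q) = {isoMk hv hvv} := by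
    ext x
    simp only [MulAction.mem_fixedPoints, Set.mem_singleton_iff]
    constructor
    · intro hx
      obtain ⟨z, hz, hzz, rfl⟩ := isoPt_ind x
      refine (fixed_unique hv hvv hz hzz (fun y hy => ?_)).symm
      exact hx ⟨y, hy⟩
    · rintro rfl ⟨y, hy⟩
      exact Qr_le_P hv hvv hy
  rw [h2] at h1
  have h3 : Nat.card (↑({isoMk hv hvv} : Set (IsoPt n F q))) = 1 := by simp
  rw [h3] at h1
  intro h4
  have h5 : Nat.card (IsoPt n F q) % p = 0 := Nat.mod_eq_zero_of_dvd h4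
  have hp : p.Prime := Fact.out
  have h6 : 1 % p = 1 := Nat.mod_eq_of_lt hp.one_lt
  have h7 := h1
  rw [Nat.ModEq, h5, h6] at h7
  exact zero_ne_one h7

/-- A `p`-subgroup fixes a point. -/
theorem exists_fixed {R : Subgroup (Cfsg.PSU n F q)} (hR : IsPGroup p R) : ∃ x : IsoPt n F q, R ≤ P x := by
  obtain ⟨x, hx⟩ := hR.nonempty_fixed_point_of_prime_not_dvd_card (IsoPt n F q) (not_dvd_card_pts p)
  refine ⟨x, fun r hr => ?_⟩
  exact hx ⟨r, hr⟩

/-- The eigenvalue of a lift of an element of `p`-power order is a central scalar. -/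
theorem eig_central {A : Cfsg.SU n F q} {k : ℕ} (hA : (pr A) ^ p ^ k = 1) {v : Fin n → F} (hv : v ≠ 0) {c : F}
    (hc : suM A *ᵥ v = c • v) : c ^ n = 1 ∧ c ^ (q + 1) = 1 := by
  have h1 : pr (A ^ p ^ k) = 1 := by rwa [map_pow]
  obtain ⟨a, ha⟩ := pr_eq_one_iff.1 h1
  obtain ⟨-, h2, h3⟩ := scalar_facts ha
  have h4 : ∀ m : ℕ, suM (A ^ m) *ᵥ v = c ^ m • v := by
    intro m
    induction m with
    | zero =>
      rw [pow_zero, su_one_mulVec, pow_zero, one_smul]
    | succ m ih =>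
      rw [pow_succ, su_mul_mulVec, hc, mulVec_smul, ih, smul_smul, pow_succ, mul_comm]
  have h5 := h4 (p ^ k)
  rw [ha, Matrix.smul_mulVec, one_mulVec] at h5
  have h6 : a = c ^ p ^ k := smul_left_injective F hv h5
  constructor
  · apply eq_one_of_pow (p := p) (k := k)
    rw [← pow_mul, mul_comm, pow_mul, ← h6, h2]
  · apply eq_one_of_pow (p := p) (k := k)
    rw [← pow_mul, mul_comm, pow_mul, ← h6, h3]

/-- A lift fixing the vector. -/
theorem exists_lift_fix {r : Cfsg.PSU n F q} {k : ℕ} (hr : r ^ p ^ k = 1) {v : Fin n → F} (hv : v ≠ 0) (hvv : hh v v = 0)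
    (hP : r ∈ P (isoMk hv hvv)) : ∃ A : Cfsg.SU n F q, pr A = r ∧ suM A *ᵥ v = v := by
  obtain ⟨A, rfl⟩ := pr_surj r
  obtain ⟨c, hc⟩ := (mem_P_iff hv hvv).1 hP
  have hc0 := ne_zero_of_eig hv hc
  obtain ⟨h1, h2⟩ := eig_central hr hv hc
  have h3 : (c⁻¹) ^ n = 1 := by rw [inv_pow, h1, inv_one]
  have h4 : (c⁻¹) ^ (q + 1) = 1 := by rw [inv_pow, h2, inv_one]
  refine ⟨scSU c⁻¹ h3 h4 * A, ?_, ?_⟩
  · rw [map_mul, pr_scSU, one_mul]
  · rw [su_mul_mulVec, hc, mulVec_smul, scSU_coe, Matrix.smul_mulVec, one_mulVec, smul_smul, mul_inv_cancel₀ hc0, one_smul]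

/-- Elements of `p`-power order fixing a point centralise its root group. -/
theorem Xr_comm {r y : Cfsg.PSU n F q} {k : ℕ} (hr : r ^ p ^ k = 1) {v : Fin n → F} (hv : v ≠ 0) (hvv : hh v v = 0)
    (hP : r ∈ P (isoMk hv hvv)) (hy : y ∈ Xr hvv) : r * y = y * r := by
  obtain ⟨A, rfl, hA⟩ := exists_lift_fix hr hv hvv hP
  obtain ⟨s, H, rfl⟩ := mem_Xr.1 hy
  have h1 : A * ue h.hF H * A⁻¹ = ue h.hF H := by
    rw [ue_conj']
    exact ue_congr _ _ hA (by
      show suM A *ᵥ 0 = 0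
      rw [Matrix.mulVec_zero]) rfl
  have h2 : A * ue h.hF H = ue h.hF H * A := mul_inv_eq_iff_eq_mul.1 h1
  rw [← map_mul, ← map_mul, h2]

end pgroup

/-! ### Elements fixing the base point and acting trivially on the quotient -/

/-- The shape of the unipotent radical. -/
theorem gu_fix_eq_ue {Y : Matrix (Fin n) (Fin n) F} (hY : ∀ x y : Fin n → F, hh (Y *ᵥ x) (Y *ᵥ y) = hh x y) {v : Fin n → F}
    (hv : v ≠ 0) (hvv : hh v v = 0) (hYv : Y *ᵥ v = v) (htriv : ∀ w : Fin n → F, hh w v = 0 → ∃ a : F, Y *ᵥ w = w + a • v) :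
    ∃ (w₀ : Fin n → F) (s₀ : F) (H : UV q v w₀ s₀), ∀ x, Y *ᵥ x = x + hh x v • (w₀ + s₀ • v) - hh x w₀ • v := by
  have hF := h.hF
  obtain ⟨f, hff, hvf⟩ := exists_partner hv hvv
  have hfv : hh f v = 1 := herm_fe hF hvf
  set y := Y *ᵥ f with hy
  set s₀ := hh y f with hs₀
  set w₀ := y - f - s₀ • v with hw₀
  have hyv : hh y v = 1 := by
    rw [hy, ← hfv]
    nth_rewrite 1 [← hYv]
    exact hY f v
  have hw0v : hh w₀ v = 0 := by
    rw [hw₀, herm_sub_left, herm_sub_left, herm_smul_left, hyv, hfv, hvv]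
    ring
  have hq := two_le_q hF
  have hvw0 : hh v w₀ = 0 := by
    rw [herm_conj hF w₀ v, hw0v, zero_pow (by omega)]
  have hw0f : hh w₀ f = 0 := by
    rw [hw₀, herm_sub_left, herm_sub_left, herm_smul_left, hff, hvf, ← hs₀]
    ring
  have hfw0 : hh f w₀ = 0 := by
    rw [herm_conj hF w₀ f, hw0f, zero_pow (by omega)]
  have hydec : y = f + w₀ + s₀ • v := by
    rw [hw₀]
    abel
  have hyy : hh y y = 0 := by
    rw [hy, hY, hff]
  have H : UV q v w₀ s₀ := by
    refine ⟨hvv, hvw0, ?_⟩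
    rw [hydec] at hyy
    simp only [herm_add_left, herm_add_right hF, herm_smul_left, herm_smul_right, hff, hfw0, hfv, hw0f, hw0v, hvf, hvw0, hvv] at hyy
    linear_combination hyy
  refine ⟨w₀, s₀, H, fun x => ?_⟩
  set a := hh x v with ha
  set x₁ := x - a • f with hx₁
  have hx₁v : hh x₁ v = 0 := by
    rw [hx₁, herm_sub_left, herm_smul_left, hfv, ← ha]
    ring
  obtain ⟨l, hl⟩ := htriv x₁ hx₁v
  have hvy : hh v y = 1 := by
    rw [herm_conj hF y v, hyv, one_pow]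
  have h1 : hh (Y *ᵥ x₁) (Y *ᵥ f) = hh x₁ f := hY x₁ f
  rw [hl, ← hy, herm_add_left, herm_smul_left, hvy] at h1
  have h2 : hh x₁ y = hh x₁ f + hh x₁ w₀ := by
    rw [hydec, herm_add_right hF, herm_add_right hF, herm_smul_right, hx₁v]
    ring
  have h3 : hh x₁ w₀ = hh x w₀ := by
    rw [hx₁, herm_sub_left, herm_smul_left, hfw0]
    ring
  have h4 : l = - hh x w₀ := by
    rw [h2, h3] at h1
    linear_combination h1
  have h5 : x = x₁ + a • f := by
    rw [hx₁]
    abel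
  have h6 : Y *ᵥ x = x₁ + l • v + a • y := by
    nth_rewrite 1 [h5]
    rw [mulVec_add, mulVec_smul, hl]
  rw [h6, h4, hydec, hx₁]
  module

end main

end Cfsg.Agent.Lib.AutPSU
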