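import Mathlib
import Cfsg.Agent.Lib.AutPSU.Sylow

/-! The image of a root group under an automorphism is a root group. -/

set_option autoImplicit false
set_option linter.unusedSimpArgs false
set_option linter.unusedVariables false
set_option linter.unusedSectionVars false

namespace Cfsg.Agent.Lib.AutPSU

open Matrix Module MulAction Cfsg.Agent.Lib.Classical
open scoped LinearAlgebra.Projectivization

variable {F : Type*} [Field F] [Fintype F] {q n : ℕ}

local notation "hh" => Cfsg.hermForm n F q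

section main

variable [h : Good n q F]

theorem suM_ue_base {v w : Fin n → F} {s : F} (H : UV q v w s) : suM (ue h.hF H) *ᵥ v = v := by
  rw [suM_ue, H.vv, H.vw]
  simp

theorem su_eq_of_suM {A B : Cfsg.SU n F q} (e : suM A = suM B) : A = B := Subtype.ext (Subtype.ext e)

/-- `pr` is injective on the unipotent elements. -/
theorem ue_eq_of_pr {v w w' : Fin n → F} {s s' : F} (hv : v ≠ 0) (H : UV q v w s) (H' : UV q v w' s')
    (e : pr (ue h.hF H) = pr (ue h.hF H')) : ue h.hF H = ue h.hF H' := by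
  obtain ⟨a, ha⟩ := pr_eq_iff.1 e
  have h1 := congrArg (fun M => M *ᵥ v) ha
  simp only [suM_ue_base, Matrix.smul_mulVec] at h1
  have h2 : a = 1 := by
    have h3 : (a - 1) • v = 0 := by
      rw [sub_smul, one_smul, ← h1, sub_self]
    exact sub_eq_zero.1 ((smul_eq_zero.1 h3).resolve_right hv)
  apply su_eq_of_suM
  rw [ha, h2, one_smul]

/-- Comparison of two unipotent elements on a partner. -/
theorem ue_eq_partner {v w w' f : Fin n → F} {s s' : F} (hv : v ≠ 0) (H : UV q v w s) (H' : UV q v w' s') (hfv : hh f v = 1)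
    (e : ue h.hF H = ue h.hF H') : w + s • v - hh f w • v = w' + s' • v - hh f w' • v := by
  have h1 := congrArg (fun g => suM g *ᵥ f) e
  simp only [suM_ue, hfv, one_smul] at h1
  have h2 : f + (w + s • v - hh f w • v) = f + (w' + s' • v - hh f w' • v) := by
    rw [← add_sub_assoc, ← add_sub_assoc]
    exact h1
  exact add_left_cancel h2

/-- The centraliser of the unipotent radical is the root group. -/
theorem mem_Xr_of_comm {v : Fin n → F} (hv : v ≠ 0) (hvv : hh v v = 0) {z : Cfsg.PSU n F q}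
    (hz : ∀ y ∈ Qr hvv, z * y = y * z) : z ∈ Xr hvv := by
  have hF := h.hF
  have hq := two_le_q hF
  obtain ⟨Z, rfl⟩ := pr_surj z
  -- the element fixes the base point
  have h0 : ∃ c : F, suM Z *ᵥ v = c • v := by
    have h1 : Qr hvv ≤ P (isoMk (su_mulVec_ne_zero Z hv) ((su_form Z v v).trans hvv)) := by
      intro y hy
      rw [MulAction.mem_stabilizer_iff, ← pr_smul_isoMk, ← mul_smul, ← hz y hy, mul_smul]
      have : y • (isoMk hv hvv : IsoPt n F q) = isoMk hv hvv := Qr_le_P hv hvv hy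
      rw [this]
    have h2 := fixed_unique hv hvv (su_mulVec_ne_zero Z hv) ((su_form Z v v).trans hvv) h1
    rw [isoMk_eq_iff] at h2
    obtain ⟨c, hc, hc2⟩ := h2
    refine ⟨c⁻¹, ?_⟩
    have h3 : suM Z *ᵥ v = c⁻¹ • (c • suM Z *ᵥ v) := by
      rw [smul_smul, inv_mul_cancel₀ hc, one_smul]
    rw [hc2] at h3
    exact h3
  obtain ⟨c, hc⟩ := h0
  have hc0 := ne_zero_of_eig hv hc
  obtain ⟨f, hff, hvf⟩ := exists_partner hv hvv
  have hfv : hh f v = 1 := herm_fe hF hvf
  -- conjugation is trivial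
  have key : ∀ {w : Fin n → F} {s : F} (H : UV q v w s), ue hF (UV.conjs H Z hc hc0) = ue hF H := by
    intro w s H
    apply ue_eq_of_pr hv
    rw [← conj_ue H Z hc hc0, map_mul, map_mul, hz _ (pr_ue_mem_Qr H), map_inv, mul_inv_cancel_right]
  -- the norm is one
  have hN : c * c ^ q = 1 := by
    obtain ⟨s₀, hs0, hs⟩ := exists_s0 (n := n) (q := q) (F := F)
    have H : UV q v (0 : Fin n → F) s₀ := uv_root hF hvv hs
    have h1 := ue_eq_partner hv _ _ hfv (key H)
    simp only [Matrix.mulVec_zero, smul_zero, zero_add, herm_zero_right hF, zero_smul, sub_zero] at h1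
    have h2 : (c * c ^ q - 1) • (s₀ • v) = 0 := by
      rw [sub_smul, one_smul, smul_smul, h1, sub_self]
    have h3 := (smul_eq_zero.1 h2).resolve_right (smul_ne_zero hs0 hv)
    exact sub_eq_zero.1 h3
  have hqc : (c ^ q) ^ q = c := pow_q_pow_q hF c
  -- the rescaled element
  set Y : Matrix (Fin n) (Fin n) F := c ^ q • suM Z with hY
  have hYx : ∀ x, Y *ᵥ x = c ^ q • (suM Z *ᵥ x) := fun x => by rw [hY, Matrix.smul_mulVec]
  have hiso : ∀ x y : Fin n → F, hh (Y *ᵥ x) (Y *ᵥ y) = hh x y := by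
    intro x y
    rw [hYx, hYx, herm_smul_left, herm_smul_right, hqc]
    have := su_form Z x y
    have e : hh (suM Z *ᵥ x) (suM Z *ᵥ y) = hh x y := this
    rw [e, ← mul_assoc, mul_comm (c ^ q) c, hN, one_mul]
  have hYv : Y *ᵥ v = v := by
    rw [hYx, hc, smul_smul, mul_comm, hN, one_smul]
  have htriv : ∀ w : Fin n → F, hh w v = 0 → ∃ a : F, Y *ᵥ w = w + a • v := by
    intro w hwv
    have hvw : hh v w = 0 := by
      rw [herm_conj hF w v, hwv, zero_pow (by omega)]
    obtain ⟨s, hs⟩ := exists_s (n := n) (q := q) (F := F) w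
    have H : UV q v w s := ⟨hvv, hvw, hs⟩
    have h1 := ue_eq_partner hv _ _ hfv (key H)
    rw [hN, one_mul] at h1
    refine ⟨hh f (c ^ q • suM Z *ᵥ w) - hh f w, ?_⟩
    rw [hYx, sub_smul]
    have h2 : c ^ q • suM Z *ᵥ w = w + s • v - hh f w • v - s • v + hh f (c ^ q • suM Z *ᵥ w) • v := by
      rw [← h1]
      abel
    nth_rewrite 1 [h2]
    abel
  obtain ⟨w₀, s₀, H₀, hY0⟩ := gu_fix_eq_ue hiso hv hvv hYv htriv
  have hZ : pr Z = pr (ue hF H₀) := by
    rw [pr_eq_iff]
    refine ⟨c ^ q, ?_⟩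
    apply Matrix.ext_of_mulVec_single
    intro i
    have e1 := hY0 (Pi.single i 1)
    rw [← suM_ue H₀] at e1
    rw [← e1]
  have hcomm : ∀ w : Fin n → F, hh w v = 0 → hh w w₀ = hh w₀ w := by
    intro w hwv
    have hvw : hh v w = 0 := by
      rw [herm_conj hF w v, hwv, zero_pow (by omega)]
    obtain ⟨s, hs⟩ := exists_s (n := n) (q := q) (F := F) w
    have H : UV q v w s := ⟨hvv, hvw, hs⟩
    have h1 := hz _ (pr_ue_mem_Qr H)
    rw [hZ, ← map_mul, ← map_mul, ue_mul, ue_mul] at h1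
    have h2 := ue_eq_of_pr hv _ _ h1
    have h3 := ue_eq_partner hv _ _ hfv h2
    rw [add_comm w₀ w, herm_add_right hF] at h3
    have h4 : (hh w w₀ - hh w₀ w) • v = 0 := by
      have h5 : (s₀ + s - hh w w₀) • v = (s + s₀ - hh w₀ w) • v := by
        have h6 := add_left_cancel (a := w + w₀) (by
          have e1 := sub_left_injective h3
          exact e1)
        exact h6
      rw [← sub_eq_zero, ← sub_smul] at h5
      rw [← neg_eq_zero, ← neg_smul, ← h5]
      congr 1
      ring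
    have h7 := (smul_eq_zero.1 h4).resolve_right hv
    exact sub_eq_zero.1 h7
  obtain ⟨l, hl⟩ : ∃ l : F, l ^ q ≠ l := by
    by_contra h2
    push Not at h2
    apply frobQ_ne_id hF
    ext x
    rw [frobQ_apply]
    exact h2 x
  have horth : ∀ w : Fin n → F, hh w v = 0 → hh w w₀ = 0 := by
    intro w hwv
    by_contra hb
    set b := hh w w₀ with hbdef
    have h1 := hcomm ((l / b) • w) (by rw [herm_smul_left, hwv, mul_zero])
    rw [herm_smul_left, ← hbdef, herm_conj hF ((l / b) • w) w₀, herm_smul_left, ← hbdef, div_mul_cancel₀ _ hb] at h1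
    exact hl h1.symm
  have hw₀ : ∃ c₁ : F, c₁ • v = w₀ := by
    by_contra hnp
    push Not at hnp
    obtain ⟨a, -, h1, h2⟩ := exists_sep hF (nds_top hF) (Submodule.mem_top (x := v)) (Submodule.mem_top (x := w₀)) hv hnp
    have h3 : hh a v = 0 := by
      rw [herm_conj hF v a, h1, zero_pow (by omega)]
    have h4 := horth a h3
    rw [herm_conj hF w₀ a, h2, one_pow] at h4
    exact one_ne_zero h4
  obtain ⟨c₁, hc₁⟩ := hw₀
  obtain ⟨H', e⟩ := ue_reduce hF H₀ c₁
  have e0 : w₀ - c₁ • v = 0 := by rw [hc₁, sub_self]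
  have H'' : UV q v (0 : Fin n → F) (s₀ + c₁ - c₁ ^ q) := by
    rw [e0] at H'
    exact H'
  rw [hZ, e, ue_congr H' H'' rfl e0 rfl, mem_Xr]
  exact ⟨_, H'', rfl⟩

/-- Root groups determine their points. -/
theorem Xr_le_inj {v z : Fin n → F} (hv : v ≠ 0) (hvv : hh v v = 0) (hz : z ≠ 0) (hzz : hh z z = 0) (hle : Xr hzz ≤ Xr hvv) :
    isoMk hv hvv = isoMk hz hzz := by
  have hF := h.hF
  have hq := two_le_q hF
  by_contra hne
  have hnp : ∀ c : F, c • z ≠ v := by
    rintro c rfl
    apply hne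
    rw [isoMk_eq_iff]
    have hc : c ≠ 0 := by
      rintro rfl
      exact hv (zero_smul _ _)
    exact ⟨c, hc, rfl⟩
  obtain ⟨s₀, hs0, hs⟩ := exists_s0 (n := n) (q := q) (F := F)
  have H : UV q z (0 : Fin n → F) s₀ := uv_root hF hzz hs
  have hmem := hle (mem_Xr.2 ⟨s₀, H, rfl⟩)
  have h1 := Xr_le_P hv hvv hmem
  rw [mem_P_iff, ] at h1
  obtain ⟨c, hc⟩ := h1
  rw [root_apply] at hc
  have hvz : hh v z = 0 := by
    by_contra hvz
    apply hnp ((c - 1)⁻¹ * (hh v z * s₀))
    by_cases hc1 : c = 1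
    · exfalso
      rw [hc1, one_smul] at hc
      have h5 : (hh v z * s₀) • z = 0 := by
        have := add_left_cancel (a := v) (b := (hh v z * s₀) • z) (c := 0) (by rw [add_zero]; exact hc)
        exact this
      exact (smul_ne_zero (mul_ne_zero hvz hs0) hz) h5
    · have h2 : (c - 1) • v = (hh v z * s₀) • z := by
        rw [sub_smul, one_smul, ← hc]
        abel
      rw [← smul_smul, ← h2, smul_smul, inv_mul_cancel₀ (sub_ne_zero.2 hc1), one_smul]
  have hzv : hh z v = 0 := by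
    rw [herm_conj hF v z, hvz, zero_pow (by omega)]
  have hzp : ∀ c : F, c • v ≠ z := by
    rintro c rfl
    apply hnp c⁻¹
    have hc : c ≠ 0 := by
      rintro rfl
      exact hz (zero_smul _ _)
    rw [smul_smul, inv_mul_cancel₀ hc, one_smul]
  obtain ⟨f, hff, h1, h2⟩ := exists_partner_orth hF hz hzz hv hvz hzp
  have hf0 : f ≠ 0 := by
    rintro rfl
    rw [herm_zero_right hF] at h1
    exact zero_ne_one h1
  obtain ⟨s, H', e⟩ := mem_Xr.1 hmem
  have hfv : hh f v = 0 := by
    rw [herm_conj hF v f, h2, zero_pow (by omega)]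
  have hfix : pr (ue hF H) ∈ P (isoMk hf0 hff) := by
    rw [e, mem_P_iff]
    refine ⟨1, ?_⟩
    rw [root_apply, hfv]
    simp
  rw [mem_P_iff] at hfix
  obtain ⟨c, hc⟩ := hfix
  rw [root_apply] at hc
  have hfz : hh f z = 1 := herm_fe hF h1
  rw [hfz, one_mul] at hc
  have h3 : (c - 1) • f = s₀ • z := by
    rw [sub_smul, one_smul, ← hc]
    abel
  have h4 := congrArg (fun y => hh y f) h3
  simp only [herm_smul_left, hff, h1] at h4
  rw [mul_zero, mul_one] at h4
  exact hs0 h4.symm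

theorem P_inj {x y : IsoPt n F q} (hxy : P x = P y) : x = y := by
  obtain ⟨u, hu0, hu, rfl⟩ := isoPt_ind x
  obtain ⟨z, hz0, hz, rfl⟩ := isoPt_ind y
  refine fixed_unique hu0 hu hz0 hz (fun r hr => ?_)
  rw [← hxy]
  exact Qr_le_P hu0 hu hr

/-- Point stabilisers are normalisers of root groups. -/
theorem mem_P_of_normal {v : Fin n → F} (hv : v ≠ 0) (hvv : hh v v = 0) {t : Cfsg.PSU n F q}
    (ht : ∀ y ∈ Xr hvv, t * y * t⁻¹ ∈ Xr hvv) : t ∈ P (isoMk hv hvv) := by
  obtain ⟨A, rfl⟩ := pr_surj t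
  have hA := su_mulVec_ne_zero A hv
  have hAA : hh (suM A *ᵥ v) (suM A *ᵥ v) = 0 := (su_form A v v).trans hvv
  have hle : Xr hAA ≤ Xr hvv := by
    intro y hy
    obtain ⟨s, H, rfl⟩ := mem_Xr.1 hy
    have hs := H.sw
    have H0 : UV q v (0 : Fin n → F) s := uv_root h.hF hvv (by
      rw [herm_zero_right h.hF] at hs
      simpa using hs)
    have h1 := ht _ (mem_Xr.2 ⟨s, H0, rfl⟩)
    rw [← map_inv, ← map_mul, ← map_mul, ue_conj'] at h1
    rwa [ue_congr _ H rfl (by
      show suM A *ᵥ 0 = 0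
      rw [Matrix.mulVec_zero]) rfl] at h1
  have h2 := Xr_le_inj hv hvv hA hAA hle
  rw [MulAction.mem_stabilizer_iff, pr_smul_isoMk]
  exact h2.symm

/-! ### Sylow subgroups -/

section pgroup

variable {p : ℕ} [Fact p.Prime] [CharP F p]

/-- The root group as the centre of a maximal `p`-subgroup. -/
theorem Z_eq {U : Subgroup (Cfsg.PSU n F q)} (hU : IsPGroup p U) (hmax : ∀ R : Subgroup (Cfsg.PSU n F q), IsPGroup p R → U ≤ R → R = U)
    {v : Fin n → F} (hv : v ≠ 0) (hvv : hh v v = 0) (hUP : U ≤ P (isoMk hv hvv)) (y : Cfsg.PSU n F q) :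
    y ∈ Xr hvv ↔ y ∈ U ∧ ∀ u ∈ U, y * u = u * y := by
  have hQU : Qr hvv ≤ U := by
    have h1 : IsPGroup p (U ⊔ Qr hvv : Subgroup (Cfsg.PSU n F q)) := by
      apply hU.to_sup_of_normal_right' (Qr_isPGroup hvv)
      intro u hu
      rw [Subgroup.mem_normalizer_iff]
      intro r
      constructor
      · intro hr
        exact Qr_normal hv hvv (hUP hu) hr
      · intro hr
        have := Qr_normal hv hvv (inv_mem (hUP hu)) hr
        simpa [mul_assoc] using this
    rw [← hmax _ h1 le_sup_left]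
    exact le_sup_right
  constructor
  · intro hy
    refine ⟨hQU (Xr_le_Qr hvv hy), fun u hu => ?_⟩
    obtain ⟨k, hk⟩ := hU ⟨u, hu⟩
    have hk' : u ^ p ^ k = 1 := congrArg Subtype.val hk
    exact (Xr_comm hk' hv hvv (hUP hu) hy).symm
  · rintro ⟨hy, hc⟩
    exact mem_Xr_of_comm hv hvv (fun r hr => hc r (hQU hr))

include p in
/-- The image of a root group. -/
theorem image_X (α : MulAut (Cfsg.PSU n F q)) {v : Fin n → F} (hv : v ≠ 0) (hvv : hh v v = 0) :
    ∃ (z : Fin n → F) (hz : z ≠ 0) (hzz : hh z z = 0), ∀ y, α y ∈ Xr hzz ↔ y ∈ Xr hvv := by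
  obtain ⟨S, hS⟩ := (Qr_isPGroup (p := p) hvv).exists_le_sylow
  have hSP : IsPGroup p (S : Subgroup (Cfsg.PSU n F q)) := S.isPGroup'
  obtain ⟨x', hx'⟩ := exists_fixed hSP
  obtain ⟨u, hu0, hu, rfl⟩ := isoPt_ind x'
  have hxx := fixed_unique hv hvv hu0 hu (fun r hr => hx' (hS hr))
  rw [← hxx] at hx'
  have hmax : ∀ R : Subgroup (Cfsg.PSU n F q), IsPGroup p R → (S : Subgroup (Cfsg.PSU n F q)) ≤ R → R = S :=
    fun R hR hle => S.is_maximal' hR hle
  set T : Subgroup (Cfsg.PSU n F q) := (S : Subgroup (Cfsg.PSU n F q)).map α.toMonoidHom with hT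
  have hTP : IsPGroup p T := hSP.map _
  have hTmax : ∀ R : Subgroup (Cfsg.PSU n F q), IsPGroup p R → T ≤ R → R = T := by
    intro R hR hle
    have h1 : (S : Subgroup (Cfsg.PSU n F q)) ≤ R.map α.symm.toMonoidHom := by
      intro s hs
      exact ⟨α s, hle ⟨s, hs, rfl⟩, by simp⟩
    have h2 := hmax _ (hR.map _) h1
    rw [hT, ← h2]
    ext r
    simp
  obtain ⟨y', hy'⟩ := exists_fixed hTP
  obtain ⟨z, hz, hzz, rfl⟩ := isoPt_ind y'
  refine ⟨z, hz, hzz, fun y => ?_⟩
  rw [Z_eq hTP hTmax hz hzz hy', Z_eq hSP hmax hv hvv hx']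
  constructor
  · rintro ⟨⟨s, hs, hs2⟩, h2⟩
    have hys : y = s := α.injective hs2.symm
    subst hys
    refine ⟨hs, fun u hu => α.injective ?_⟩
    rw [map_mul, map_mul]
    exact h2 _ ⟨u, hu, rfl⟩
  · rintro ⟨hy, h2⟩
    refine ⟨⟨y, hy, rfl⟩, ?_⟩
    rintro _ ⟨u, hu, rfl⟩
    show α y * α u = α u * α y
    rw [← map_mul, ← map_mul, h2 u hu]

end pgroup

/-- Root groups of a hyperbolic pair do not commute. -/
theorem Xr_not_comm {e f : Fin n → F} (hee : hh e e = 0) (hff : hh f f = 0) (hef : hh e f = 1) {s r : F} (H : UV q e (0 : Fin n → F) s)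
    (H' : UV q f (0 : Fin n → F) r) (hs : s ≠ 0) (hr : r ≠ 0) : pr (ue h.hF H) * pr (ue h.hF H') ≠ pr (ue h.hF H') * pr (ue h.hF H) := by
  have hF := h.hF
  intro hc
  rw [← map_mul, ← map_mul, pr_eq_iff] at hc
  obtain ⟨a, ha⟩ := hc
  have hfe := herm_fe hF hef
  have h1 := congrArg (fun M => M *ᵥ e) ha
  simp only [Matrix.smul_mulVec, suM_mul, ← Matrix.mulVec_mulVec, root_apply, hee, hef, hfe, herm_add_left, herm_smul_left, hff] at h1
  simp only [zero_mul, zero_smul, add_zero, one_mul, mul_zero, zero_add, mul_one] at h1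
  have hind : ∀ {x y : F}, x • e + y • f = 0 → x = 0 ∧ y = 0 := by
    intro x y hxy
    have h2 := congrArg (fun z => hh z f) hxy
    have h3 := congrArg (fun z => hh z e) hxy
    simp only [herm_add_left, herm_smul_left, hff, hef, hfe, hee, herm_zero_left] at h2 h3
    constructor
    · simpa using h2
    · simpa using h3
  have h2 : (1 - a * (1 + r * s)) • e + (r - a * r) • f = 0 := by
    have : e + r • f = a • (e + r • f + (r * s) • e) := h1
    have h3 := sub_eq_zero.2 this
    rw [← h3]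
    module
  obtain ⟨h3, h4⟩ := hind h2
  have h5 : a = 1 := by
    have : r * (1 - a) = 0 := by linear_combination h4
    have h6 := (mul_eq_zero.1 this).resolve_left hr
    linear_combination -h6
  rw [h5] at h3
  have : r * s = 0 := by linear_combination -h3
  exact (mul_ne_zero hr hs) this

/-- Root groups of orthogonal vectors commute. -/
theorem Xr_comm_of_orth {v z : Fin n → F} (hvz : hh v z = 0) {s r : F} (H : UV q v (0 : Fin n → F) s) (H' : UV q z (0 : Fin n → F) r) :
    ue h.hF H * ue h.hF H' = ue h.hF H' * ue h.hF H := by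
  have hF := h.hF
  have hq := two_le_q hF
  have hzv : hh z v = 0 := by
    rw [herm_conj hF v z, hvz, zero_pow (by omega)]
  apply su_ext
  intro x
  show suM (ue hF H * ue hF H') *ᵥ x = suM (ue hF H' * ue hF H) *ᵥ x
  rw [su_mul_mulVec, su_mul_mulVec, root_apply, root_apply, root_apply, root_apply, herm_add_left, herm_add_left,
    herm_smul_left, herm_smul_left, hzv, hvz]
  simp only [mul_zero, add_zero]
  abel

end main

end Cfsg.Agent.Lib.AutPSU
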