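import Mathlib
import Cfsg.Agent.Lib.AutPSU.Image

/-! The unipotent radical is the largest normal `p`-subgroup of the point stabiliser. -/

set_option autoImplicit false
set_option linter.unusedSimpArgs false
set_option linter.unusedVariables false
set_option linter.unusedSectionVars false

namespace Cfsg.Agent.Lib.AutPSU

open Matrix Module MulAction Cfsg.Agent.Lib.Classical
open scoped LinearAlgebra.Projectivization

variable {F : Type*} [Field F] [Fintype F] {q n : ℕ}

local notation "hh" => Cfsg.hermForm n F q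

section main

variable [h : Good n q F]

theorem herm_conj0 {x y : Fin n → F} (hxy : hh x y = 0) : hh y x = 0 := by
  have hq := two_le_q h.hF
  rw [herm_conj h.hF x y, hxy, zero_pow (by omega)]

/-- The orthogonal complement of a hyperbolic pair. -/
noncomputable abbrev Wp (e f : Fin n → F) : Submodule F (Fin n → F) := hermPerp h.hF (hypPlane e f)

theorem mem_Wp {e f x : Fin n → F} : x ∈ Wp (h := h) e f ↔ hh x e = 0 ∧ hh x f = 0 := by
  have hF := h.hF
  rw [Wp, mem_hermPerp]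
  constructor
  · intro h1
    have h2 := h1 e (Submodule.subset_span (by simp))
    have h3 := h1 f (Submodule.subset_span (by simp))
    exact ⟨h2, h3⟩
  · rintro ⟨h1, h2⟩ y hy
    obtain ⟨a, b, rfl⟩ := mem_hypPlane.1 hy
    rw [herm_add_right hF, herm_smul_right, herm_smul_right, h1, h2]
    ring

theorem Wp_nds {e f : Fin n → F} (hee : hh e e = 0) (hff : hh f f = 0) (hef : hh e f = 1) : NDS q (Wp (h := h) e f) := by
  have hF := h.hF
  have h1 := nds_inf_perp hF (nds_top hF) (hyp_nds hF hee hff hef) le_top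
  rwa [top_inf_eq] at h1

theorem Wp_finrank {e f : Fin n → F} (hee : hh e e = 0) (hff : hh f f = 0) (hef : hh e f = 1) :
    finrank F (Wp (h := h) e f) + 2 = n := by
  have hF := h.hF
  have h1 := nds_finrank hF (W := ⊤) (hyp_nds hF hee hff hef) le_top
  rw [top_inf_eq, hyp_finrank hF hee hff hef, finrank_top_fin hF] at h1
  exact h1

/-- The projection to the complement. -/
theorem prW_mem {e f : Fin n → F} (hee : hh e e = 0) (hff : hh f f = 0) (hef : hh e f = 1) (x : Fin n → F) :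
    x - hh x f • e - hh x e • f ∈ Wp (h := h) e f := hyp_decomp h.hF hee hff hef x

/-- A non-zero vector is not orthogonal to all isotropic vectors. -/
theorem exists_iso_nonorth {W : Submodule F (Fin n → F)} (hW : NDS q W) (h2 : 2 ≤ finrank F W) {t : Fin n → F} (ht : t ∈ W)
    (ht0 : t ≠ 0) : ∃ u ∈ W, hh u u = 0 ∧ hh t u ≠ 0 := by
  have hF := h.hF
  by_cases htt : hh t t = 0
  · obtain ⟨u, hu, h3, h4⟩ := exists_partner_in hF hW ht ht0 htt
    exact ⟨u, hu, h3, by rw [h4]; exact one_ne_zero⟩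
  obtain ⟨y, hy, hy0, hyy⟩ := exists_isotropic_in hF hW h2
  obtain ⟨y', hy', hyy', hyy'1⟩ := exists_partner_in hF hW hy hy0 hyy
  by_cases h3 : hh t y = 0
  · by_cases h4 : hh t y' = 0
    · obtain ⟨b, hb⟩ := exists_s (n := n) (q := q) (F := F) t
      refine ⟨y + t + b • y', W.add_mem (W.add_mem hy ht) (W.smul_mem _ hy'), ?_, ?_⟩
      · have h5 := herm_conj0 h3
        have h6 := herm_conj0 h4
        have h7 := herm_fe hF hyy'1
        simp only [herm_add_left, herm_add_right hF, herm_smul_left, herm_smul_right, hyy, hyy', hyy'1, h3, h4, h5, h6, h7]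
        linear_combination hb
      · simp only [herm_add_right hF, herm_smul_right, h3, h4]
        simpa using htt
    · exact ⟨y', hy', hyy', h4⟩
  · exact ⟨y, hy, hyy, h3⟩

/-- Irreducibility. -/
theorem irred_W {W S : Submodule F (Fin n → F)} (hW : NDS q W) (h2 : 2 ≤ finrank F W)
    (hinv : ∀ (u w' : Fin n → F) (s : F) (H : UV q u w' s), u ∈ W → w' ∈ W → ∀ x ∈ S, suM (ue h.hF H) *ᵥ x ∈ S)
    {t : Fin n → F} (ht : t ∈ W) (hts : t ∈ S) (ht0 : t ≠ 0) : W ≤ S := by
  have hF := h.hF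
  obtain ⟨u, huW, huu, htu⟩ := exists_iso_nonorth hW h2 ht ht0
  obtain ⟨s₀, hs0, hs⟩ := exists_s0 (n := n) (q := q) (F := F)
  have hscale : ∀ {a x y : Fin n → F} {c : F}, x ∈ S → c ≠ 0 → x + c • y ∈ S → y ∈ S := by
    intro a x y c hx hc h1
    have h3 := S.sub_mem h1 hx
    rw [add_sub_cancel_left] at h3
    have h4 := S.smul_mem c⁻¹ h3
    rwa [smul_smul, inv_mul_cancel₀ hc, one_smul] at h4
  have H1 : UV q u (0 : Fin n → F) s₀ := uv_root hF huu hs
  have h3 := hinv u 0 s₀ H1 huW W.zero_mem t hts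
  rw [root_apply] at h3
  have huS : u ∈ S := hscale (a := 0) hts (mul_ne_zero htu hs0) h3
  have hu0 : u ≠ 0 := by
    rintro rfl
    rw [herm_zero_right hF] at htu
    exact htu rfl
  obtain ⟨u', hu'W, hu'u', huu'⟩ := exists_partner_in hF hW huW hu0 huu
  have H2 : UV q u' (0 : Fin n → F) s₀ := uv_root hF hu'u' hs
  have h4 := hinv u' 0 s₀ H2 hu'W W.zero_mem u huS
  rw [root_apply, huu', one_mul] at h4
  have hu'S : u' ∈ S := hscale (a := 0) huS hs0 h4
  have hu'u : hh u' u = 1 := herm_fe hF huu'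
  intro w hw
  set b := hh w u with hb
  set w₂ := w - b • u' with hw₂
  have hw₂W : w₂ ∈ W := W.sub_mem hw (W.smul_mem _ hu'W)
  have hw₂u : hh w₂ u = 0 := by
    rw [hw₂, herm_sub_left, herm_smul_left, hu'u, ← hb]
    ring
  have huw₂ : hh u w₂ = 0 := herm_conj0 hw₂u
  obtain ⟨s, hs'⟩ := exists_s (n := n) (q := q) (F := F) w₂
  have H3 : UV q u w₂ s := ⟨huu, huw₂, hs'⟩
  have h5 := hinv u w₂ s H3 huW hw₂W u' hu'S
  rw [suM_ue, hu'u, one_smul] at h5
  have h6 : w₂ ∈ S := by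
    have h7 : u' + (w₂ + s • u) - hh u' w₂ • u - u' - s • u + hh u' w₂ • u = w₂ := by abel
    rw [← h7]
    exact S.add_mem (S.sub_mem (S.sub_mem h5 hu'S) (S.smul_mem _ huS)) (S.smul_mem _ huS)
  have h8 : w = w₂ + b • u' := by
    rw [hw₂]
    abel
  rw [h8]
  exact S.add_mem h6 (S.smul_mem _ hu'S)

section pgroup

variable {p : ℕ} [Fact p.Prime] [CharP F p]

/-- The unipotent radical contains every normal `p`-subgroup of the point stabiliser. -/
theorem normal_p_le_Qr {e : Fin n → F} (he : e ≠ 0) (hee : hh e e = 0) {R : Subgroup (Cfsg.PSU n F q)} (hR : IsPGroup p R)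
    (hRP : R ≤ P (isoMk he hee)) (hN : ∀ t ∈ P (isoMk he hee), ∀ r ∈ R, t * r * t⁻¹ ∈ R) : R ≤ Qr hee := by
  classical
  have hF := h.hF
  have hq := two_le_q hF
  obtain ⟨f, hff, hef⟩ := exists_partner he hee
  have hfe : hh f e = 1 := herm_fe hF hef
  -- the lifts fixing `e`
  let Rt : Subgroup (Cfsg.SU n F q) :=
    { carrier := {A | pr A ∈ R ∧ suM A *ᵥ e = e}
      mul_mem' := by
        rintro A B ⟨h1, h2⟩ ⟨h3, h4⟩
        refine ⟨?_, ?_⟩
        · rw [map_mul]
          exact R.mul_mem h1 h3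
        · rw [su_mul_mulVec, h4, h2]
      one_mem' := ⟨by rw [map_one]; exact R.one_mem, su_one_mulVec e⟩
      inv_mem' := by
        rintro A ⟨h1, h2⟩
        refine ⟨by rw [map_inv]; exact R.inv_mem h1, ?_⟩
        have := su_inv_mulVec' A e
        have e1 : (A.1 : Matrix.SpecialLinearGroup (Fin n) F).1 *ᵥ e = e := h2
        rw [e1] at this
        exact this }
  have hRt : IsPGroup p Rt := by
    rintro ⟨A, hA1, hA2⟩
    obtain ⟨k, hk⟩ := hR ⟨pr A, hA1⟩
    have hk' : (pr A) ^ p ^ k = 1 := congrArg Subtype.val hk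
    refine ⟨k, Subtype.ext ?_⟩
    show A ^ p ^ k = 1
    have h1 : pr (A ^ p ^ k) = 1 := by rwa [map_pow]
    obtain ⟨a, ha⟩ := pr_eq_one_iff.1 h1
    have h2 : ∀ m : ℕ, suM (A ^ m) *ᵥ e = e := by
      intro m
      induction m with
      | zero => rw [pow_zero, su_one_mulVec]
      | succ m ih => rw [pow_succ, su_mul_mulVec, hA2, ih]
    have h3 := h2 (p ^ k)
    rw [ha, Matrix.smul_mulVec, one_mulVec] at h3
    have h4 : a = 1 := by
      have h5 : (a - 1) • e = 0 := by
        rw [sub_smul, one_smul, h3, sub_self]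
      exact sub_eq_zero.1 ((smul_eq_zero.1 h5).resolve_right he)
    apply su_eq_of_suM
    rw [ha, h4, one_smul, suM_one]
  -- the action on the complement
  set W := Wp (h := h) e f with hWdef
  have hperp_e : ∀ (A : Cfsg.SU n F q), suM A *ᵥ e = e → ∀ x : Fin n → F, hh x e = 0 → hh (suM A *ᵥ x) e = 0 := by
    intro A hA x hx
    have := su_form A x e
    have e1 : (A.1 : Matrix.SpecialLinearGroup (Fin n) F).1 *ᵥ e = e := hA
    rw [e1] at this
    exact this.trans hx
  let acW : MulAction Rt W :=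
    { smul := fun A w => ⟨suM A.1 *ᵥ (w : Fin n → F) - hh (suM A.1 *ᵥ (w : Fin n → F)) f • e - hh (suM A.1 *ᵥ (w : Fin n → F)) e • f,
        prW_mem hee hff hef _⟩
      one_smul := by
        intro w
        apply Subtype.ext
        show suM (1 : Cfsg.SU n F q) *ᵥ (w : Fin n → F) - hh (suM (1 : Cfsg.SU n F q) *ᵥ (w : Fin n → F)) f • e - hh (suM (1 : Cfsg.SU n F q) *ᵥ (w : Fin n → F)) e • f = w
        have hw := mem_Wp.1 w.2
        rw [su_one_mulVec, hw.1, hw.2]
        simp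
      mul_smul := by
        intro A B w
        apply Subtype.ext
        show suM (A.1 * B.1) *ᵥ (w : Fin n → F) - hh (suM (A.1 * B.1) *ᵥ (w : Fin n → F)) f • e - hh (suM (A.1 * B.1) *ᵥ (w : Fin n → F)) e • f =
          suM A.1 *ᵥ (suM B.1 *ᵥ (w : Fin n → F) - hh (suM B.1 *ᵥ (w : Fin n → F)) f • e - hh (suM B.1 *ᵥ (w : Fin n → F)) e • f) -
          hh (suM A.1 *ᵥ (suM B.1 *ᵥ (w : Fin n → F) - hh (suM B.1 *ᵥ (w : Fin n → F)) f • e - hh (suM B.1 *ᵥ (w : Fin n → F)) e • f)) f • e -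
          hh (suM A.1 *ᵥ (suM B.1 *ᵥ (w : Fin n → F) - hh (suM B.1 *ᵥ (w : Fin n → F)) f • e - hh (suM B.1 *ᵥ (w : Fin n → F)) e • f)) e • f
        have hw := mem_Wp.1 w.2
        have e1 : hh (suM B.1 *ᵥ (w : Fin n → F)) e = 0 := hperp_e B.1 B.2.2 _ hw.1
        rw [e1, zero_smul, sub_zero, mulVec_sub, mulVec_smul, A.2.2, su_mul_mulVec, herm_sub_left, herm_sub_left, herm_smul_left, herm_smul_left,
          hee, hef, hperp_e A.1 A.2.2 _ e1]
        simp only [mul_zero, sub_zero, mul_one, zero_smul]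
        module }
  -- a fixed vector
  have hWne : 1 ≤ finrank F W := by
    have h1 := Wp_finrank (h := h) hee hff hef
    have h2 := h.hn
    rw [← hWdef] at h1
    omega
  obtain ⟨w₁, hw₁W, hw₁0, hw₁⟩ : ∃ w₁ ∈ W, w₁ ≠ 0 ∧ ∀ A ∈ Rt, ∃ a : F, suM A *ᵥ w₁ = w₁ + a • e := by
    haveI : Finite W := inferInstance
    have h1 := hRt.card_modEq_card_fixedPoints W
    have h2 : p ∣ Nat.card W := by
      rw [Module.natCard_eq_pow_finrank (K := F)]
      have h4 : p ∣ Nat.card F := by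
        rw [Nat.card_eq_fintype_card]
        obtain ⟨m, hm, hcard⟩ := FiniteField.card F p
        rw [hcard]
        exact dvd_pow_self p m.2.ne'
      exact h4.trans (dvd_pow_self _ (by omega))
    have h3 : p ∣ Nat.card (MulAction.fixedPoints Rt W) := by
      have h6 : Nat.card W % p = 0 := Nat.mod_eq_zero_of_dvd h2
      rw [Nat.ModEq, h6] at h1
      exact Nat.dvd_of_mod_eq_zero h1.symm
    have h0mem : (0 : W) ∈ MulAction.fixedPoints Rt W := by
      intro A
      apply Subtype.ext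
      show suM A.1 *ᵥ (0 : Fin n → F) - hh (suM A.1 *ᵥ (0 : Fin n → F)) f • e - hh (suM A.1 *ᵥ (0 : Fin n → F)) e • f = 0
      rw [Matrix.mulVec_zero, herm_zero_left, herm_zero_left]
      simp
    have h4 : 1 < Nat.card (MulAction.fixedPoints Rt W) := by
      have h5 : 0 < Nat.card (MulAction.fixedPoints Rt W) := by
        haveI : Nonempty (MulAction.fixedPoints Rt W) := ⟨⟨0, h0mem⟩⟩
        exact Nat.card_pos
      have h6 := Nat.le_of_dvd h5 h3
      have h7 : p.Prime := Fact.out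
      have := h7.two_le
      omega
    haveI : Nontrivial (MulAction.fixedPoints Rt W) := Finite.one_lt_card_iff_nontrivial.1 h4
    obtain ⟨y, hy⟩ := exists_ne (⟨0, h0mem⟩ : MulAction.fixedPoints Rt W)
    refine ⟨y.1.1, y.1.2, ?_, ?_⟩
    · intro h0
      apply hy
      apply Subtype.ext
      exact Subtype.ext h0
    · intro A hA
      have h5 := y.2 ⟨A, hA⟩
      have h6 : suM A *ᵥ (y.1 : Fin n → F) - hh (suM A *ᵥ (y.1 : Fin n → F)) f • e - hh (suM A *ᵥ (y.1 : Fin n → F)) e • f = y.1 :=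
        congrArg Subtype.val h5
      rw [hperp_e A hA.2 _ (mem_Wp.1 y.1.2).1, zero_smul, sub_zero] at h6
      refine ⟨hh (suM A *ᵥ (y.1 : Fin n → F)) f, ?_⟩
      exact sub_eq_iff_eq_add'.1 h6 |>.trans (add_comm _ _)
  -- the invariant subspace
  let S : Submodule F (Fin n → F) :=
    { carrier := {x | hh x e = 0 ∧ ∀ A ∈ Rt, ∃ a : F, suM A *ᵥ x = x + a • e}
      add_mem' := by
        rintro x y ⟨h1, h2⟩ ⟨h3, h4⟩
        refine ⟨by rw [herm_add_left, h1, h3, add_zero], fun A hA => ?_⟩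
        obtain ⟨a, ha⟩ := h2 A hA
        obtain ⟨b, hb⟩ := h4 A hA
        exact ⟨a + b, by rw [mulVec_add, ha, hb, add_smul]; abel⟩
      zero_mem' := ⟨herm_zero_left _, fun A hA => ⟨0, by simp⟩⟩
      smul_mem' := by
        rintro c x ⟨h1, h2⟩
        refine ⟨by rw [herm_smul_left, h1, mul_zero], fun A hA => ?_⟩
        obtain ⟨a, ha⟩ := h2 A hA
        exact ⟨c * a, by rw [mulVec_smul, ha, smul_add, smul_smul]⟩ }
  have hSinv : ∀ (T : Cfsg.SU n F q) (c : F), suM T *ᵥ e = c • e → ∀ x ∈ S, suM T *ᵥ x ∈ S := by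
    rintro T c hT x ⟨h1, h2⟩
    have hc0 := ne_zero_of_eig he hT
    have hTi : suM T⁻¹ *ᵥ e = c⁻¹ • e := by
      have h3 := su_inv_mulVec' T e
      have e1 : (T.1 : Matrix.SpecialLinearGroup (Fin n) F).1 *ᵥ e = c • e := hT
      rw [e1, mulVec_smul] at h3
      have h4 : suM T⁻¹ *ᵥ e = c⁻¹ • (c • suM T⁻¹ *ᵥ e) := by
        rw [smul_smul, inv_mul_cancel₀ hc0, one_smul]
      rw [h4]
      congr 1
    refine ⟨?_, fun A hA => ?_⟩
    · have h3 := su_form T x (c⁻¹ • e)
      have e1 : (T.1 : Matrix.SpecialLinearGroup (Fin n) F).1 *ᵥ (c⁻¹ • e) = e := by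
        rw [mulVec_smul]
        have e2 : (T.1 : Matrix.SpecialLinearGroup (Fin n) F).1 *ᵥ e = c • e := hT
        rw [e2, smul_smul, inv_mul_cancel₀ hc0, one_smul]
      rw [e1, herm_smul_right, h1, mul_zero] at h3
      exact h3
    · have hmem : T⁻¹ * A * T ∈ Rt := by
        refine ⟨?_, ?_⟩
        · have h3 := hN (pr T)⁻¹ (inv_mem (by
            rw [mem_P_iff]
            exact ⟨c, hT⟩)) (pr A) hA.1
          rw [inv_inv] at h3
          rw [map_mul, map_mul, map_inv]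
          exact h3
        · rw [su_mul_mulVec, su_mul_mulVec, hT, mulVec_smul, hA.2, mulVec_smul, hTi, smul_smul, mul_inv_cancel₀ hc0, one_smul]
      obtain ⟨a, ha⟩ := h2 _ hmem
      refine ⟨a * c, ?_⟩
      rw [su_mul_mulVec, su_mul_mulVec] at ha
      have h3 : suM T *ᵥ (suM T⁻¹ *ᵥ (suM A *ᵥ (suM T *ᵥ x))) = suM T *ᵥ (x + a • e) := congrArg (fun y => suM T *ᵥ y) ha
      have e1 : suM T *ᵥ (suM T⁻¹ *ᵥ (suM A *ᵥ (suM T *ᵥ x))) = suM A *ᵥ (suM T *ᵥ x) := su_inv_mulVec T _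
      rw [e1, mulVec_add, mulVec_smul, hT, smul_smul] at h3
      exact h3
  have heS : e ∈ S := ⟨hee, fun A hA => ⟨0, by rw [hA.2]; simp⟩⟩
  have hw₁S : w₁ ∈ S := ⟨(mem_Wp.1 hw₁W).1, hw₁⟩
  -- the complement lies in `S`
  have hWS : W ≤ S := by
    by_cases h2 : 2 ≤ finrank F W
    · refine irred_W (Wp_nds (h := h) hee hff hef) h2 ?_ hw₁W hw₁S hw₁0
      intro u w' s H hu hw' x hx
      apply hSinv (ue h.hF H) 1 _ x hx
      rw [suM_ue, (mem_Wp.1 hu).1 |> herm_conj0, (mem_Wp.1 hw').1 |> herm_conj0]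
      simp
    · have h3 : finrank F W = 1 := by omega
      have hw₁0' : (⟨w₁, hw₁W⟩ : W) ≠ 0 := fun h0 => hw₁0 (congrArg Subtype.val h0)
      intro w hw
      obtain ⟨c, hc⟩ := (finrank_eq_one_iff_of_nonzero' _ hw₁0').1 h3 ⟨w, hw⟩
      have h4 : c • w₁ = w := congrArg Subtype.val hc
      rw [← h4]
      exact S.smul_mem _ hw₁S
  have hperpS : ∀ x : Fin n → F, hh x e = 0 → x ∈ S := by
    intro x hx
    have h1 := prW_mem (h := h) hee hff hef x
    rw [hx, zero_smul, sub_zero] at h1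
    have h2 : x = (x - hh x f • e) + hh x f • e := by abel
    rw [h2]
    exact S.add_mem (hWS h1) (S.smul_mem _ heS)
  -- conclusion
  intro r hr
  obtain ⟨k, hk⟩ := hR ⟨r, hr⟩
  have hk' : r ^ p ^ k = 1 := congrArg Subtype.val hk
  obtain ⟨A, rfl, hA⟩ := exists_lift_fix hk' he hee (hRP hr)
  have hAR : A ∈ Rt := ⟨hr, hA⟩
  obtain ⟨w₀, s₀, H, hY⟩ := gu_fix_eq_ue (Y := suM A) (fun x y => su_form A x y) he hee hA
    (fun w hw => (hperpS w hw).2 A hAR)
  have hAe : A = ue hF H := by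
    apply su_ext
    intro x
    show suM A *ᵥ x = suM (ue hF H) *ᵥ x
    rw [hY, suM_ue]
  rw [hAe]
  exact pr_ue_mem_Qr H

include p in
/-- The image of the unipotent radical. -/
theorem map_Qr (α : MulAut (Cfsg.PSU n F q)) {u z : Fin n → F} (hu : u ≠ 0) (huu : hh u u = 0) (hz : z ≠ 0) (hzz : hh z z = 0)
    (hX : ∀ y, α y ∈ Xr hzz ↔ y ∈ Xr huu) {y : Cfsg.PSU n F q} (hy : y ∈ Qr huu) : α y ∈ Qr hzz := by
  -- the point stabiliser goes to the point stabiliser
  have hP : ∀ t, t ∈ P (isoMk hu huu) → α t ∈ P (isoMk hz hzz) := by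
    intro t ht
    apply mem_P_of_normal
    intro y hy
    obtain ⟨y, rfl⟩ := α.surjective y
    rw [hX] at hy
    have h1 := Xr_normal hu huu ht hy
    rw [← hX] at h1
    simpa using h1
  have hP' : ∀ t, α t ∈ P (isoMk hz hzz) → t ∈ P (isoMk hu huu) := by
    intro t ht
    apply mem_P_of_normal
    intro y hy
    rw [← hX] at hy ⊢
    have h1 := Xr_normal hz hzz ht hy
    simpa using h1
  have hle : (Qr huu).map α.toMonoidHom ≤ Qr hzz := by
    apply normal_p_le_Qr (p := p) hz hzz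
    · exact (Qr_isPGroup (p := p) huu).map _
    · rintro _ ⟨r, hr, rfl⟩
      exact hP r (Qr_le_P hu huu hr)
    · rintro t ht _ ⟨r, hr, rfl⟩
      obtain ⟨t, rfl⟩ := α.surjective t
      have h1 := Qr_normal hu huu (hP' t ht) hr
      exact ⟨_, h1, by simp⟩
  exact hle ⟨y, hy, rfl⟩

end pgroup

end main

end Cfsg.Agent.Lib.AutPSU
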