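import Mathlib
import Cfsg.Agent.Lib.AutPSU.OP
import Cfsg.Agent.Lib.AutPOm.SemiAut

/-! Semilinear automorphisms of `PSU`. -/

set_option autoImplicit false
set_option linter.unusedSimpArgs false
set_option linter.unusedVariables false
set_option linter.unusedSectionVars false

namespace Cfsg.Agent.Lib.AutPSU

open Matrix Module MulAction Cfsg.Agent.Lib.Classical
open Cfsg.Agent.Lib.AutPSL (sm sm_add sm_smul sm_symm_sm sm_sm_symm glMap glMap_coe map_mulVec_sm)
open Cfsg.Agent.Lib.AutPOm (gl_mul_inv gl_inv_mul glMap_symm_glMap glMap_glMap_symm)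
open scoped LinearAlgebra.Projectivization MatrixGroups

variable {F : Type*} [Field F] [Fintype F] {q n : ℕ}

local notation "hh" => Cfsg.hermForm n F q
local notation "VV" => (Fin n → F)
local notation "MM" => Matrix (Fin n) (Fin n) F

theorem herm_sm (σ : F ≃+* F) (u v : VV) : hh (sm σ u) (sm σ v) = σ (hh u v) := by
  simp [Cfsg.hermForm, sm, map_sum]

theorem gu_form {g : GL (Fin n) F} (hg : g ∈ Cfsg.GU n F q) (u v : VV) : hh ((g : MM) *ᵥ u) ((g : MM) *ᵥ v) = hh u v := hg u v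

/-- The semilinear map. -/
noncomputable def sG (g : GL (Fin n) F) (σ : F ≃+* F) (x : VV) : VV := (g : MM) *ᵥ sm σ x

theorem sG_form {g : GL (Fin n) F} (hg : g ∈ Cfsg.GU n F q) (σ : F ≃+* F) (x y : VV) :
    hh (sG g σ x) (sG g σ y) = σ (hh x y) := by
  rw [sG, sG, gu_form hg, herm_sm]

theorem sG_add (g : GL (Fin n) F) (σ : F ≃+* F) (x y : VV) : sG g σ (x + y) = sG g σ x + sG g σ y := by
  rw [sG, sm_add, mulVec_add]
  rfl

theorem sG_smul (g : GL (Fin n) F) (σ : F ≃+* F) (c : F) (x : VV) : sG g σ (c • x) = σ c • sG g σ x := by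
  rw [sG, sm_smul, mulVec_smul]
  rfl

theorem sG_sub (g : GL (Fin n) F) (σ : F ≃+* F) (x y : VV) : sG g σ (x - y) = sG g σ x - sG g σ y := by
  have h1 := sG_add g σ (x - y) y
  rw [sub_add_cancel] at h1
  rw [h1, add_sub_cancel_right]

/-- The inverse data. -/
noncomputable def gInv (g : GL (Fin n) F) (σ : F ≃+* F) : GL (Fin n) F := glMap σ.symm g⁻¹

theorem sG_gInv (g : GL (Fin n) F) (σ : F ≃+* F) (x : VV) : sG (gInv g σ) σ.symm (sG g σ x) = x := by
  show ((glMap σ.symm g⁻¹ : GL (Fin n) F) : MM) *ᵥ sm σ.symm ((g : MM) *ᵥ sm σ x) = x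
  rw [glMap_coe, map_mulVec_sm σ.symm, gl_inv_mul, sm_symm_sm]

theorem sG_gInv' (g : GL (Fin n) F) (σ : F ≃+* F) (x : VV) : sG g σ (sG (gInv g σ) σ.symm x) = x := by
  show (g : MM) *ᵥ sm σ (((glMap σ.symm g⁻¹ : GL (Fin n) F) : MM) *ᵥ sm σ.symm x) = x
  rw [glMap_coe]
  rw [map_mulVec_sm σ.symm, sm_sm_symm, gl_mul_inv]

theorem sG_surj (g : GL (Fin n) F) (σ : F ≃+* F) (x : VV) : ∃ y, sG g σ y = x := ⟨_, sG_gInv' g σ x⟩

theorem sG_inj (g : GL (Fin n) F) (σ : F ≃+* F) {x y : VV} (e : sG g σ x = sG g σ y) : x = y := by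
  have := congrArg (sG (gInv g σ) σ.symm) e
  rwa [sG_gInv, sG_gInv] at this

theorem gInv_mem {g : GL (Fin n) F} (hg : g ∈ Cfsg.GU n F q) (σ : F ≃+* F) : gInv g σ ∈ Cfsg.GU n F q := by
  intro u v
  change hh ((gInv g σ : MM) *ᵥ u) ((gInv g σ : MM) *ᵥ v) = hh u v
  have h1 : ∀ x : VV, (gInv g σ : MM) *ᵥ x = sG (gInv g σ) σ.symm (sm σ x) := by
    intro x
    rw [sG, sm_symm_sm]
  rw [h1, h1]
  have h2 : ∀ x : VV, sG (gInv g σ) σ.symm (sm σ x) = sm σ.symm ((g⁻¹ : GL (Fin n) F) *ᵥ sm σ x) := by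
    intro x
    show ((glMap σ.symm g⁻¹ : GL (Fin n) F) : MM) *ᵥ sm σ.symm (sm σ x) = _
    rw [glMap_coe, map_mulVec_sm σ.symm]
  rw [h2, h2, herm_sm]
  have h3 : (g⁻¹ : GL (Fin n) F) ∈ Cfsg.GU n F q := inv_mem hg
  rw [gu_form h3, herm_sm, RingEquiv.symm_apply_apply]

/-- The composite of two semilinear maps. -/
theorem gMul_mem {g g' : GL (Fin n) F} (hg : g ∈ Cfsg.GU n F q) (hg' : g' ∈ Cfsg.GU n F q) (σ : F ≃+* F) :
    g * glMap σ g' ∈ Cfsg.GU n F q := by
  intro u v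
  change hh (((g * glMap σ g' : GL (Fin n) F) : MM) *ᵥ u) (((g * glMap σ g' : GL (Fin n) F) : MM) *ᵥ v) = hh u v
  have h1 : ∀ x : VV, ((g * glMap σ g' : GL (Fin n) F) : MM) *ᵥ x = sG g σ (sG g' (RingEquiv.refl F) (sm σ.symm x)) := by
    intro x
    rw [sG, sG, Units.val_mul, ← mulVec_mulVec, glMap_coe]
    congr 1
    rw [← map_mulVec_sm σ (g' : MM)]
    congr 1
    funext i
    simp [sm]
  rw [h1, h1, sG_form hg, sG_form hg']
  simp only [RingEquiv.refl_apply]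
  rw [herm_sm, RingEquiv.apply_symm_apply]

theorem sG_mul (g g' : GL (Fin n) F) (σ τ : F ≃+* F) (x : VV) :
    sG (g * glMap σ g') (τ.trans σ) x = sG g σ (sG g' τ x) := by
  rw [sG, sG, sG, Units.val_mul, ← mulVec_mulVec, glMap_coe]
  congr 1
  rw [← map_mulVec_sm σ (g' : MM)]
  rfl

theorem su_ext_sG (g : GL (Fin n) F) (σ : F ≃+* F) {A B : Cfsg.SU n F q}
    (e : ∀ x, suM A *ᵥ sG g σ x = suM B *ᵥ sG g σ x) : A = B := by
  apply su_ext
  intro x
  obtain ⟨y, rfl⟩ := sG_surj g σ x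
  exact e y

/-- The conjugated matrix. -/
noncomputable def cjM (g : GL (Fin n) F) (σ : F ≃+* F) (A : MM) : MM := (g : MM) * A.map σ * ((g⁻¹ : GL (Fin n) F) : MM)

theorem cjM_apply (g : GL (Fin n) F) (σ : F ≃+* F) (A : MM) (x : VV) : cjM g σ A *ᵥ sG g σ x = sG g σ (A *ᵥ x) := by
  rw [cjM, sG, sG, mulVec_mulVec, Matrix.mul_assoc, Matrix.mul_assoc, ← Units.val_mul, inv_mul_cancel,
    Units.val_one, Matrix.mul_one, ← mulVec_mulVec, map_mulVec_sm]

/-- The conjugate element of `SU`. -/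
noncomputable def suSemiFun (g : GL (Fin n) F) (hg : g ∈ Cfsg.GU n F q) (σ : F ≃+* F) (A : Cfsg.SU n F q) : Cfsg.SU n F q :=
  ⟨⟨cjM g σ (suM A), by
      rw [cjM, Matrix.det_units_conj]
      have h1 : (suM A).det = 1 := A.1.2
      have h2 := RingEquiv.map_det σ (suM A)
      rw [h1, map_one] at h2
      exact h2.symm⟩, by
    intro x y
    change hh (cjM g σ (suM A) *ᵥ x) (cjM g σ (suM A) *ᵥ y) = hh x y
    obtain ⟨x, rfl⟩ := sG_surj g σ x
    obtain ⟨y, rfl⟩ := sG_surj g σ y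
    rw [cjM_apply, cjM_apply, sG_form hg, sG_form hg]
    congr 1
    exact su_form A x y⟩

theorem suSemiFun_coe (g : GL (Fin n) F) (hg : g ∈ Cfsg.GU n F q) (σ : F ≃+* F) (A : Cfsg.SU n F q) :
    suM (suSemiFun g hg σ A) = (g : MM) * (suM A).map σ * ((g⁻¹ : GL (Fin n) F) : MM) := rfl

theorem suSemiFun_apply (g : GL (Fin n) F) (hg : g ∈ Cfsg.GU n F q) (σ : F ≃+* F) (A : Cfsg.SU n F q) (x : VV) :
    suM (suSemiFun g hg σ A) *ᵥ sG g σ x = sG g σ (suM A *ᵥ x) := cjM_apply g σ (suM A) x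

/-- The automorphism of `SU`. -/
noncomputable def suSemi (g : GL (Fin n) F) (hg : g ∈ Cfsg.GU n F q) (σ : F ≃+* F) : Cfsg.SU n F q ≃* Cfsg.SU n F q where
  toFun := suSemiFun g hg σ
  invFun := suSemiFun (gInv g σ) (gInv_mem hg σ) σ.symm
  left_inv A := by
    apply su_ext
    intro x
    have h1 := suSemiFun_apply (gInv g σ) (gInv_mem hg σ) σ.symm (suSemiFun g hg σ A) (sG g σ x)
    rw [sG_gInv, suSemiFun_apply, sG_gInv] at h1
    exact h1
  right_inv A := by
    apply su_ext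
    intro x
    have h1 := suSemiFun_apply (gInv g σ) (gInv_mem hg σ) σ.symm A x
    have h2 := suSemiFun_apply g hg σ (suSemiFun (gInv g σ) (gInv_mem hg σ) σ.symm A) (sG (gInv g σ) σ.symm x)
    rw [h1, sG_gInv', sG_gInv'] at h2
    exact h2
  map_mul' A B := by
    apply su_ext_sG g σ
    intro x
    show suM (suSemiFun g hg σ (A * B)) *ᵥ sG g σ x = suM (suSemiFun g hg σ A * suSemiFun g hg σ B) *ᵥ sG g σ x
    rw [suSemiFun_apply, su_mul_mulVec, su_mul_mulVec, suSemiFun_apply, suSemiFun_apply]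

theorem suSemi_apply (g : GL (Fin n) F) (hg : g ∈ Cfsg.GU n F q) (σ : F ≃+* F) (A : Cfsg.SU n F q) (x : VV) :
    suM (suSemi g hg σ A) *ᵥ sG g σ x = sG g σ (suM A *ᵥ x) := suSemiFun_apply g hg σ A x

/-- The automorphism of `PSU` attached to a semilinear unitary map. -/
noncomputable def psuSemi (g : GL (Fin n) F) (hg : g ∈ Cfsg.GU n F q) (σ : F ≃+* F) : MulAut (Cfsg.PSU n F q) :=
  quotCenterCongr (suSemi g hg σ)

@[simp] theorem psuSemi_pr (g : GL (Fin n) F) (hg : g ∈ Cfsg.GU n F q) (σ : F ≃+* F) (A : Cfsg.SU n F q) :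
    psuSemi g hg σ (pr A) = pr (suSemi g hg σ A) := rfl

theorem psuSemi_induced (g : GL (Fin n) F) (hg : g ∈ Cfsg.GU n F q) (σ : F ≃+* F) :
    Cfsg.IsInducedBySemilinearPSU g σ (psuSemi g hg σ) := by
  intro s s' h
  show pr (suSemi g hg σ s) = pr s'
  congr 1
  exact Subtype.ext (Subtype.ext h.symm)

theorem psuSemi_mem (g : GL (Fin n) F) (hg : g ∈ Cfsg.GU n F q) (σ : F ≃+* F) : psuSemi g hg σ ∈ Cfsg.gammaPSU n F q :=
  Subgroup.subset_closure ⟨g, σ, hg, psuSemi_induced g hg σ⟩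

theorem psuSemi_mul {g g' : GL (Fin n) F} (hg : g ∈ Cfsg.GU n F q) (hg' : g' ∈ Cfsg.GU n F q) (σ τ : F ≃+* F) :
    psuSemi g hg σ * psuSemi g' hg' τ = psuSemi (g * glMap σ g') (gMul_mem hg hg' σ) (τ.trans σ) := by
  ext x
  obtain ⟨A, rfl⟩ := pr_surj x
  show psuSemi g hg σ (psuSemi g' hg' τ (pr A)) = _
  rw [psuSemi_pr, psuSemi_pr, psuSemi_pr]
  congr 1
  apply su_ext_sG (g * glMap σ g') (τ.trans σ)
  intro x
  rw [suSemi_apply, sG_mul, suSemi_apply, suSemi_apply, sG_mul]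

theorem psuSemi_inv {g : GL (Fin n) F} (hg : g ∈ Cfsg.GU n F q) (σ : F ≃+* F) :
    (psuSemi g hg σ)⁻¹ = psuSemi (gInv g σ) (gInv_mem hg σ) σ.symm := by
  ext x
  obtain ⟨A, rfl⟩ := pr_surj x
  rfl

theorem su_gu (A : Cfsg.SU n F q) : suToGL n F q A ∈ Cfsg.GU n F q := by
  intro u v
  exact su_form A u v

theorem sG_su (A : Cfsg.SU n F q) (x : VV) : sG (suToGL n F q A) (RingEquiv.refl F) x = suM A *ᵥ x := by
  show suM A *ᵥ sm (RingEquiv.refl F) x = _
  congr 1

/-- Inner automorphisms are semilinear. -/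
theorem conj_eq_psuSemi (A : Cfsg.SU n F q) : MulAut.conj (pr A) = psuSemi (suToGL n F q A) (su_gu A) (RingEquiv.refl F) := by
  ext x
  obtain ⟨B, rfl⟩ := pr_surj x
  rw [MulAut.conj_apply, psuSemi_pr, ← map_inv, ← map_mul, ← map_mul]
  congr 1

section good

variable [h : Good n q F]

theorem UV.semi {g : GL (Fin n) F} (hg : g ∈ Cfsg.GU n F q) (σ : F ≃+* F) {v w : VV} {s : F} (H : UV q v w s) :
    UV q (sG g σ v) (sG g σ w) (σ s) := by
  refine ⟨?_, ?_, ?_⟩
  · rw [sG_form hg, H.vv, map_zero]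
  · rw [sG_form hg, H.vw, map_zero]
  · rw [sG_form hg, ← map_pow, ← map_add, ← map_add, H.sw, map_zero]

/-- The image of a unipotent element. -/
theorem suSemi_ue {g : GL (Fin n) F} (hg : g ∈ Cfsg.GU n F q) (σ : F ≃+* F) {v w : VV} {s : F} (H : UV q v w s) :
    suSemi g hg σ (ue h.hF H) = ue h.hF (UV.semi hg σ H) := by
  apply su_ext_sG g σ
  intro x
  rw [suSemi_apply]
  show _ = suM (ue h.hF (UV.semi hg σ H)) *ᵥ sG g σ x
  rw [suM_ue, suM_ue, sG_form hg, sG_form hg, sG_sub, sG_add, sG_smul, sG_add, sG_smul, sG_smul]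

theorem psuSemi_ue {g : GL (Fin n) F} (hg : g ∈ Cfsg.GU n F q) (σ : F ≃+* F) {v w : VV} {s : F} (H : UV q v w s) :
    psuSemi g hg σ (pr (ue h.hF H)) = pr (ue h.hF (UV.semi hg σ H)) := by
  rw [psuSemi_pr, suSemi_ue]

theorem sG_ne_zero (g : GL (Fin n) F) (σ : F ≃+* F) {x : VV} (hx : x ≠ 0) : sG g σ x ≠ 0 := by
  intro h0
  apply hx
  have h1 := sG_gInv g σ x
  rw [h0] at h1
  have h2 := sG_smul (gInv g σ) σ.symm 0 0
  rw [zero_smul, map_zero, zero_smul] at h2
  rw [← h1, h2]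

/-- A semilinear map acting trivially fixes all isotropic points. -/
theorem eig_of_eq_one {g : GL (Fin n) F} {σ : F ≃+* F} (hg : g ∈ Cfsg.GU n F q) (h1 : psuSemi g hg σ = 1)
    {v : VV} (hv : v ≠ 0) (hvv : hh v v = 0) : ∃ c : F, c ≠ 0 ∧ sG g σ v = c • v := by
  have hg0 : sG g σ v ≠ 0 := sG_ne_zero g σ hv
  have hgQ : hh (sG g σ v) (sG g σ v) = 0 := by
    rw [sG_form hg, hvv, map_zero]
  have hle : P (isoMk hv hvv) ≤ P (isoMk hg0 hgQ) := by
    intro r hr
    obtain ⟨A, rfl⟩ := pr_surj r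
    obtain ⟨a, ha⟩ := (mem_P_iff hv hvv).1 hr
    have h2 : psuSemi g hg σ (pr A) = pr A := by
      rw [h1]
      rfl
    rw [← h2, psuSemi_pr, mem_P_iff]
    refine ⟨σ a, ?_⟩
    rw [suSemi_apply, ha, sG_smul]
  have heq : P (isoMk hv hvv) = P (isoMk hg0 hgQ) := by
    by_contra hne
    exact (isCoatom_P (isoMk hg0 hgQ)).1 ((isCoatom_P (isoMk hv hvv)).2 _ (lt_of_le_of_ne hle hne))
  have h3 := P_inj heq
  rw [isoMk_eq_iff] at h3
  obtain ⟨c, hc, hc2⟩ := h3
  refine ⟨c⁻¹, inv_ne_zero hc, ?_⟩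
  have h4 : sG g σ v = c⁻¹ • (c • sG g σ v) := by
    rw [smul_smul, inv_mul_cancel₀ hc, one_smul]
  rw [hc2] at h4
  exact h4

/-- The kernel of the map to the automorphisms. -/
theorem eq_one_imp {g : GL (Fin n) F} {σ : F ≃+* F} (hg : g ∈ Cfsg.GU n F q) (h1 : psuSemi g hg σ = 1) :
    σ = RingEquiv.refl F ∧ ∃ c : F, c ≠ 0 ∧ (g : MM) = c • (1 : MM) := by
  have hF := h.hF
  have hq := two_le_q hF
  obtain ⟨e, he, hee⟩ := exists_iso (n := n) (q := q) (F := F)
  obtain ⟨f, hff, hef⟩ := exists_partner he hee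
  have hfe : hh f e = 1 := herm_fe hF hef
  have hf : f ≠ 0 := by
    rintro rfl
    rw [herm_zero_right hF] at hef
    exact zero_ne_one hef
  obtain ⟨c, hc0, hc⟩ := eig_of_eq_one hg h1 he hee
  obtain ⟨d, hd0, hd⟩ := eig_of_eq_one hg h1 hf hff
  -- the action on the opposite vectors
  have key : ∀ {w : VV} {s : F}, hh w e = 0 → hh w f = 0 → s + s ^ q + hh w w = 0 → sG g σ w = c • w ∧ σ s * d = c * s := by
    intro w s hwe hwf hs
    have hew : hh e w = 0 := herm_conj0 hwe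
    have hfw : hh f w = 0 := herm_conj0 hwf
    have hGwe : hh (sG g σ w) e = 0 := by
      have h2 := sG_form hg σ w e
      rw [hwe, map_zero, hc, herm_smul_right] at h2
      exact (mul_eq_zero.1 h2).resolve_left (pow_ne_zero _ hc0)
    have hGwf : hh (sG g σ w) f = 0 := by
      have h2 := sG_form hg σ w f
      rw [hwf, map_zero, hd, herm_smul_right] at h2
      exact (mul_eq_zero.1 h2).resolve_left (pow_ne_zero _ hd0)
    set v : VV := e + w + s • f with hv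
    have hvv : hh v v = 0 := by
      simp only [hv, herm_add_left, herm_add_right hF, herm_smul_left, herm_smul_right, hee, hff, hef, hfe, hwe, hwf, hew, hfw]
      linear_combination hs
    have hv0 : v ≠ 0 := by
      intro h0
      have h2 : hh v f = 1 := by
        simp only [hv, herm_add_left, herm_smul_left, hef, hff, hwf]
        ring
      rw [h0, herm_zero_left] at h2
      exact zero_ne_one h2
    obtain ⟨c', -, hc'⟩ := eig_of_eq_one hg h1 hv0 hvv
    rw [hv, sG_add, sG_add, sG_smul, hc, hd] at hc'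
    have h2 := congrArg (fun y => hh y f) hc'
    simp only [herm_add_left, herm_smul_left, hef, hff, hGwf, hwf] at h2
    have h3 : c = c' := by linear_combination h2
    subst h3
    have h4 := congrArg (fun y => hh y e) hc'
    simp only [herm_add_left, herm_smul_left, hee, hfe, hGwe, hwe] at h4
    have h5 : σ s * d = c * s := by linear_combination h4
    refine ⟨?_, h5⟩
    have h6 : sG g σ w + (σ s * d) • f = c • w + (c * s) • f := by
      have h7 : c • e + sG g σ w + σ s • d • f = c • (e + w + s • f) := hc'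
      rw [smul_add, smul_add, smul_smul, smul_smul, add_assoc, add_assoc] at h7
      exact add_left_cancel h7
    rw [h5] at h6
    exact add_right_cancel h6
  have hW1 : ∃ w : VV, w ≠ 0 ∧ hh w e = 0 ∧ hh w f = 0 := by
    have h1 := Wp_finrank (h := h) hee hff hef
    have h2 := h.hn
    obtain ⟨w, hw, hww⟩ := exists_unit_in hF (Wp_nds (h := h) hee hff hef) (by omega)
    refine ⟨w, ?_, mem_Wp.1 hw⟩
    rintro rfl
    rw [herm_zero_left] at hww
    exact zero_ne_one hww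
  obtain ⟨w₀, hw₀, hw₀e, hw₀f⟩ := hW1
  have hσ : σ = RingEquiv.refl F := by
    ext a
    show σ a = a
    obtain ⟨s, hs⟩ := exists_s (n := n) (q := q) (F := F) w₀
    obtain ⟨s', hs'⟩ := exists_s (n := n) (q := q) (F := F) (a • w₀)
    have h2 := (key hw₀e hw₀f hs).1
    have h3 := (key (by rw [herm_smul_left, hw₀e, mul_zero]) (by rw [herm_smul_left, hw₀f, mul_zero]) hs').1
    rw [sG_smul, h2, smul_smul, smul_smul] at h3
    have h4 : (σ a * c - c * a) • w₀ = 0 := by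
      rw [sub_smul, h3, sub_self]
    have h5 := (smul_eq_zero.1 h4).resolve_right hw₀
    apply mul_right_cancel₀ hc0
    linear_combination h5
  subst hσ
  refine ⟨rfl, c, hc0, ?_⟩
  -- the eigenvalues agree
  have hcd : d = c := by
    obtain ⟨a, ha0, ha⟩ := exists_s0 (n := n) (q := q) (F := F)
    have h2 := (key (w := 0) (s := a) (herm_zero_left _) (herm_zero_left _) (by rw [herm_zero_left, add_zero]; exact ha)).2
    have h3 : a * d = c * a := h2
    apply mul_left_cancel₀ ha0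
    linear_combination h3
  have hgm : ∀ x : VV, (g : MM) *ᵥ x = sG g (RingEquiv.refl F) x := by
    intro x
    rfl
  apply Matrix.ext_of_mulVec_single
  intro i
  rw [Matrix.smul_mulVec, one_mulVec]
  set x : VV := Pi.single i 1
  show (g : MM) *ᵥ x = c • x
  rw [hgm]
  have h2 := prW_mem (h := h) hee hff hef x
  have hx : x = hh x f • e + hh x e • f + (x - hh x f • e - hh x e • f) := by abel
  obtain ⟨s, hs⟩ := exists_s (n := n) (q := q) (F := F) (x - hh x f • e - hh x e • f)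
  have h3 := (key (mem_Wp.1 h2).1 (mem_Wp.1 h2).2 hs).1
  conv_lhs => rw [hx]
  rw [sG_add, sG_add, sG_smul, sG_smul, hc, hd, h3, hcd]
  simp only [RingEquiv.refl_apply]
  conv_rhs => rw [hx]
  module

/-- Injectivity up to scalars. -/
theorem psuSemi_inj' {g g' : GL (Fin n) F} {σ τ : F ≃+* F} (hg : g ∈ Cfsg.GU n F q) (hg' : g' ∈ Cfsg.GU n F q)
    (e : psuSemi g hg σ = psuSemi g' hg' τ) : τ = σ ∧ ∃ c : F, c ≠ 0 ∧ (g' : MM) = c • (g : MM) := by
  have h1 : (psuSemi g hg σ)⁻¹ * psuSemi g' hg' τ = 1 := by rw [e, inv_mul_cancel]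
  rw [psuSemi_inv, psuSemi_mul] at h1
  obtain ⟨h2, c, hc, h3⟩ := eq_one_imp _ h1
  have hτ : τ = σ := by
    ext a
    have h5 : σ.symm (τ a) = a := RingEquiv.congr_fun h2 a
    rw [← h5, RingEquiv.apply_symm_apply, h5]
  subst hτ
  refine ⟨rfl, τ c, (map_ne_zero τ).2 hc, ?_⟩
  have h5 : ((g⁻¹ * g' : GL (Fin n) F) : MM) = τ c • (1 : MM) := by
    have h6 : glMap τ (gInv g τ * glMap τ.symm g') = (g⁻¹ * g' : GL (Fin n) F) := by
      rw [map_mul, gInv, glMap_glMap_symm, glMap_glMap_symm]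
    rw [← h6, glMap_coe, h3]
    ext i j
    by_cases hij : i = j <;> simp [hij, Matrix.one_apply]
  have h7 : (g' : MM) = (g : MM) * ((g⁻¹ * g' : GL (Fin n) F) : MM) := by
    rw [← Units.val_mul, mul_inv_cancel_left]
  rw [h7, h5, Matrix.mul_smul, mul_one]

/-- Scalars act trivially. -/
theorem psuSemi_smul_eq' {g g' : GL (Fin n) F} {σ : F ≃+* F} (hg : g ∈ Cfsg.GU n F q) (hg' : g' ∈ Cfsg.GU n F q) {c : F} (hc : c ≠ 0)
    (e : (g' : MM) = c • (g : MM)) : psuSemi g' hg' σ = psuSemi g hg σ := by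
  ext x
  obtain ⟨A, rfl⟩ := pr_surj x
  rw [psuSemi_pr, psuSemi_pr]
  congr 1
  apply su_ext_sG g σ
  intro x
  have h1 := suSemi_apply g' hg' σ A x
  have h2 : ∀ y : VV, sG g' σ y = c • sG g σ y := by
    intro y
    rw [sG, sG, e, Matrix.smul_mulVec]
  rw [h2, h2, mulVec_smul] at h1
  rw [suSemi_apply]
  have h3 := congrArg (fun y => c⁻¹ • y) h1
  simpa only [smul_smul, inv_mul_cancel₀ hc, one_smul] using h3

end good

end Cfsg.Agent.Lib.AutPSU
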