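import Mathlib
import Cfsg.Agent.Lib.AutPSU.Semi

/-! Coordinates on the unipotent radical attached to a hyperbolic pair. -/

set_option autoImplicit false
set_option linter.unusedSimpArgs false
set_option linter.unusedVariables false
set_option linter.unusedSectionVars false

namespace Cfsg.Agent.Lib.AutPSU

open Matrix Module MulAction Cfsg.Agent.Lib.Classical
open scoped LinearAlgebra.Projectivization MatrixGroups

variable {F : Type*} [Field F] [Fintype F] {q n : ℕ}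

local notation "hh" => Cfsg.hermForm n F q
local notation "VV" => (Fin n → F)
local notation "MM" => Matrix (Fin n) (Fin n) F

/-- A hyperbolic pair. -/
structure HP (n q : ℕ) (F : Type*) [Field F] where
  e : Fin n → F
  f : Fin n → F
  hee : Cfsg.hermForm n F q e e = 0
  hff : Cfsg.hermForm n F q f f = 0
  hef : Cfsg.hermForm n F q e f = 1

section main

variable [h : Good n q F]

namespace HP

variable (K : HP n q F)

theorem hfe : hh K.f K.e = 1 := herm_fe h.hF K.hef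

theorem he : K.e ≠ 0 := by
  intro h0
  have := K.hef
  rw [h0, herm_zero_left] at this
  exact zero_ne_one this

theorem hf : K.f ≠ 0 := by
  intro h0
  have := K.hfe
  rw [h0, herm_zero_left] at this
  exact zero_ne_one this

/-- The orthogonal complement. -/
noncomputable abbrev W : Submodule F VV := Wp (h := h) K.e K.f

variable {K}

theorem mem_W {x : VV} : x ∈ K.W ↔ hh x K.e = 0 ∧ hh x K.f = 0 := mem_Wp

theorem W_e {x : VV} (hx : x ∈ K.W) : hh x K.e = 0 := (mem_W.1 hx).1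

theorem W_f {x : VV} (hx : x ∈ K.W) : hh x K.f = 0 := (mem_W.1 hx).2

theorem e_W {x : VV} (hx : x ∈ K.W) : hh K.e x = 0 := herm_conj0 (W_e hx)

theorem f_W {x : VV} (hx : x ∈ K.W) : hh K.f x = 0 := herm_conj0 (W_f hx)

variable (K)

/-- The projection to the complement. -/
noncomputable def pi (x : VV) : VV := x - hh x K.f • K.e - hh x K.e • K.f

theorem pi_mem (x : VV) : K.pi x ∈ K.W := prW_mem K.hee K.hff K.hef x

theorem decomp (x : VV) : x = hh x K.f • K.e + hh x K.e • K.f + K.pi x := by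
  rw [pi]
  abel

theorem nds : NDS q K.W := Wp_nds K.hee K.hff K.hef

theorem finrank_W : finrank F K.W + 2 = n := Wp_finrank K.hee K.hff K.hef

theorem exists_unit_W : ∃ w ∈ K.W, hh w w = 1 := by
  have h1 := K.finrank_W
  have h2 := h.hn
  exact exists_unit_in h.hF K.nds (by omega)

variable {K}

/-- Coordinates on the unipotent radical. -/
theorem ue_uniq {w w' : VV} {s s' : F} (hw : w ∈ K.W) (hw' : w' ∈ K.W) (H : UV q K.e w s) (H' : UV q K.e w' s')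
    (e : pr (ue h.hF H) = pr (ue h.hF H')) : w = w' ∧ s = s' := by
  have h1 := ue_eq_partner K.he H H' K.hfe (ue_eq_of_pr K.he H H' e)
  rw [f_W hw, f_W hw', zero_smul, sub_zero, sub_zero] at h1
  have h2 := congrArg (fun y => hh y K.f) h1
  simp only [herm_add_left, herm_smul_left, W_f hw, W_f hw', K.hef, zero_add, mul_one] at h2
  subst h2
  exact ⟨add_right_cancel h1, rfl⟩

/-- Every unipotent element has a normalised form. -/
theorem exists_reduce {w : VV} {s : F} (H : UV q K.e w s) :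
    ∃ w' ∈ K.W, ∃ (s' : F) (H' : UV q K.e w' s'), ue h.hF H = ue h.hF H' := by
  obtain ⟨H', e⟩ := ue_reduce h.hF H (hh w K.f)
  refine ⟨_, ?_, _, H', e⟩
  rw [mem_W, herm_sub_left, herm_sub_left, herm_smul_left, herm_smul_left, K.hee, K.hef, H.wv h.hF]
  simp

/-- A general product formula. -/
theorem ue_mul' {w₁ w₂ w₃ : VV} {s₁ s₂ s₃ : F} (H₁ : UV q K.e w₁ s₁) (H₂ : UV q K.e w₂ s₂) (H₃ : UV q K.e w₃ s₃) (e1 : w₃ = w₁ + w₂)
    (e2 : s₃ = s₁ + s₂ - hh w₂ w₁) : ue h.hF H₁ * ue h.hF H₂ = ue h.hF H₃ := by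
  rw [ue_mul]
  exact ue_congr _ _ rfl e1.symm e2.symm

theorem uv_sub {w : VV} {s s₀ : F} (H : UV q K.e w s) (H₀ : UV q K.e w s₀) : UV q K.e (0 : VV) (s - s₀) := by
  have hF := h.hF
  refine ⟨K.hee, herm_zero_right hF _, ?_⟩
  rw [herm_zero_left, sub_pow_q hF]
  linear_combination H.sw - H₀.sw

theorem ue_split {w : VV} {s s₀ : F} (H : UV q K.e w s) (H₀ : UV q K.e w s₀) :
    ue h.hF H₀ * ue h.hF (uv_sub H H₀) = ue h.hF H := by
  apply ue_mul' _ _ _ (add_zero _).symm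
  rw [herm_zero_left]
  ring

end HP

/-- The automorphism preserves the root group of `e`. -/
def XE (α : MulAut (Cfsg.PSU n F q)) (K : HP n q F) : Prop := ∀ y, α y ∈ Xr K.hee ↔ y ∈ Xr K.hee

/-- The automorphism preserves the root group of `f`. -/
def XF (α : MulAut (Cfsg.PSU n F q)) (K : HP n q F) : Prop := ∀ y, α y ∈ Xr K.hff ↔ y ∈ Xr K.hff

theorem XE.inv {α : MulAut (Cfsg.PSU n F q)} {K : HP n q F} (hX : XE α K) : XE α⁻¹ K := by
  intro y
  rw [← hX (α⁻¹ y)]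
  simp

theorem XF.inv {α : MulAut (Cfsg.PSU n F q)} {K : HP n q F} (hX : XF α K) : XF α⁻¹ K := by
  intro y
  rw [← hX (α⁻¹ y)]
  simp

theorem XE.mul {α β : MulAut (Cfsg.PSU n F q)} {K : HP n q F} (hα : XE α K) (hβ : XE β K) : XE (α * β) K := by
  intro y
  rw [← hβ y, ← hα (β y)]
  rfl

theorem XF.mul {α β : MulAut (Cfsg.PSU n F q)} {K : HP n q F} (hα : XF α K) (hβ : XF β K) : XF (α * β) K := by
  intro y
  rw [← hβ y, ← hα (β y)]
  rfl

/-- The automorphism is given in coordinates by `T`. -/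
def IsCh (α : MulAut (Cfsg.PSU n F q)) (K : HP n q F) (T : VV → VV) : Prop :=
  ∀ {w : VV} {s : F} (H : UV q K.e w s), w ∈ K.W → T w ∈ K.W ∧ ∃ (s' : F) (H' : UV q K.e (T w) s'), α (pr (ue h.hF H)) = pr (ue h.hF H')

section

variable {K : HP n q F} {α : MulAut (Cfsg.PSU n F q)} {T T' : (Fin n → F) → (Fin n → F)}

theorem exists_uv (K : HP n q F) {w : VV} (hw : w ∈ K.W) : ∃ s : F, UV q K.e w s := by
  obtain ⟨s, hs⟩ := exists_s (n := n) (q := q) (F := F) w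
  exact ⟨s, K.hee, HP.e_W hw, hs⟩

section pgroup

variable {p : ℕ} [Fact p.Prime] [CharP F p]

include p in
theorem exists_ch (hX : XE α K) : ∃ T : VV → VV, IsCh α K T := by
  classical
  have hF := h.hF
  have key : ∀ w : VV, w ∈ K.W → ∃ w' : VV, w' ∈ K.W ∧ ∀ {s : F} (H : UV q K.e w s), ∃ (s' : F) (H' : UV q K.e w' s'),
      α (pr (ue hF H)) = pr (ue hF H') := by
    intro w hw
    obtain ⟨s₀, H₀⟩ := exists_uv K hw
    have h1 := map_Qr (p := p) α K.he K.hee K.he K.hee hX (pr_ue_mem_Qr H₀)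
    obtain ⟨_, ⟨w₁, s₁, H₁, rfl⟩, h2⟩ := h1
    obtain ⟨w₂, hw₂, s₂, H₂, e2⟩ := HP.exists_reduce H₁
    refine ⟨w₂, hw₂, fun {s} H => ?_⟩
    have e3 := HP.ue_split H H₀
    have h3 : α (pr (ue hF (HP.uv_sub H H₀))) ∈ Xr K.hee := (hX _).2 (mem_Xr.2 ⟨_, _, rfl⟩)
    obtain ⟨a, Ha, e4⟩ := mem_Xr.1 h3
    have H₃ : UV q K.e (w₂ + 0) (s₂ + a - hh 0 w₂) := UV.mul hF H₂ Ha
    have H₄ : UV q K.e w₂ (s₂ + a) := by
      rw [add_zero, herm_zero_left, sub_zero] at H₃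
      exact H₃
    refine ⟨_, H₄, ?_⟩
    rw [← e3, map_mul, map_mul, e4, ← h2]
    show pr (ue hF H₁) * _ = _
    rw [e2, ← map_mul]
    congr 1
    apply HP.ue_mul' _ _ _ (add_zero _).symm
    rw [herm_zero_left, sub_zero]
  choose! T hT1 hT2 using key
  exact ⟨T, fun H hw => ⟨hT1 _ hw, hT2 _ hw H⟩⟩

end pgroup

theorem IsCh.add (hT : IsCh α K T) {w₁ w₂ : VV} (h1 : w₁ ∈ K.W) (h2 : w₂ ∈ K.W) : T (w₁ + w₂) = T w₁ + T w₂ := by
  have hF := h.hF
  obtain ⟨s₁, H₁⟩ := exists_uv K h1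
  obtain ⟨s₂, H₂⟩ := exists_uv K h2
  obtain ⟨m1, s₁', H₁', e1⟩ := hT H₁ h1
  obtain ⟨m2, s₂', H₂', e2⟩ := hT H₂ h2
  obtain ⟨m3, s₃', H₃', e3⟩ := hT (UV.mul hF H₁ H₂) (K.W.add_mem h1 h2)
  rw [← ue_mul hF H₁ H₂, map_mul, map_mul, e1, e2, ← map_mul, ue_mul] at e3
  exact (HP.ue_uniq (K.W.add_mem m1 m2) m3 _ _ e3).1.symm

theorem IsCh.inv_comp (hT : IsCh α K T) (hT' : IsCh α⁻¹ K T') {w : VV} (hw : w ∈ K.W) : T' (T w) = w := by
  obtain ⟨s, H⟩ := exists_uv K hw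
  obtain ⟨m1, s₁, H₁, e1⟩ := hT H hw
  obtain ⟨m2, s₂, H₂, e2⟩ := hT' H₁ m1
  rw [← e1] at e2
  have e3 : pr (ue h.hF H) = pr (ue h.hF H₂) := by
    rw [← e2]
    simp
  exact (HP.ue_uniq hw m2 _ _ e3).1.symm

theorem IsCh.of_inv (hT : IsCh α⁻¹ K T) (hT' : IsCh α K T') {w : VV} (hw : w ∈ K.W) : T' (T w) = w := by
  obtain ⟨s, H⟩ := exists_uv K hw
  obtain ⟨m1, s₁, H₁, e1⟩ := hT H hw
  obtain ⟨m2, s₂, H₂, e2⟩ := hT' H₁ m1
  rw [← e1] at e2
  have e3 : pr (ue h.hF H) = pr (ue h.hF H₂) := by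
    rw [← e2]
    simp
  exact (HP.ue_uniq hw m2 _ _ e3).1.symm

theorem IsCh.zero (hT : IsCh α K T) : T 0 = 0 := by
  have h1 := hT.add K.W.zero_mem K.W.zero_mem
  rw [add_zero] at h1
  exact left_eq_add.1 h1

/-! ### The Levi subgroup -/

/-- `A` stabilises the two lines. -/
structure Lv (K : HP n q F) (A : Cfsg.SU n F q) (c d : F) : Prop where
  he : suM A *ᵥ K.e = c • K.e
  hf : suM A *ᵥ K.f = d • K.f

variable {A A' : Cfsg.SU n F q} {c d c' d' : F}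

theorem Lv.c0 (hA : Lv K A c d) : c ≠ 0 := ne_zero_of_eig K.he hA.he

theorem Lv.d0 (hA : Lv K A c d) : d ≠ 0 := ne_zero_of_eig K.hf hA.hf

theorem Lv.cd (hA : Lv K A c d) : c * d ^ q = 1 := by
  have h1 := su_form A K.e K.f
  have e1 : (A.1 : Matrix.SpecialLinearGroup (Fin n) F).1 *ᵥ K.e = c • K.e := hA.he
  have e2 : (A.1 : Matrix.SpecialLinearGroup (Fin n) F).1 *ᵥ K.f = d • K.f := hA.hf
  rw [e1, e2, herm_smul_left, herm_smul_right, K.hef, mul_one] at h1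
  exact h1

theorem Lv.d_eq (hA : Lv K A c d) : d = (c ^ q)⁻¹ := by
  have hF := h.hF
  have h1 := congrArg (fun x => x ^ q) hA.cd
  simp only [mul_pow, pow_q_pow_q hF, one_pow] at h1
  exact eq_inv_of_mul_eq_one_right h1

theorem Lv.W_mem (hA : Lv K A c d) {w : VV} (hw : w ∈ K.W) : suM A *ᵥ w ∈ K.W := by
  have h1 := hA.c0
  have h2 := hA.d0
  have e1 : (A.1 : Matrix.SpecialLinearGroup (Fin n) F).1 *ᵥ K.e = c • K.e := hA.he
  have e2 : (A.1 : Matrix.SpecialLinearGroup (Fin n) F).1 *ᵥ K.f = d • K.f := hA.hf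
  have h3 := su_form A w K.e
  have h4 := su_form A w K.f
  rw [e1, herm_smul_right, HP.W_e hw] at h3
  rw [e2, herm_smul_right, HP.W_f hw] at h4
  exact HP.mem_W.2 ⟨(mul_eq_zero.1 h3).resolve_left (pow_ne_zero _ h1), (mul_eq_zero.1 h4).resolve_left (pow_ne_zero _ h2)⟩

/-- The action on the complement. -/
noncomputable def actW (A : Cfsg.SU n F q) (c : F) (w : VV) : VV := c ^ q • suM A *ᵥ w

theorem Lv.act_mem (hA : Lv K A c d) {w : VV} (hw : w ∈ K.W) : actW A c w ∈ K.W := K.W.smul_mem _ (hA.W_mem hw)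

theorem actW_add (A : Cfsg.SU n F q) (c : F) (u v : VV) : actW A c (u + v) = actW A c u + actW A c v := by
  rw [actW, actW, actW, mulVec_add, smul_add]

theorem actW_smul (A : Cfsg.SU n F q) (c a : F) (v : VV) : actW A c (a • v) = a • actW A c v := by
  rw [actW, actW, mulVec_smul, smul_comm]

/-- Conjugating a coordinate element. -/
theorem Lv.conj (hA : Lv K A c d) {w : VV} {s : F} (H : UV q K.e w s) :
    pr A * pr (ue h.hF H) * (pr A)⁻¹ = pr (ue h.hF (UV.conjs H A hA.he hA.c0)) := by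
  rw [← conj_ue H A hA.he hA.c0, map_mul, map_mul, map_inv]

theorem XE.map_P (hX : XE α K) (hA : pr A ∈ P (isoMk K.he K.hee)) : α (pr A) ∈ P (isoMk K.he K.hee) := by
  apply mem_P_of_normal
  intro y hy
  obtain ⟨y, rfl⟩ := α.surjective y
  rw [hX] at hy
  have h1 := Xr_normal K.he K.hee hA hy
  rw [← hX] at h1
  simpa using h1

theorem XF.map_P (hX : XF α K) (hA : pr A ∈ P (isoMk K.hf K.hff)) : α (pr A) ∈ P (isoMk K.hf K.hff) := by
  apply mem_P_of_normal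
  intro y hy
  obtain ⟨y, rfl⟩ := α.surjective y
  rw [hX] at hy
  have h1 := Xr_normal K.hf K.hff hA hy
  rw [← hX] at h1
  simpa using h1

/-- The image of a Levi element is a Levi element. -/
theorem Lv.map (hXE : XE α K) (hXF : XF α K) (hA : Lv K A c d) (e : α (pr A) = pr A') : ∃ c' d', Lv K A' c' d' := by
  have h1 : pr A ∈ P (isoMk K.he K.hee) := (mem_P_iff _ _).2 ⟨c, hA.he⟩
  have h2 : pr A ∈ P (isoMk K.hf K.hff) := (mem_P_iff _ _).2 ⟨d, hA.hf⟩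
  have h3 := hXE.map_P h1
  have h4 := hXF.map_P h2
  rw [e, mem_P_iff] at h3 h4
  obtain ⟨c', hc'⟩ := h3
  obtain ⟨d', hd'⟩ := h4
  exact ⟨c', d', hc', hd'⟩

/-- Equivariance of the coordinates. -/
theorem IsCh.act (hT : IsCh α K T) (hA : Lv K A c d) (hA' : Lv K A' c' d') (e : α (pr A) = pr A') {w : VV} (hw : w ∈ K.W) :
    T (actW A c w) = actW A' c' (T w) := by
  obtain ⟨s, H⟩ := exists_uv K hw
  obtain ⟨m1, s₁, H₁, e1⟩ := hT H hw
  obtain ⟨m2, s₂, H₂, e2⟩ := hT (UV.conjs H A hA.he hA.c0) (hA.act_mem hw)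
  rw [← hA.conj H, map_mul, map_mul, map_inv, e1, e] at e2
  rw [hA'.conj H₁] at e2
  exact (HP.ue_uniq (hA'.act_mem m1) m2 _ _ e2).1.symm

/-! ### Commutators -/

theorem uv_omega (K : HP n q F) (w₁ w₂ : VV) : UV q K.e (0 : VV) (hh w₁ w₂ - hh w₂ w₁) := by
  have hF := h.hF
  refine ⟨K.hee, herm_zero_right hF _, ?_⟩
  rw [herm_zero_left, sub_pow_q hF, ← herm_conj hF, ← herm_conj hF]
  ring

theorem comm_ue {w₁ w₂ : VV} {s₁ s₂ : F} (H₁ : UV q K.e w₁ s₁) (H₂ : UV q K.e w₂ s₂) :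
    ue h.hF H₁ * ue h.hF H₂ = ue h.hF (uv_omega K w₁ w₂) * (ue h.hF H₂ * ue h.hF H₁) := by
  have hF := h.hF
  rw [ue_mul, ue_mul, ue_mul]
  apply ue_congr
  · rfl
  · rw [zero_add, add_comm]
  · rw [herm_zero_right hF]
    ring

/-- Commutators in coordinates. -/
theorem IsCh.omega (hT : IsCh α K T) {w₁ w₂ : VV} (h1 : w₁ ∈ K.W) (h2 : w₂ ∈ K.W) :
    α (pr (ue h.hF (uv_omega K w₁ w₂))) = pr (ue h.hF (uv_omega K (T w₁) (T w₂))) := by
  obtain ⟨s₁, H₁⟩ := exists_uv K h1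
  obtain ⟨s₂, H₂⟩ := exists_uv K h2
  obtain ⟨m1, s₁', H₁', e1⟩ := hT H₁ h1
  obtain ⟨m2, s₂', H₂', e2⟩ := hT H₂ h2
  have e3 := congrArg (fun x => α (pr x)) (comm_ue H₁ H₂)
  simp only [map_mul, e1, e2] at e3
  have e4 := congrArg pr (comm_ue H₁' H₂')
  simp only [map_mul] at e4
  rw [e4] at e3
  exact (mul_right_cancel e3).symm

theorem IsCh.omega_eq (hT : IsCh α K T) {w₁ w₂ w₃ w₄ : VV} (h1 : w₁ ∈ K.W) (h2 : w₂ ∈ K.W) (h3 : w₃ ∈ K.W) (h4 : w₄ ∈ K.W)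
    (e : hh w₁ w₂ - hh w₂ w₁ = hh w₃ w₄ - hh w₄ w₃) : hh (T w₁) (T w₂) - hh (T w₂) (T w₁) = hh (T w₃) (T w₄) - hh (T w₄) (T w₃) := by
  have e1 := hT.omega h1 h2
  have e2 := hT.omega h3 h4
  have e3 : ue h.hF (uv_omega K w₁ w₂) = ue h.hF (uv_omega K w₃ w₄) := ue_congr _ _ rfl rfl e
  rw [e3, e2] at e1
  exact (HP.ue_uniq K.W.zero_mem K.W.zero_mem _ _ e1).2.symm

end

end main

end Cfsg.Agent.Lib.AutPSU
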