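import Mathlib
import Cfsg.Agent.Lib.AutPSU.Chart

/-! The commutant of the Levi subgroup on the complement. -/

set_option autoImplicit false
set_option linter.unusedSimpArgs false
set_option linter.unusedVariables false
set_option linter.unusedSectionVars false

namespace Cfsg.Agent.Lib.AutPSU

open Matrix Module MulAction Cfsg.Agent.Lib.Classical
open scoped LinearAlgebra.Projectivization MatrixGroups

variable {F : Type*} [Field F] [Fintype F] {q n : ℕ}

local notation "hh" => Cfsg.hermForm n F q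
local notation "VV" => (Fin n → F)
local notation "MM" => Matrix (Fin n) (Fin n) F

section main

variable [h : Good n q F]

/-- An element of `GU` of determinant one lies in `SU`. -/
noncomputable def guSU (t : Cfsg.GU n F q) (hdet : (t.1 : MM).det = 1) : Cfsg.SU n F q := ⟨⟨t.1, hdet⟩, fun x y => t.2 x y⟩

theorem suM_guSU (t : Cfsg.GU n F q) (hdet : (t.1 : MM).det = 1) : suM (guSU t hdet) = (t.1 : MM) := rfl

theorem gu_mul_apply (t t' : Cfsg.GU n F q) (x : VV) : ((t * t').1 : MM) *ᵥ x = (t.1 : MM) *ᵥ ((t'.1 : MM) *ᵥ x) := by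
  show ((t.1 * t'.1 : Matrix.GeneralLinearGroup (Fin n) F) : MM) *ᵥ x = _
  rw [Units.val_mul, mulVec_mulVec]

theorem gu_mul_det (t t' : Cfsg.GU n F q) : ((t * t').1 : MM).det = (t.1 : MM).det * (t'.1 : MM).det := by
  show ((t.1 * t'.1 : Matrix.GeneralLinearGroup (Fin n) F) : MM).det = _
  rw [Units.val_mul, det_mul]

/-- The torus. -/
theorem exists_tor (K : HP n q F) {c : F} (hc : c ≠ 0) :
    ∃ t : Cfsg.GU n F q, (t.1 : MM).det = c * (c ^ q)⁻¹ ∧
      ∀ x, (t.1 : MM) *ᵥ x = x + (hh x K.e * ((c ^ q)⁻¹ - 1)) • K.f + (hh x K.f * (c - 1)) • K.e := by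
  have hF := h.hF
  have h0 : c ^ q ≠ 0 := pow_ne_zero _ hc
  exact exists_hyp_element hF K.hee K.hff K.hef hc (inv_ne_zero h0) (by
    rw [inv_pow, pow_q_pow_q hF, mul_inv_cancel₀ hc]) (inv_mul_cancel₀ h0)

/-- The reflections. -/
theorem exists_refl {w₀ : VV} (hww : hh w₀ w₀ = 1) {d : F} (hd : d * d ^ q = 1) :
    ∃ t : Cfsg.GU n F q, (t.1 : MM).det = d ∧ ∀ x, (t.1 : MM) *ᵥ x = x + (hh x w₀ * (d - 1)) • w₀ := by
  classical
  have hF := h.hF
  have hd0 : d ≠ 0 := by
    rintro rfl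
    rw [zero_mul] at hd
    exact zero_ne_one hd
  set M : MM := rk1 q ((d - 1) • w₀) w₀ with hM
  have hdet : M.det = d := by
    rw [hM, rk1_det, herm_smul_left, hww]
    ring
  have hdet0 : IsUnit M.det := by
    rw [hdet]
    exact hd0.isUnit
  have hform : ∀ x, M *ᵥ x = x + (hh x w₀ * (d - 1)) • w₀ := by
    intro x
    rw [hM, rk1_mulVec, smul_smul]
  let T : Matrix.GeneralLinearGroup (Fin n) F := ⟨M, M⁻¹, Matrix.mul_nonsing_inv _ hdet0, Matrix.nonsing_inv_mul _ hdet0⟩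
  refine ⟨⟨T, ?_⟩, hdet, hform⟩
  intro x y
  change hh (M *ᵥ x) (M *ᵥ y) = _
  rw [hform, hform]
  have e1 : hh w₀ y = (hh y w₀) ^ q := herm_conj hF y w₀
  have hsubq : (d - 1) ^ q = d ^ q - 1 := by rw [sub_pow_q hF, one_pow]
  simp only [herm_add_left, herm_add_right hF, herm_smul_left, herm_smul_right, hww, e1, mul_pow, hsubq]
  linear_combination (hh x w₀ * (hh y w₀) ^ q) * hd

/-- Every element of a large subring of the field which contains the elements `c^(2q-1)` is in the subring. -/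
theorem subring_eq_top (hF : Fintype.card F = q ^ 2) (hq : 3 ≤ q) (R : Subring F) (hC : ∀ c : F, c ≠ 0 → c ^ q * (c ^ q * c⁻¹) ∈ R) : R = ⊤ := by
  classical
  by_contra hne
  obtain ⟨x, hx⟩ : ∃ x, x ∉ R := by
    by_contra hcon
    push Not at hcon
    exact hne (eq_top_iff.2 fun y _ => hcon y)
  have hcardF : Fintype.card F = q * q := by rw [hF]; ring
  have hinv : ∀ b ∈ R, b ≠ 0 → b⁻¹ ∈ R := by
    intro b hb hb0
    have h1 : b ^ (q * q - 1) = 1 := by
      rw [← hcardF]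
      exact FiniteField.pow_card_sub_one_eq_one b hb0
    have h2 : q * q - 1 = (q * q - 2) + 1 := by
      have : 9 ≤ q * q := Nat.mul_le_mul hq hq
      omega
    rw [h2, pow_succ] at h1
    have h3 : b⁻¹ = b ^ (q * q - 2) := (eq_inv_of_mul_eq_one_left h1).symm
    rw [h3]
    exact R.pow_mem hb _
  set Rs : Finset F := Finset.univ.filter (· ∈ R) with hRs
  set r := Rs.card with hr
  -- upper bound
  have h1 : r * r ≤ q * q := by
    rw [← hcardF, hr, ← Finset.card_product]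
    apply Finset.card_le_card_of_injOn (fun p : F × F => p.1 + p.2 * x) (fun _ _ => Finset.mem_univ _)
    rintro ⟨a, b⟩ hab ⟨a', b'⟩ hab' e
    simp only [Finset.coe_product, Set.mem_prod, Finset.mem_coe, hRs, Finset.mem_filter, Finset.mem_univ, true_and] at hab hab'
    have e' : a + b * x = a' + b' * x := e
    have hbb : b = b' := by
      by_contra hbne
      apply hx
      have h0 : b - b' ≠ 0 := sub_ne_zero.2 hbne
      have h2 : x = (a' - a) * (b - b')⁻¹ := by
        field_simp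
        linear_combination e'
      rw [h2]
      exact R.mul_mem (R.sub_mem hab'.1 hab.1) (hinv _ (R.sub_mem hab.2 hab'.2) h0)
    subst hbb
    have haa : a = a' := add_right_cancel e'
    subst haa
    rfl
  have hrq : r ≤ q := by
    by_contra hcon
    push Not at hcon
    have := Nat.mul_lt_mul'' hcon hcon
    omega
  -- lower bound
  set s : Finset F := Finset.univ.filter (· ≠ 0) with hs
  have hscard : s.card = q * q - 1 := by
    have h2 : s = Finset.univ.erase 0 := by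
      ext y
      simp [hs]
    rw [h2, Finset.card_erase_of_mem (Finset.mem_univ _), Finset.card_univ, hcardF]
  set φ : F → F := fun c => c ^ q * (c ^ q * c⁻¹) with hφ
  have hφ3 : ∀ c : F, c ≠ 0 → c ^ 3 = φ c ^ (2 * q + 1) := by
    intro c hc
    have h0 : c ^ q ≠ 0 := pow_ne_zero _ hc
    have e1 : (c ^ q) ^ q = c := pow_q_pow_q hF c
    have e2 : (c⁻¹) ^ q = (c ^ q)⁻¹ := inv_pow _ _
    have e3 : φ c ^ q = c * (c * (c ^ q)⁻¹) := by
      rw [hφ]
      simp only [mul_pow, e1, e2]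
    have e4 : φ c ^ (2 * q + 1) = (φ c ^ q) ^ 2 * φ c := by
      rw [pow_succ, pow_mul', ]
    rw [e4, e3, hφ]
    field_simp
  have hfib : ∀ a ∈ s.image φ, (s.filter (fun x => φ x = a)).card ≤ 3 := by
    intro a _
    have h2 : s.filter (fun x => φ x = a) ⊆ (Polynomial.nthRoots 3 (a ^ (2 * q + 1))).toFinset := by
      intro c hc
      simp only [Finset.mem_filter, hs, Finset.mem_univ, true_and] at hc
      rw [Multiset.mem_toFinset, Polynomial.mem_nthRoots (by norm_num), hφ3 c hc.1, hc.2]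
    calc _ ≤ _ := Finset.card_le_card h2
      _ ≤ Multiset.card (Polynomial.nthRoots 3 (a ^ (2 * q + 1))) := Multiset.toFinset_card_le _
      _ ≤ 3 := Polynomial.card_nthRoots _ _
  have h2 := Finset.card_le_mul_card_image s 3 hfib
  have h3 : (s.image φ) ⊆ Rs.erase 0 := by
    intro y hy
    obtain ⟨c, hc, rfl⟩ := Finset.mem_image.1 hy
    have hc0 : c ≠ 0 := by simpa [hs] using hc
    rw [Finset.mem_erase]
    refine ⟨?_, by simp only [hRs, Finset.mem_filter, Finset.mem_univ, true_and]; exact hC c hc0⟩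
    exact mul_ne_zero (pow_ne_zero _ hc0) (mul_ne_zero (pow_ne_zero _ hc0) (inv_ne_zero hc0))
  have h4 := Finset.card_le_card h3
  have h0R : (0 : F) ∈ Rs := by simp [hRs, R.zero_mem]
  rw [Finset.card_erase_of_mem h0R] at h4
  rw [hscard] at h2
  have h5 : q * q - 1 ≤ 3 * (r - 1) := h2.trans (Nat.mul_le_mul_left _ h4)
  have h6 : q * q - 1 ≤ 3 * (q - 1) := h5.trans (Nat.mul_le_mul_left _ (by omega))
  obtain ⟨k, rfl⟩ : ∃ k, q = k + 3 := ⟨q - 3, by omega⟩
  have h7 : (k + 3) * (k + 3) - 1 = k * k + 6 * k + 8 := by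
    have : (k + 3) * (k + 3) = k * k + 6 * k + 9 := by ring
    omega
  rw [h7] at h6
  have h8 : k + 3 - 1 = k + 2 := by omega
  rw [h8] at h6
  nlinarith

variable {K : HP n q F}

/-- Elements with base in the complement are in the Levi subgroup. -/
theorem lv_ue {u w : Fin n → F} {s : F} (H : UV q u w s) (hu : u ∈ K.W) (hw : w ∈ K.W) : Lv K (ue h.hF H) 1 1 := by
  constructor
  · rw [suM_ue, HP.e_W hu, HP.e_W hw]
    simp
  · rw [suM_ue, HP.f_W hu, HP.f_W hw]
    simp

theorem actW_one (A : Cfsg.SU n F q) (x : Fin n → F) : actW A 1 x = suM A *ᵥ x := by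
  rw [actW, one_pow, one_smul]

/-- A Levi element built from a reflection. -/
theorem exists_lv_refl {w₀ : Fin n → F} (hw₀ : w₀ ∈ K.W) (hww : hh w₀ w₀ = 1) {c : F} (hc : c ≠ 0) :
    ∃ A : Cfsg.SU n F q, Lv K A c (c ^ q)⁻¹ ∧ ∀ x ∈ K.W, suM A *ᵥ x = x + (hh x w₀ * (c ^ q * c⁻¹ - 1)) • w₀ := by
  have hF := h.hF
  have h0 : c ^ q ≠ 0 := pow_ne_zero _ hc
  have hd : (c ^ q * c⁻¹) * (c ^ q * c⁻¹) ^ q = 1 := by
    rw [mul_pow, pow_q_pow_q hF, inv_pow]
    field_simp
  obtain ⟨t₁, ht₁, ht₁'⟩ := exists_tor K hc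
  obtain ⟨t₂, ht₂, ht₂'⟩ := exists_refl hww hd
  have hdet : ((t₁ * t₂).1 : Matrix (Fin n) (Fin n) F).det = 1 := by
    rw [gu_mul_det, ht₁, ht₂]
    field_simp
  have hfix : ∀ y ∈ K.W, (t₁.1 : Matrix (Fin n) (Fin n) F) *ᵥ y = y := by
    intro y hy
    rw [ht₁', HP.W_e hy, HP.W_f hy]
    simp
  refine ⟨guSU (t₁ * t₂) hdet, ⟨?_, ?_⟩, ?_⟩
  · rw [suM_guSU, gu_mul_apply, ht₂', HP.e_W hw₀, zero_mul, zero_smul, add_zero, ht₁', K.hee, K.hef]
    simp only [zero_mul, zero_smul, add_zero, one_mul]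
    rw [sub_smul, one_smul]
    abel
  · rw [suM_guSU, gu_mul_apply, ht₂', HP.f_W hw₀, zero_mul, zero_smul, add_zero, ht₁', K.hff, K.hfe]
    simp only [zero_mul, zero_smul, add_zero, one_mul]
    rw [sub_smul, one_smul]
    abel
  · intro x hx
    rw [suM_guSU, gu_mul_apply, ht₂', hfix _ (K.W.add_mem hx (K.W.smul_mem _ hw₀))]

/-- A Levi element built from two tori. -/
theorem exists_lv_tor2 (K₂ : HP n q F) (h1 : K₂.e ∈ K.W) (h2 : K₂.f ∈ K.W) {b : F} (hb : b ≠ 0) :
    ∃ A : Cfsg.SU n F q, Lv K A (b ^ q) ((b ^ q) ^ q)⁻¹ ∧ suM A *ᵥ K₂.e = b • K₂.e := by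
  have hF := h.hF
  have h0 : b ^ q ≠ 0 := pow_ne_zero _ hb
  obtain ⟨t₁, ht₁, ht₁'⟩ := exists_tor K h0
  obtain ⟨t₂, ht₂, ht₂'⟩ := exists_tor K₂ hb
  have hdet : ((t₁ * t₂).1 : Matrix (Fin n) (Fin n) F).det = 1 := by
    rw [gu_mul_det, ht₁, ht₂, pow_q_pow_q hF]
    field_simp
  have hfix : ∀ y ∈ K.W, (t₁.1 : Matrix (Fin n) (Fin n) F) *ᵥ y = y := by
    intro y hy
    rw [ht₁', HP.W_e hy, HP.W_f hy]
    simp
  refine ⟨guSU (t₁ * t₂) hdet, ⟨?_, ?_⟩, ?_⟩
  · rw [suM_guSU, gu_mul_apply, ht₂', HP.e_W h1, HP.e_W h2, zero_mul, zero_mul, zero_smul, zero_smul, add_zero, add_zero, ht₁', K.hee, K.hef]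
    simp only [zero_mul, zero_smul, add_zero, one_mul]
    rw [sub_smul, one_smul]
    abel
  · rw [suM_guSU, gu_mul_apply, ht₂', HP.f_W h1, HP.f_W h2, zero_mul, zero_mul, zero_smul, zero_smul, add_zero, add_zero, ht₁', K.hff, K.hfe]
    simp only [zero_mul, zero_smul, add_zero, one_mul]
    rw [sub_smul, one_smul]
    abel
  · have e1 : (t₂.1 : Matrix (Fin n) (Fin n) F) *ᵥ K₂.e = b • K₂.e := by
      rw [ht₂', K₂.hee, K₂.hef]
      simp only [zero_mul, zero_smul, add_zero, one_mul]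
      rw [sub_smul, one_smul]
      abel
    rw [suM_guSU, gu_mul_apply, e1, hfix _ (K.W.smul_mem _ h1)]

/-- Additive maps commuting with the Levi subgroup are scalars. -/
theorem commutant (hs : ¬ (n = 3 ∧ q = 2)) {T₀ : (Fin n → F) → (Fin n → F)} (hadd : ∀ u ∈ K.W, ∀ v ∈ K.W, T₀ (u + v) = T₀ u + T₀ v)
    (hW : ∀ w ∈ K.W, T₀ w ∈ K.W) (hcomm : ∀ (A : Cfsg.SU n F q) (c d : F), Lv K A c d → ∀ w ∈ K.W, T₀ (actW A c w) = actW A c (T₀ w)) :
    ∃ κ : F, ∀ w ∈ K.W, T₀ w = κ • w := by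
  classical
  have hF := h.hF
  have hq := two_le_q hF
  have hz : T₀ 0 = 0 := by
    have h1 := hadd 0 K.W.zero_mem 0 K.W.zero_mem
    rw [add_zero] at h1
    exact left_eq_add.1 h1
  have hsub : ∀ u ∈ K.W, ∀ v ∈ K.W, T₀ (u - v) = T₀ u - T₀ v := by
    intro u hu v hv
    have h1 := hadd (u - v) (K.W.sub_mem hu hv) v hv
    rw [sub_add_cancel] at h1
    rw [h1, add_sub_cancel_right]
  have hfr := K.finrank_W
  by_cases h2 : 2 ≤ finrank F K.W
  · obtain ⟨v₀, hv₀, hv₀0, hv₀v₀⟩ := exists_isotropic_in hF K.nds h2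
    obtain ⟨v₁, hv₁, hv₁v₁, hv₀v₁⟩ := exists_partner_in hF K.nds hv₀ hv₀0 hv₀v₀
    let K₂ : HP n q F := ⟨v₀, v₁, hv₀v₀, hv₁v₁, hv₀v₁⟩
    have hv₁v₀ : hh v₁ v₀ = 1 := herm_fe hF hv₀v₁
    obtain ⟨a₀, ha₀, ha₀'⟩ := exists_s0 (n := n) (q := q) (F := F)
    have H₀ : UV q v₀ (0 : Fin n → F) a₀ := uv_root hF hv₀v₀ ha₀'
    have hstep : ∀ x ∈ K.W, T₀ ((hh x v₀ * a₀) • v₀) = (hh (T₀ x) v₀ * a₀) • v₀ := by
      intro x hx
      have h3 := hcomm _ 1 1 (lv_ue H₀ hv₀ K.W.zero_mem) x hx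
      rw [actW_one, actW_one, root_apply, root_apply, hadd x hx _ (K.W.smul_mem _ hv₀)] at h3
      exact add_left_cancel h3
    have hline : ∀ b : F, ∃ b' : F, T₀ (b • v₀) = b' • v₀ := by
      intro b
      have h3 := hstep ((b * a₀⁻¹) • v₁) (K.W.smul_mem _ hv₁)
      have e : hh ((b * a₀⁻¹) • v₁) v₀ * a₀ = b := by
        rw [herm_smul_left, hv₁v₀]
        field_simp
      rw [e] at h3
      exact ⟨_, h3⟩
    have hsq : ∀ b y : F, T₀ ((b * b) • y • v₀) = (b * b) • T₀ (y • v₀) := by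
      intro b y
      by_cases hb : b = 0
      · subst hb
        simp [hz]
      obtain ⟨A, hA, hAv⟩ := exists_lv_tor2 (K := K) K₂ hv₀ hv₁ hb
      have hAv' : suM A *ᵥ v₀ = b • v₀ := hAv
      obtain ⟨y', hy'⟩ := hline y
      have h3 := hcomm A (b ^ q) _ hA (y • v₀) (K.W.smul_mem _ hv₀)
      have e : ∀ z : F, actW A (b ^ q) (z • v₀) = (b * b * z) • v₀ := by
        intro z
        rw [actW_smul, actW, hAv', pow_q_pow_q hF, smul_smul, smul_smul]
        ring_nf
      rw [hy', e, e] at h3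
      rw [smul_smul, hy', smul_smul]
      exact h3
    have hlin : ∀ a y : F, T₀ (a • y • v₀) = a • T₀ (y • v₀) := by
      intro a y
      by_cases h20 : (2 : F) = 0
      · have hinj : Function.Injective (fun x : F => x * x) := by
          intro x z e
          have e' : x * x = z * z := e
          have h3 : (x - z) * (x - z) = 0 := by
            linear_combination e' + (z * z - x * z) * h20
          exact sub_eq_zero.1 (mul_self_eq_zero.1 h3)
        obtain ⟨b, rfl⟩ := (Finite.injective_iff_surjective.1 hinj) a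
        exact hsq b y
      · have e : a = ((a + 1) / 2) * ((a + 1) / 2) - ((a - 1) / 2) * ((a - 1) / 2) := by
          field_simp
          ring
        have hmem : ∀ c : F, c • y • v₀ ∈ K.W := fun c => K.W.smul_mem _ (K.W.smul_mem _ hv₀)
        rw [e, sub_smul, sub_smul, hsub _ (hmem _) _ (hmem _), hsq, hsq]
    obtain ⟨κ, hκ⟩ := hline 1
    rw [one_smul] at hκ
    have hv : ∀ a : F, T₀ (a • v₀) = κ • a • v₀ := by
      intro a
      have h3 := hlin a 1
      rw [one_smul, hκ] at h3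
      rw [h3, smul_comm]
    let S : Submodule F (Fin n → F) :=
      { carrier := {x | x ∈ K.W ∧ ∀ a : F, T₀ (a • x) = κ • a • x}
        add_mem' := by
          rintro x y ⟨hx, hx'⟩ ⟨hy, hy'⟩
          refine ⟨K.W.add_mem hx hy, fun a => ?_⟩
          rw [smul_add, hadd _ (K.W.smul_mem _ hx) _ (K.W.smul_mem _ hy), hx', hy', smul_add]
        zero_mem' := ⟨K.W.zero_mem, fun a => by rw [smul_zero, hz, smul_zero]⟩
        smul_mem' := by
          rintro c x ⟨hx, hx'⟩
          refine ⟨K.W.smul_mem _ hx, fun a => ?_⟩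
          rw [smul_smul, hx', smul_smul] }
    have hWS : K.W ≤ S := by
      refine irred_W K.nds h2 ?_ hv₀ ⟨hv₀, hv⟩ hv₀0
      rintro u w' s H hu hw' x ⟨hx, hx'⟩
      have lv := lv_ue H hu hw'
      refine ⟨lv.W_mem hx, fun a => ?_⟩
      have h3 := hcomm _ 1 1 lv (a • x) (K.W.smul_mem _ hx)
      rw [actW_one, actW_one, hx', mulVec_smul, mulVec_smul] at h3
      rw [h3, mulVec_smul]
    refine ⟨κ, fun w hw => ?_⟩
    have h3 := (hWS hw).2 1
    rwa [one_smul] at h3
  · have hfr1 : finrank F K.W = 1 := by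
      have := h.hn
      omega
    have hn3 : n = 3 := by omega
    have hq3 : 3 ≤ q := by
      by_contra hcon
      exact hs ⟨hn3, by omega⟩
    obtain ⟨w₀, hw₀, hww⟩ := K.exists_unit_W
    have hw₀0 : (⟨w₀, hw₀⟩ : K.W) ≠ 0 := by
      intro h0
      have h3 : w₀ = 0 := congrArg Subtype.val h0
      rw [h3, herm_zero_left] at hww
      exact zero_ne_one hww
    have hspan : ∀ x ∈ K.W, x = hh x w₀ • w₀ := by
      intro x hx
      obtain ⟨c, hc⟩ := (finrank_eq_one_iff_of_nonzero' _ hw₀0).1 hfr1 ⟨x, hx⟩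
      have h4 : c • w₀ = x := congrArg Subtype.val hc
      subst h4
      rw [herm_smul_left, hww, mul_one]
    let R : Subring F :=
      { carrier := {l | ∀ y ∈ K.W, T₀ (l • y) = l • T₀ y}
        mul_mem' := by
          intro a b ha hb y hy
          rw [mul_smul, ha _ (K.W.smul_mem _ hy), hb y hy, mul_smul]
        one_mem' := by
          intro y hy
          rw [one_smul, one_smul]
        add_mem' := by
          intro a b ha hb y hy
          rw [add_smul, hadd _ (K.W.smul_mem _ hy) _ (K.W.smul_mem _ hy), ha y hy, hb y hy, add_smul]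
        zero_mem' := by
          intro y hy
          rw [zero_smul, zero_smul, hz]
        neg_mem' := by
          intro a ha y hy
          have h3 := hsub 0 K.W.zero_mem (a • y) (K.W.smul_mem _ hy)
          rw [zero_sub, hz, zero_sub, ha y hy] at h3
          rw [neg_smul, neg_smul, h3] }
    have hC : ∀ c : F, c ≠ 0 → c ^ q * (c ^ q * c⁻¹) ∈ R := by
      intro c hc y hy
      obtain ⟨A, hA, hAx⟩ := exists_lv_refl hw₀ hww hc
      have hact : ∀ y ∈ K.W, actW A c y = (c ^ q * (c ^ q * c⁻¹)) • y := by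
        intro y hy
        have e1 : (hh y w₀ * (c ^ q * c⁻¹ - 1)) • w₀ = (c ^ q * c⁻¹ - 1) • (hh y w₀ • w₀) := by
          rw [smul_smul, mul_comm]
        have e2 : y + (hh y w₀ * (c ^ q * c⁻¹ - 1)) • w₀ = (c ^ q * c⁻¹) • y := by
          rw [e1, ← hspan y hy, sub_smul, one_smul]
          abel
        rw [actW, hAx y hy, e2, smul_smul]
      have h3 := hcomm A c _ hA y hy
      rwa [hact y hy, hact _ (hW y hy)] at h3
    have hR : R = ⊤ := subring_eq_top hF hq3 R hC
    have hall : ∀ (l : F), ∀ y ∈ K.W, T₀ (l • y) = l • T₀ y := by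
      intro l
      have : l ∈ R := by
        rw [hR]
        exact Subring.mem_top l
      exact this
    refine ⟨hh (T₀ w₀) w₀, fun w hw => ?_⟩
    rw [hspan w hw, hall _ w₀ hw₀]
    nth_rewrite 1 [hspan (T₀ w₀) (hW _ hw₀)]
    rw [smul_comm]

end main

end Cfsg.Agent.Lib.AutPSU
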