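import Mathlib
import Cfsg.Agent.Lib.AutPSU.Comm

/-! From coordinates to a semilinear unitary map. -/

set_option autoImplicit false
set_option linter.unusedSimpArgs false
set_option linter.unusedVariables false
set_option linter.unusedSectionVars false

namespace Cfsg.Agent.Lib.AutPSU

open Matrix Module MulAction Cfsg.Agent.Lib.Classical
open Cfsg.Agent.Lib.AutPSL (sm sm_add sm_smul sm_symm_sm sm_sm_symm glMap glMap_coe map_mulVec_sm)
open scoped LinearAlgebra.Projectivization MatrixGroups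

variable {F : Type*} [Field F] [Fintype F] {q n : ℕ}

local notation "hh" => Cfsg.hermForm n F q
local notation "VV" => (Fin n → F)
local notation "MM" => Matrix (Fin n) (Fin n) F

section main

variable [h : Good n q F]

variable {K : HP n q F} {α : MulAut (Cfsg.PSU n F q)} {T T' : (Fin n → F) → (Fin n → F)}

theorem IsCh.mem (hT : IsCh α K T) {w : Fin n → F} (hw : w ∈ K.W) : T w ∈ K.W := by
  obtain ⟨s, H⟩ := exists_uv K hw
  exact (hT H hw).1

/-- A semilinear structure on the coordinates. -/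
theorem exists_sigma (hs : ¬ (n = 3 ∧ q = 2)) (hXE : XE α K) (hXF : XF α K) (hT : IsCh α K T) (hT' : IsCh α⁻¹ K T') :
    ∃ σ : F ≃+* F, ∀ (a : F), ∀ w ∈ K.W, T (a • w) = σ a • T w := by
  have hF := h.hF
  have hT'T : ∀ {w : Fin n → F}, w ∈ K.W → T' (T w) = w := fun hw => hT.inv_comp hT' hw
  have hTT' : ∀ {w : Fin n → F}, w ∈ K.W → T (T' w) = w := fun hw => hT'.of_inv hT hw
  have key : ∀ a : F, ∃ κ : F, ∀ w ∈ K.W, T (a • T' w) = κ • w := by
    intro a
    apply commutant hs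
    · intro u hu v hv
      rw [hT'.add hu hv, smul_add, hT.add (K.W.smul_mem _ (hT'.mem hu)) (K.W.smul_mem _ (hT'.mem hv))]
    · intro w hw
      exact hT.mem (K.W.smul_mem _ (hT'.mem hw))
    · intro A c d hA w hw
      obtain ⟨A', e'⟩ := pr_surj (α⁻¹ (pr A))
      obtain ⟨c', d', hA'⟩ := Lv.map hXE.inv hXF.inv hA e'.symm
      have e'' : α (pr A') = pr A := by
        rw [e']
        simp
      rw [hT'.act hA hA' e'.symm hw, ← actW_smul, hT.act hA' hA e'' (K.W.smul_mem _ (hT'.mem hw))]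
  choose σ₀ hσ₀ using key
  obtain ⟨w₀, hw₀, hww⟩ := K.exists_unit_W
  have hw₀0 : w₀ ≠ 0 := by
    rintro rfl
    rw [herm_zero_left] at hww
    exact zero_ne_one hww
  have hcancel : ∀ {a b : F}, a • w₀ = b • w₀ → a = b := by
    intro a b e
    have h1 : (a - b) • w₀ = 0 := by rw [sub_smul, e, sub_self]
    exact sub_eq_zero.1 ((smul_eq_zero.1 h1).resolve_right hw₀0)
  have hadd : ∀ a b : F, σ₀ (a + b) = σ₀ a + σ₀ b := by
    intro a b
    apply hcancel
    rw [← hσ₀ _ _ hw₀, add_smul, add_smul, hT.add (K.W.smul_mem _ (hT'.mem hw₀)) (K.W.smul_mem _ (hT'.mem hw₀)), hσ₀ _ _ hw₀, hσ₀ _ _ hw₀]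
  have hmul : ∀ a b : F, σ₀ (a * b) = σ₀ a * σ₀ b := by
    intro a b
    apply hcancel
    have hm : b • T' w₀ ∈ K.W := K.W.smul_mem _ (hT'.mem hw₀)
    rw [← hσ₀ _ _ hw₀, mul_smul]
    have e1 : a • b • T' w₀ = a • T' (T (b • T' w₀)) := by rw [hT'T hm]
    rw [e1, hσ₀ _ _ (hT.mem hm), hσ₀ _ _ hw₀, mul_smul]
  have hone : σ₀ 1 = 1 := by
    apply hcancel
    rw [← hσ₀ _ _ hw₀, one_smul, one_smul, hTT' hw₀]
  let φ : F →+* F :=
    { toFun := σ₀
      map_one' := hone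
      map_mul' := hmul
      map_zero' := by
        have := hadd 0 0
        rw [add_zero] at this
        exact left_eq_add.1 this
      map_add' := hadd }
  have hinj : Function.Injective φ := φ.injective
  have hbij : Function.Bijective φ := ⟨hinj, Finite.injective_iff_surjective.1 hinj⟩
  refine ⟨RingEquiv.ofBijective φ hbij, fun a w hw => ?_⟩
  show T (a • w) = σ₀ a • T w
  have e1 : a • w = a • T' (T w) := by rw [hT'T hw]
  rw [e1, hσ₀ _ _ (hT.mem hw)]

/-- The form is preserved up to a scalar. -/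
theorem exists_mu (hT : IsCh α K T) (hT' : IsCh α⁻¹ K T') {σ : F ≃+* F} (hσ : ∀ (a : F), ∀ w ∈ K.W, T (a • w) = σ a • T w) :
    ∃ μ : F, μ ≠ 0 ∧ μ ^ q = μ ∧ ∀ w₁ ∈ K.W, ∀ w₂ ∈ K.W, hh (T w₁) (T w₂) = μ * σ (hh w₁ w₂) := by
  have hF := h.hF
  have hq := two_le_q hF
  have hTT' : ∀ {w : Fin n → F}, w ∈ K.W → T (T' w) = w := fun hw => hT'.of_inv hT hw
  obtain ⟨w₀, hw₀, hww⟩ := K.exists_unit_W
  set μ := hh (T w₀) (T w₀) with hμ
  have hμq : μ ^ q = μ := herm_self_conj hF _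
  have key : ∀ w₁ ∈ K.W, ∀ w₂ ∈ K.W, hh (T w₁) (T w₂) = μ * σ (hh w₁ w₂) := by
    intro w₁ h1 w₂ h2
    set E := hh (T w₁) (T w₂) with hE
    set y := hh w₁ w₂ with hy
    have hconj1 : hh w₂ w₁ = y ^ q := herm_conj hF w₁ w₂
    have hconj2 : hh (T w₂) (T w₁) = E ^ q := herm_conj hF (T w₁) (T w₂)
    set D := E - μ * σ y with hD
    have hΦ : ∀ a : F, σ a * D = (σ a * D) ^ q := by
      intro a
      have e := hT.omega_eq (K.W.smul_mem a h1) h2 (K.W.smul_mem (a * y) hw₀) hw₀ (by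
        rw [herm_smul_left, herm_smul_right, herm_smul_left, herm_smul_right, hww, hconj1, mul_pow]
        ring)
      rw [hσ a _ h1, hσ _ _ hw₀, herm_smul_left, herm_smul_right, herm_smul_left, herm_smul_right, hconj2, ← hμ, map_mul, ← hE] at e
      rw [hD, mul_sub, sub_pow_q hF, mul_pow, mul_pow, mul_pow, hμq]
      rw [mul_pow] at e
      linear_combination e
    by_contra hne
    have hD0 : D ≠ 0 := sub_ne_zero.2 hne
    apply frobQ_ne_id hF
    ext x
    rw [frobQ_apply]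
    have h3 := hΦ (σ.symm (x * D⁻¹))
    rw [RingEquiv.apply_symm_apply, mul_assoc, inv_mul_cancel₀ hD0, mul_one] at h3
    exact h3.symm
  refine ⟨μ, ?_, hμq, key⟩
  intro h0
  have h1 := key _ (hT'.mem hw₀) _ (hT'.mem hw₀)
  rw [hTT' hw₀, hww, h0, zero_mul] at h1
  exact one_ne_zero h1

/-- The existence of the semilinear map. -/
theorem exists_semi_of_chart {σ : F ≃+* F} {μ : F} (hμ0 : μ ≠ 0) (hμq : μ ^ q = μ) (hTW : ∀ w ∈ K.W, T w ∈ K.W)
    (hadd : ∀ u ∈ K.W, ∀ v ∈ K.W, T (u + v) = T u + T v)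
    (hσ : ∀ (a : F), ∀ w ∈ K.W, T (a • w) = σ a • T w) (hμ : ∀ w₁ ∈ K.W, ∀ w₂ ∈ K.W, hh (T w₁) (T w₂) = μ * σ (hh w₁ w₂)) :
    ∃ (g : Matrix.GeneralLinearGroup (Fin n) F) (hg : g ∈ Cfsg.GU n F q) (ρ : F), ρ ≠ 0 ∧ sG g σ K.e = (ρ ^ q)⁻¹ • K.e ∧ sG g σ K.f = ρ • K.f ∧
      ∀ w ∈ K.W, sG g σ w = ρ • T w := by
  classical
  have hF := h.hF
  have hq := two_le_q hF
  obtain ⟨ρ, hρ⟩ := exists_norm_eq' hF μ⁻¹ (by rw [inv_pow, hμq])
  have hρ0 : ρ ≠ 0 := by
    rintro rfl
    rw [zero_mul] at hρ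
    exact inv_ne_zero hμ0 hρ.symm
  have hρq : ρ ^ q ≠ 0 := pow_ne_zero _ hρ0
  have hee := K.hee
  have hff := K.hff
  have hef := K.hef
  have hfe := K.hfe
  have hz : T 0 = 0 := by
    have h1 := hadd 0 K.W.zero_mem 0 K.W.zero_mem
    rw [add_zero] at h1
    exact left_eq_add.1 h1
  have hpi_add : ∀ x y : Fin n → F, K.pi (x + y) = K.pi x + K.pi y := by
    intro x y
    simp only [HP.pi, herm_add_left]
    module
  have hpi_smul : ∀ (a : F) (x : Fin n → F), K.pi (a • x) = a • K.pi x := by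
    intro a x
    simp only [HP.pi, herm_smul_left]
    module
  set G : (Fin n → F) → (Fin n → F) := fun x => σ (hh x K.f) • (ρ ^ q)⁻¹ • K.e + σ (hh x K.e) • ρ • K.f + ρ • T (K.pi x) with hG
  have hGadd : ∀ x y, G (x + y) = G x + G y := by
    intro x y
    simp only [hG, hpi_add, herm_add_left, map_add]
    rw [hadd _ (K.pi_mem x) _ (K.pi_mem y)]
    module
  have hGsmul : ∀ (a : F) x, G (a • x) = σ a • G x := by
    intro a x
    simp only [hG, hpi_smul, herm_smul_left, map_mul]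
    rw [hσ _ _ (K.pi_mem x)]
    module
  have hform : ∀ x y, hh (G x) (G y) = σ (hh x y) := by
    intro x y
    have hpx := K.pi_mem x
    have hpy := K.pi_mem y
    have e0 : hh x y = hh x K.f * (hh y K.e) ^ q + hh x K.e * (hh y K.f) ^ q + hh (K.pi x) (K.pi y) := by
      nth_rewrite 1 [K.decomp x]
      nth_rewrite 1 [K.decomp y]
      simp only [herm_add_left, herm_add_right hF, herm_smul_left, herm_smul_right, hee, hff, hef, hfe, HP.e_W hpy, HP.f_W hpy, HP.W_e hpx, HP.W_f hpx]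
      ring
    have e1 : (ρ ^ q)⁻¹ * ρ ^ q = 1 := inv_mul_cancel₀ hρq
    have e2 : ρ * ((ρ ^ q)⁻¹) ^ q = 1 := by
      rw [inv_pow, pow_q_pow_q hF, mul_inv_cancel₀ hρ0]
    have e3 : ρ * ρ ^ q * μ = 1 := by
      rw [hρ, inv_mul_cancel₀ hμ0]
    rw [e0, map_add, map_add, map_mul, map_mul, map_pow, map_pow]
    simp only [hG, herm_add_left, herm_add_right hF, herm_smul_left, herm_smul_right, hee, hff, hef, hfe, HP.e_W (hTW _ hpy), HP.f_W (hTW _ hpy),
      HP.W_e (hTW _ hpx), HP.W_f (hTW _ hpx), hμ _ hpx _ hpy, mul_pow]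
    linear_combination (σ (hh x K.f) * σ (hh y K.e) ^ q * (1 : F)) * e1 + (σ (hh x K.e) * σ (hh y K.f) ^ q * (1 : F)) * e2 + σ (hh (K.pi x) (K.pi y)) * e3
  let L : (Fin n → F) →ₗ[F] (Fin n → F) :=
    { toFun := fun y => G (sm σ.symm y)
      map_add' := by
        intro x y
        rw [sm_add, hGadd]
      map_smul' := by
        intro a x
        rw [sm_smul, hGsmul, RingEquiv.apply_symm_apply]
        rfl }
  have hLform : ∀ x y, hh (L x) (L y) = hh x y := by
    intro x y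
    show hh (G (sm σ.symm x)) (G (sm σ.symm y)) = _
    rw [hform, herm_sm, RingEquiv.apply_symm_apply]
  have hLinj : Function.Injective L := by
    rw [← LinearMap.ker_eq_bot, LinearMap.ker_eq_bot']
    intro x hx
    apply herm_nondeg_right hF
    intro u
    rw [← hLform, hx, herm_zero_left]
  let E : (Fin n → F) ≃ₗ[F] (Fin n → F) := LinearEquiv.ofInjectiveEndo L hLinj
  have hE : ∀ x, E x = L x := fun x => rfl
  have hg : glOfEquiv E ∈ Cfsg.GU n F q := by
    intro u v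
    change hh (((glOfEquiv E : Matrix.GeneralLinearGroup (Fin n) F) : MM) *ᵥ u) (((glOfEquiv E : Matrix.GeneralLinearGroup (Fin n) F) : MM) *ᵥ v) = _
    rw [glOfEquiv_mulVec, glOfEquiv_mulVec, hE, hE, hLform]
  have hsG : ∀ x, sG (glOfEquiv E) σ x = G x := by
    intro x
    rw [sG, glOfEquiv_mulVec, hE]
    show G (sm σ.symm (sm σ x)) = _
    rw [sm_symm_sm]
  have hpie : K.pi K.e = 0 := by
    rw [HP.pi, hee, hef]
    simp
  have hpif : K.pi K.f = 0 := by
    rw [HP.pi, hff, hfe]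
    simp
  refine ⟨glOfEquiv E, hg, ρ, hρ0, ?_, ?_, ?_⟩
  · rw [hsG]
    simp only [hG, hee, hef, hpie, hz, map_one, map_zero, one_smul, zero_smul, smul_zero, add_zero]
  · rw [hsG]
    simp only [hG, hff, hfe, hpif, hz, map_one, map_zero, one_smul, zero_smul, smul_zero, add_zero, zero_add]
  · intro w hw
    rw [hsG]
    have hpiw : K.pi w = w := by
      rw [HP.pi, HP.W_e hw, HP.W_f hw]
      simp
    simp only [hG, HP.W_e hw, HP.W_f hw, hpiw, map_zero, zero_smul, zero_add]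

end main

end Cfsg.Agent.Lib.AutPSU
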