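import Mathlib
import Cfsg.Agent.Lib.AutPSU.Form

/-! An automorphism acting trivially in coordinates is trivial. -/

set_option autoImplicit false
set_option linter.unusedSimpArgs false
set_option linter.unusedVariables false
set_option linter.unusedSectionVars false

namespace Cfsg.Agent.Lib.AutPSU

open Matrix Module MulAction Cfsg.Agent.Lib.Classical
open scoped LinearAlgebra.Projectivization MatrixGroups

variable {F : Type*} [Field F] [Fintype F] {q n : ℕ}

local notation "hh" => Cfsg.hermForm n F q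
local notation "VV" => (Fin n → F)
local notation "MM" => Matrix (Fin n) (Fin n) F

section main

variable [h : Good n q F]

variable {K : HP n q F} {β : MulAut (Cfsg.PSU n F q)}

theorem ue_eq_of_eq {v w w' : Fin n → F} {s s' : F} (H : UV q v w s) (e1 : w' = w) (e2 : s' = s) : ue h.hF (v := v) (w := w') (s := s') (e1 ▸ e2 ▸ H) = ue h.hF H := by
  subst e1 e2
  rfl

/-- Step one: the root group is fixed. -/
theorem fix_X (hT : IsCh β K id) {a : F} (H : UV q K.e (0 : Fin n → F) a) : β (pr (ue h.hF H)) = pr (ue h.hF H) := by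
  have hF := h.hF
  obtain ⟨w₀, hw₀, hww⟩ := K.exists_unit_W
  obtain ⟨t, ht⟩ := exists_trace_eq' hF (1 : F) (one_pow _)
  have ha : a ^ q = - a := by
    have h1 := H.sw
    rw [herm_zero_left] at h1
    linear_combination h1
  have e : hh ((a * t) • w₀) w₀ - hh w₀ ((a * t) • w₀) = a := by
    rw [herm_smul_left, herm_smul_right, hww, mul_pow, ha]
    linear_combination a * ht
  have e1 := hT.omega (K.W.smul_mem (a * t) hw₀) hw₀
  have e2 : ue hF (uv_omega K ((a * t) • w₀) w₀) = ue hF H := ue_congr _ _ rfl rfl e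
  rw [e2] at e1
  exact e1

/-- Step two: the Levi subgroup is fixed. -/
theorem fix_L (hXE : XE β K) (hXF : XF β K) (hT : IsCh β K id) {A : Cfsg.SU n F q} {c d : F} (hA : Lv K A c d) : β (pr A) = pr A := by
  have hF := h.hF
  have hq := two_le_q hF
  obtain ⟨A', e⟩ := pr_surj (β (pr A))
  obtain ⟨c', d', hA'⟩ := Lv.map hXE hXF hA e.symm
  have h1 : ∀ w ∈ K.W, actW A c w = actW A' c' w := fun w hw => hT.act hA hA' e.symm hw
  have hc := hA.c0
  have hc' := hA'.c0
  have hcq : c ^ q ≠ 0 := pow_ne_zero _ hc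
  have hcq' : c' ^ q ≠ 0 := pow_ne_zero _ hc'
  -- the norms agree
  have h2 : c * c ^ q = c' * c' ^ q := by
    obtain ⟨a₀, ha₀, ha₀'⟩ := exists_s0 (n := n) (q := q) (F := F)
    have H₀ : UV q K.e (0 : Fin n → F) a₀ := uv_root hF K.hee ha₀'
    have hmul : c * c ^ q * a₀ + (c * c ^ q * a₀) ^ q = 0 := by
      rw [mul_pow, mul_pow, pow_q_pow_q hF]
      linear_combination (c * c ^ q) * ha₀'
    have hmul' : c' * c' ^ q * a₀ + (c' * c' ^ q * a₀) ^ q = 0 := by
      rw [mul_pow, mul_pow, pow_q_pow_q hF]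
      linear_combination (c' * c' ^ q) * ha₀'
    have H₁ : UV q K.e (0 : Fin n → F) (c * c ^ q * a₀) := uv_root hF K.hee hmul
    have H₂ : UV q K.e (0 : Fin n → F) (c' * c' ^ q * a₀) := uv_root hF K.hee hmul'
    have e1 := hA.conj H₀
    have e2 := hA'.conj H₀
    have e3 : ue hF (UV.conjs H₀ A hA.he hc) = ue hF H₁ := ue_congr _ _ rfl (by rw [mulVec_zero, smul_zero]) rfl
    have e4 : ue hF (UV.conjs H₀ A' hA'.he hc') = ue hF H₂ := ue_congr _ _ rfl (by rw [mulVec_zero, smul_zero]) rfl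
    rw [e3] at e1
    rw [e4] at e2
    have e5 := congrArg β e1
    rw [map_mul, map_mul, map_inv, fix_X hT H₀, fix_X hT H₁, ← e, e2] at e5
    have e6 := (HP.ue_uniq K.W.zero_mem K.W.zero_mem _ _ e5).2
    exact mul_right_cancel₀ ha₀ e6.symm
  -- the matrices are proportional
  have h3 : suM A' = (c' * c⁻¹) • suM A := by
    apply Matrix.ext_of_mulVec_single
    intro i
    rw [Matrix.smul_mulVec]
    set x : Fin n → F := Pi.single i 1
    have hd := hA.d_eq
    have hd' := hA'.d_eq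
    have hwit : ∀ w ∈ K.W, suM A' *ᵥ w = (c' * c⁻¹) • suM A *ᵥ w := by
      intro w hw
      have h4 := h1 w hw
      rw [actW, actW] at h4
      have h5 : suM A' *ᵥ w = (c' ^ q)⁻¹ • (c' ^ q • suM A' *ᵥ w) := by
        rw [smul_smul, inv_mul_cancel₀ hcq', one_smul]
      rw [h5, ← h4, smul_smul]
      congr 1
      field_simp
      linear_combination h2
    have hx := K.decomp x
    have e1 : suM A' *ᵥ x = suM A' *ᵥ (hh x K.f • K.e + hh x K.e • K.f + K.pi x) := by rw [← hx]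
    have e2 : suM A *ᵥ x = suM A *ᵥ (hh x K.f • K.e + hh x K.e • K.f + K.pi x) := by rw [← hx]
    rw [e1, e2, mulVec_add, mulVec_add, mulVec_add, mulVec_add, mulVec_smul, mulVec_smul, mulVec_smul, mulVec_smul, hA.he, hA.hf, hA'.he, hA'.hf,
      hwit _ (K.pi_mem x), hd, hd', smul_add, smul_add]
    congr 1
    congr 1
    · simp only [smul_smul]
      congr 1
      field_simp
    · simp only [smul_smul]
      congr 1
      field_simp
      linear_combination (hh x K.e) * h2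
  rw [← e]
  exact (pr_eq_iff.2 ⟨_, h3⟩).symm

/-- Step three, the shift. -/
theorem exists_shift (hT : IsCh β K id) : ∃ g : (Fin n → F) → F, ∀ w ∈ K.W, ∀ (s : F) (H : UV q K.e w s), ∃ H' : UV q K.e w (s + g w),
    β (pr (ue h.hF H)) = pr (ue h.hF H') := by
  classical
  have hF := h.hF
  have key : ∀ w : Fin n → F, w ∈ K.W → ∃ g₀ : F, ∀ (s : F) (H : UV q K.e w s), ∃ H' : UV q K.e w (s + g₀), β (pr (ue hF H)) = pr (ue hF H') := by
    intro w hw
    obtain ⟨s₀, H₀⟩ := exists_uv K hw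
    obtain ⟨-, s', H₁, e1⟩ := hT H₀ hw
    have H₁' : UV q K.e w s' := H₁
    refine ⟨s' - s₀, fun s H => ?_⟩
    have e3 := HP.ue_split H H₀
    have H₃ : UV q K.e (w + 0) (s' + (s - s₀) - hh 0 w) := UV.mul hF H₁' (HP.uv_sub H H₀)
    have H₄ : UV q K.e w (s + (s' - s₀)) := by
      rw [add_zero, herm_zero_left] at H₃
      convert H₃ using 1
      ring
    refine ⟨H₄, ?_⟩
    rw [← e3, map_mul, map_mul, fix_X hT, e1, ← map_mul]
    congr 1
    apply HP.ue_mul' H₁' _ _ (add_zero _).symm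
    rw [herm_zero_left]
    ring
  choose! g hg using key
  exact ⟨g, hg⟩

/-- There is an element of norm one which is not a cube root of unity. -/
theorem exists_norm_one_cube (hF : Fintype.card F = q ^ 2) (hq : 3 ≤ q) : ∃ c : F, c ≠ 0 ∧ c ^ (q + 1) = 1 ∧ c ^ 3 ≠ 1 := by
  classical
  obtain ⟨z, hz⟩ := IsCyclic.exists_generator (α := Fˣ)
  have hord : orderOf z = (q - 1) * (q + 1) := by
    rw [orderOf_eq_card_of_forall_mem_zpowers hz, Nat.card_eq_fintype_card, Fintype.card_units, hF]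
    obtain ⟨k, rfl⟩ : ∃ k, q = k + 3 := ⟨q - 3, by omega⟩
    have h1 : k + 3 - 1 = k + 2 := by omega
    rw [h1]
    have h2 : (k + 3) ^ 2 = (k + 2) * (k + 3 + 1) + 1 := by ring
    omega
  refine ⟨((z ^ (q - 1) : Fˣ) : F), Units.ne_zero _, ?_, ?_⟩
  · rw [← Units.val_pow_eq_pow_val, ← pow_mul, ← hord, pow_orderOf_eq_one]
    rfl
  · intro h3
    have h4 : (z ^ (q - 1)) ^ 3 = 1 := by
      apply Units.ext
      rw [Units.val_pow_eq_pow_val]
      exact h3
    rw [← pow_mul] at h4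
    have h5 := orderOf_dvd_of_pow_eq_one h4
    rw [hord] at h5
    have h6 : 0 < q - 1 := by omega
    have h7 : q + 1 ∣ 3 := Nat.dvd_of_mul_dvd_mul_left h6 h5
    have h8 := Nat.le_of_dvd (by norm_num) h7
    omega

/-- Step three: the shift vanishes. -/
theorem shift_zero (hs : ¬ (n = 3 ∧ q = 2)) (hXE : XE β K) (hXF : XF β K) (hT : IsCh β K id) {g : (Fin n → F) → F}
    (hg : ∀ w ∈ K.W, ∀ (s : F) (H : UV q K.e w s), ∃ H' : UV q K.e w (s + g w), β (pr (ue h.hF H)) = pr (ue h.hF H')) :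
    ∀ w ∈ K.W, g w = 0 := by
  classical
  have hF := h.hF
  have hq := two_le_q hF
  have hadd : ∀ u ∈ K.W, ∀ v ∈ K.W, g (u + v) = g u + g v := by
    intro u hu v hv
    obtain ⟨s₁, H₁⟩ := exists_uv K hu
    obtain ⟨s₂, H₂⟩ := exists_uv K hv
    obtain ⟨H₁', e1⟩ := hg u hu s₁ H₁
    obtain ⟨H₂', e2⟩ := hg v hv s₂ H₂
    obtain ⟨H₃', e3⟩ := hg _ (K.W.add_mem hu hv) _ (UV.mul hF H₁ H₂)
    rw [← ue_mul hF H₁ H₂, map_mul, map_mul, e1, e2, ← map_mul, ue_mul] at e3
    have e4 := (HP.ue_uniq (K.W.add_mem hu hv) (K.W.add_mem hu hv) _ _ e3).2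
    linear_combination - e4
  have hz : g 0 = 0 := by
    have h1 := hadd 0 K.W.zero_mem 0 K.W.zero_mem
    rw [add_zero] at h1
    exact left_eq_add.1 h1
  have hact : ∀ {A : Cfsg.SU n F q} {c d : F}, Lv K A c d → ∀ w ∈ K.W, g (actW A c w) = c * c ^ q * g w := by
    intro A c d hA w hw
    obtain ⟨s, H⟩ := exists_uv K hw
    obtain ⟨H', e1⟩ := hg w hw s H
    have e2 := hA.conj H
    have e3 := congrArg β e2
    rw [map_mul, map_mul, map_inv, fix_L hXE hXF hT hA, e1, hA.conj H'] at e3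
    obtain ⟨H₃, e4⟩ := hg (actW A c w) (hA.act_mem hw) _ (UV.conjs H A hA.he hA.c0)
    have e5 : β (pr (ue hF (UV.conjs H A hA.he hA.c0))) = pr (ue hF H₃) := e4
    rw [e5] at e3
    have e6 := (HP.ue_uniq (hA.act_mem hw) (hA.act_mem hw) _ _ e3).2
    linear_combination - e6
  have hfr := K.finrank_W
  by_cases h2 : 2 ≤ finrank F K.W
  · obtain ⟨v₀, hv₀, hv₀0, hv₀v₀⟩ := exists_isotropic_in hF K.nds h2
    obtain ⟨v₁, hv₁, hv₁v₁, hv₀v₁⟩ := exists_partner_in hF K.nds hv₀ hv₀0 hv₀v₀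
    have hv₁v₀ : hh v₁ v₀ = 1 := herm_fe hF hv₀v₁
    obtain ⟨a₀, ha₀, ha₀'⟩ := exists_s0 (n := n) (q := q) (F := F)
    have H₀ : UV q v₀ (0 : Fin n → F) a₀ := uv_root hF hv₀v₀ ha₀'
    have hline : ∀ b : F, g (b • v₀) = 0 := by
      intro b
      have hm : (b * a₀⁻¹) • v₁ ∈ K.W := K.W.smul_mem _ hv₁
      have h3 := hact (lv_ue H₀ hv₀ K.W.zero_mem) _ hm
      rw [actW_one, root_apply] at h3
      have e : hh ((b * a₀⁻¹) • v₁) v₀ * a₀ = b := by
        rw [herm_smul_left, hv₁v₀]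
        field_simp
      rw [e, hadd _ hm _ (K.W.smul_mem _ hv₀), one_pow, mul_one, one_mul] at h3
      exact left_eq_add.1 h3.symm
    let S : Submodule F (Fin n → F) :=
      { carrier := {x | x ∈ K.W ∧ ∀ a : F, g (a • x) = 0}
        add_mem' := by
          rintro x y ⟨hx, hx'⟩ ⟨hy, hy'⟩
          refine ⟨K.W.add_mem hx hy, fun a => ?_⟩
          rw [smul_add, hadd _ (K.W.smul_mem _ hx) _ (K.W.smul_mem _ hy), hx', hy', add_zero]
        zero_mem' := ⟨K.W.zero_mem, fun a => by rw [smul_zero, hz]⟩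
        smul_mem' := by
          rintro c x ⟨hx, hx'⟩
          refine ⟨K.W.smul_mem _ hx, fun a => ?_⟩
          rw [smul_smul, hx'] }
    have hWS : K.W ≤ S := by
      refine irred_W K.nds h2 ?_ hv₀ ⟨hv₀, hline⟩ hv₀0
      rintro u w' s H hu hw' x ⟨hx, hx'⟩
      have lv := lv_ue H hu hw'
      refine ⟨lv.W_mem hx, fun a => ?_⟩
      have h3 := hact lv (a • x) (K.W.smul_mem _ hx)
      rw [actW_one, hx', mul_zero, mulVec_smul] at h3
      exact h3
    intro w hw
    have h3 := (hWS hw).2 1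
    rwa [one_smul] at h3
  · have hfr1 : finrank F K.W = 1 := by
      have := h.hn
      omega
    have hn3 : n = 3 := by omega
    have hq3 : 3 ≤ q := by
      by_contra hcon
      exact hs ⟨hn3, by omega⟩
    obtain ⟨w₀, hw₀, hww⟩ := K.exists_unit_W
    have hw₀0 : (⟨w₀, hw₀⟩ : K.W) ≠ 0 := by
      intro h0
      have h3 : w₀ = 0 := congrArg Subtype.val h0
      rw [h3, herm_zero_left] at hww
      exact zero_ne_one hww
    have hspan : ∀ x ∈ K.W, x = hh x w₀ • w₀ := by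
      intro x hx
      obtain ⟨c, hc⟩ := (finrank_eq_one_iff_of_nonzero' _ hw₀0).1 hfr1 ⟨x, hx⟩
      have h4 : c • w₀ = x := congrArg Subtype.val hc
      subst h4
      rw [herm_smul_left, hww, mul_one]
    obtain ⟨c, hc, hc1, hc3⟩ := exists_norm_one_cube hF hq3
    obtain ⟨A, hA, hAx⟩ := exists_lv_refl hw₀ hww hc
    have hcq : c * c ^ q = 1 := by
      rw [pow_succ, mul_comm] at hc1
      exact hc1
    have hcq' : c ^ q = c⁻¹ := eq_inv_of_mul_eq_one_right hcq
    have hact' : ∀ y ∈ K.W, actW A c y = (c⁻¹ * (c⁻¹ * c⁻¹)) • y := by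
      intro y hy
      have e1 : (hh y w₀ * (c ^ q * c⁻¹ - 1)) • w₀ = (c ^ q * c⁻¹ - 1) • (hh y w₀ • w₀) := by
        rw [smul_smul, mul_comm]
      have e2 : y + (hh y w₀ * (c ^ q * c⁻¹ - 1)) • w₀ = (c ^ q * c⁻¹) • y := by
        rw [e1, ← hspan y hy, sub_smul, one_smul]
        abel
      rw [actW, hAx y hy, e2, smul_smul, hcq']
    set l := c⁻¹ * (c⁻¹ * c⁻¹) with hl
    have hl1 : l - 1 ≠ 0 := by
      intro h0
      apply hc3
      have h3 : l = 1 := sub_eq_zero.1 h0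
      rw [hl] at h3
      field_simp at h3
      rw [pow_succ, pow_two]
      linear_combination - h3
    intro w hw
    have hm : (l - 1)⁻¹ • w ∈ K.W := K.W.smul_mem _ hw
    have h3 := hact hA _ hm
    rw [hact' _ hm, hcq, one_mul] at h3
    have e : l • (l - 1)⁻¹ • w = w + (l - 1)⁻¹ • w := by
      rw [smul_smul]
      have : l * (l - 1)⁻¹ = 1 + (l - 1)⁻¹ := by
        field_simp
        ring
      rw [this, add_smul, one_smul]
    rw [e, hadd _ hw _ hm] at h3
    exact add_eq_right.1 h3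

/-- The unipotent radical is fixed. -/
theorem fix_Q (hs : ¬ (n = 3 ∧ q = 2)) (hXE : XE β K) (hXF : XF β K) (hT : IsCh β K id) {w : Fin n → F} {s : F} (H : UV q K.e w s) :
    β (pr (ue h.hF H)) = pr (ue h.hF H) := by
  obtain ⟨w', hw', s', H', e⟩ := HP.exists_reduce H
  rw [e]
  obtain ⟨g, hg⟩ := exists_shift hT
  have h0 := shift_zero hs hXE hXF hT hg w' hw'
  obtain ⟨H'', e2⟩ := hg w' hw' s' H'
  rw [e2]
  congr 1
  exact ue_congr _ _ rfl rfl (by rw [h0, add_zero])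

/-- The point stabiliser is fixed. -/
theorem fix_P (hs : ¬ (n = 3 ∧ q = 2)) (hXE : XE β K) (hXF : XF β K) (hT : IsCh β K id) {A : Cfsg.SU n F q} {c : F} (hA : suM A *ᵥ K.e = c • K.e) :
    β (pr A) = pr A := by
  have hF := h.hF
  have hq := two_le_q hF
  have hc := ne_zero_of_eig K.he hA
  have hcq : c ^ q ≠ 0 := pow_ne_zero _ hc
  set f' := suM A *ᵥ K.f with hf'
  have hf'f' : hh f' f' = 0 := (su_form A K.f K.f).trans K.hff
  have hef' : c * hh K.e f' = 1 := by
    have h1 := su_form A K.e K.f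
    have e1 : (A.1 : Matrix.SpecialLinearGroup (Fin n) F).1 *ᵥ K.e = c • K.e := hA
    rw [e1, herm_smul_left, K.hef] at h1
    exact h1
  set f'' := c ^ q • f' with hf''
  have e1 : hh K.e f'' = 1 := by
    rw [hf'', herm_smul_right, pow_q_pow_q hF]
    exact hef'
  have e2 : hh f'' f'' = 0 := by
    rw [hf'', herm_smul_left, herm_smul_right, hf'f']
    ring
  have e3 : hh f'' K.e = 1 := herm_fe hF e1
  set w := K.pi f'' with hw
  set s := hh f'' K.f with hs'
  have hmem : w ∈ K.W := K.pi_mem f''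
  have hdec : f'' = s • K.e + K.f + w := by
    have := K.decomp f''
    rw [e3, one_smul] at this
    exact this
  have H : UV q K.e w s := by
    refine ⟨K.hee, HP.e_W hmem, ?_⟩
    have h1 := e2
    rw [hdec] at h1
    simp only [herm_add_left, herm_add_right hF, herm_smul_left, herm_smul_right, K.hee, K.hff, K.hef, K.hfe, HP.e_W hmem, HP.f_W hmem, HP.W_e hmem, HP.W_f hmem] at h1
    linear_combination h1
  have hUf : suM (ue hF H) *ᵥ K.f = f'' := by
    rw [suM_ue, K.hfe, one_smul, HP.f_W hmem, zero_smul, sub_zero, hdec]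
    abel
  have hUe : suM (ue hF H) *ᵥ K.e = K.e := suM_ue_base H
  have hUie : suM (ue hF H)⁻¹ *ᵥ K.e = K.e := by
    have h1 := su_inv_mulVec' (ue hF H) K.e
    have e5 : ((ue hF H).1 : Matrix.SpecialLinearGroup (Fin n) F).1 *ᵥ K.e = K.e := hUe
    rw [e5] at h1
    exact h1
  have hUif : suM (ue hF H)⁻¹ *ᵥ f'' = K.f := by
    have h1 := su_inv_mulVec' (ue hF H) K.f
    have e5 : ((ue hF H).1 : Matrix.SpecialLinearGroup (Fin n) F).1 *ᵥ K.f = f'' := hUf
    rw [e5] at h1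
    exact h1
  have hB : Lv K ((ue hF H)⁻¹ * A) c (c ^ q)⁻¹ := by
    constructor
    · rw [su_mul_mulVec, hA, mulVec_smul, hUie]
    · rw [su_mul_mulVec]
      have e6 : suM A *ᵥ K.f = (c ^ q)⁻¹ • f'' := by
        rw [hf'', smul_smul, inv_mul_cancel₀ hcq, one_smul]
      rw [e6, mulVec_smul, hUif]
  have e4 : A = ue hF H * ((ue hF H)⁻¹ * A) := (mul_inv_cancel_left _ _).symm
  conv_lhs => rw [e4]
  rw [map_mul, map_mul, fix_Q hs hXE hXF hT H, fix_L hXE hXF hT hB, ← map_mul, ← e4]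

theorem Xr_conj (A : Cfsg.SU n F q) {v : Fin n → F} {hvv : hh v v = 0} {y : Cfsg.PSU n F q} (hy : y ∈ Xr hvv)
    (hvv' : hh (suM A *ᵥ v) (suM A *ᵥ v) = 0) : pr A * y * (pr A)⁻¹ ∈ Xr hvv' := by
  have hF := h.hF
  obtain ⟨s, H, rfl⟩ := mem_Xr.1 hy
  have H₂ : UV q (suM A *ᵥ v) (0 : Fin n → F) s := uv_root hF hvv' (by
    have := H.sw
    rwa [herm_zero_left, add_zero] at this)
  refine mem_Xr.2 ⟨s, H₂, ?_⟩
  rw [← map_inv, ← map_mul, ← map_mul, ue_conj']
  congr 1
  exact ue_congr _ _ rfl (by rw [mulVec_zero]) rfl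

theorem Xr_scale {v z : Fin n → F} {hvv : hh v v = 0} {hzz : hh z z = 0} {c : F} (hc : c ≠ 0) (hz : z = c • v) {y : Cfsg.PSU n F q}
    (hy : y ∈ Xr hzz) : y ∈ Xr hvv := by
  have hF := h.hF
  subst hz
  obtain ⟨s, H, rfl⟩ := mem_Xr.1 hy
  have H₂ := UV.scale H hc
  rw [smul_zero] at H₂
  refine mem_Xr.2 ⟨_, H₂, ?_⟩
  rw [ue_scale H hc]
  congr 1
  exact ue_congr _ _ rfl (by rw [smul_zero]) rfl

/-- An automorphism trivial in coordinates is trivial. -/
theorem rigid (hs : ¬ (n = 3 ∧ q = 2)) (hXE : XE β K) (hXF : XF β K) (hT : IsCh β K id) : β = 1 := by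
  have hF := h.hF
  have hq := two_le_q hF
  obtain ⟨s₀, hs₀, hs₀'⟩ := exists_s0 (n := n) (q := q) (F := F)
  have hs₀q : s₀ ^ q = - s₀ := by linear_combination hs₀'
  set r := - s₀⁻¹ with hr
  have hr0 : r ≠ 0 := neg_ne_zero.2 (inv_ne_zero hs₀)
  have hr' : r + r ^ q = 0 := by
    rw [hr, neg_pow_q hF, inv_pow, hs₀q, inv_neg, neg_neg]
    ring
  have hrs : 1 + r * s₀ = 0 := by
    rw [hr]
    field_simp
    ring
  have He : UV q K.e (0 : Fin n → F) s₀ := uv_root hF K.hee hs₀'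
  have Hf : UV q K.f (0 : Fin n → F) r := uv_root hF K.hff hr'
  have hM : ∀ {r' : F} (H' : UV q K.f (0 : Fin n → F) r'), suM (ue hF H' * ue hF He * ue hF H') *ᵥ K.e =
      (1 + r' * s₀) • K.e + (r' + (1 + r' * s₀) * r') • K.f := by
    intro r' H'
    rw [su_mul_mulVec, su_mul_mulVec, root_apply, root_apply, root_apply]
    simp only [herm_add_left, herm_smul_left, K.hee, K.hff, K.hef, K.hfe]
    module
  set M := ue hF Hf * ue hF He * ue hF Hf with hMdef
  have hMe : suM M *ᵥ K.e = r • K.f := by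
    rw [hMdef, hM, hrs, zero_mul, add_zero, zero_smul, zero_add]
  obtain ⟨r', H', e1⟩ := mem_Xr.1 ((hXF (pr (ue hF Hf))).2 (mem_Xr.2 ⟨r, Hf, rfl⟩))
  set M' := ue hF H' * ue hF He * ue hF H' with hM'def
  have e2 : β (pr M) = pr M' := by
    rw [hMdef, hM'def, map_mul, map_mul, map_mul, map_mul, map_mul, map_mul, e1, fix_X hT He]
  set z := suM M' *ᵥ K.e with hz
  have hz0 : z ≠ 0 := su_mulVec_ne_zero M' K.he
  have hzz : hh z z = 0 := (su_form M' K.e K.e).trans K.hee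
  have hle : Xr hzz ≤ Xr K.hff := by
    intro y hy
    have h1 : hh (suM M'⁻¹ *ᵥ z) (suM M'⁻¹ *ᵥ z) = 0 := (su_form M'⁻¹ z z).trans hzz
    have h2 := Xr_conj M'⁻¹ hy h1
    have h3 : pr M'⁻¹ * y * (pr M'⁻¹)⁻¹ ∈ Xr K.hee := by
      refine Xr_scale (c := 1) one_ne_zero ?_ h2
      rw [one_smul]
      exact su_inv_mulVec' M' K.e
    have h4 : β⁻¹ (pr M'⁻¹ * y * (pr M'⁻¹)⁻¹) ∈ Xr K.hee := (hXE.inv _).2 h3
    have h5 : hh (suM M *ᵥ K.e) (suM M *ᵥ K.e) = 0 := (su_form M K.e K.e).trans K.hee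
    have h6 := Xr_conj M h4 h5
    have h7 : pr M * β⁻¹ (pr M'⁻¹ * y * (pr M'⁻¹)⁻¹) * (pr M)⁻¹ ∈ Xr K.hff := Xr_scale hr0 hMe h6
    have h8 := (hXF _).2 h7
    have h10 : ∀ x, β (pr M * β⁻¹ x * (pr M)⁻¹) = pr M' * x * (pr M')⁻¹ := by
      intro x
      have h9 : β (β⁻¹ x) = x := by simp
      rw [map_mul, map_mul, map_inv, e2, h9]
    have h11 : pr M' * (pr M'⁻¹ * y * (pr M'⁻¹)⁻¹) * (pr M')⁻¹ = y := by
      rw [map_inv]
      group
    rw [h10, h11] at h8
    exact h8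
  have h1 := Xr_le_inj K.hf K.hff hz0 hzz hle
  rw [isoMk_eq_iff] at h1
  obtain ⟨c, hc, hc2⟩ := h1
  have h2 : z = (1 + r' * s₀) • K.e + (r' + (1 + r' * s₀) * r') • K.f := hM H'
  have h3 := congrArg (fun y => hh y K.f) hc2
  simp only [h2, herm_smul_left, herm_add_left, K.hef, K.hff, K.hee] at h3
  have h4 : 1 + r' * s₀ = 0 := by
    have h5 : c * (1 + r' * s₀) = 0 := by linear_combination h3
    exact (mul_eq_zero.1 h5).resolve_left hc
  have h5 : r' = r := by
    apply mul_right_cancel₀ hs₀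
    linear_combination h4 - hrs
  have e3 : ue hF H' = ue hF Hf := ue_congr _ _ rfl rfl h5
  have e4 : M' = M := by rw [hM'def, hMdef, e3]
  rw [e4] at e2
  let Fx : Subgroup (Cfsg.PSU n F q) :=
    { carrier := {x | β x = x}
      mul_mem' := by
        intro a b ha hb
        show β (a * b) = a * b
        rw [map_mul, ha, hb]
      one_mem' := map_one β
      inv_mem' := by
        intro a ha
        show β a⁻¹ = a⁻¹
        rw [map_inv, ha] }
  have hle2 : P (isoMk K.he K.hee) ≤ Fx := by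
    intro t ht
    obtain ⟨A, rfl⟩ := pr_surj t
    obtain ⟨c, hc⟩ := (mem_P_iff _ _).1 ht
    exact fix_P hs hXE hXF hT hc
  have hnot : pr M ∉ P (isoMk K.he K.hee) := by
    intro hmem
    obtain ⟨c, hc⟩ := (mem_P_iff _ _).1 hmem
    rw [hMe] at hc
    have h6 := congrArg (fun y => hh y K.f) hc
    simp only [herm_smul_left, K.hff, K.hef] at h6
    have hc0 : c = 0 := by linear_combination - h6
    rw [hc0, zero_smul] at hc
    exact K.hf ((smul_eq_zero.1 hc).resolve_left hr0)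
  have hlt : P (isoMk K.he K.hee) < Fx := lt_of_le_of_ne hle2 (fun h6 => hnot (h6 ▸ e2))
  have htop := (isCoatom_P (isoMk K.he K.hee)).2 _ hlt
  ext x
  have hx : x ∈ Fx := by
    rw [htop]
    exact Subgroup.mem_top x
  show β x = x
  exact hx

end main

end Cfsg.Agent.Lib.AutPSU
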