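import Mathlib
import Cfsg.Agent.Lib.AutPSU.Rigid
import Cfsg.Agent.Lib.AutPSL.OutHom

/-! Every automorphism of `PSU` is semilinear. -/

set_option autoImplicit false
set_option linter.unusedSimpArgs false
set_option linter.unusedVariables false
set_option linter.unusedSectionVars false

namespace Cfsg.Agent.Lib.AutPSU

open Matrix Module MulAction Cfsg.Agent.Lib.Classical
open Cfsg.Agent.Lib.AutPSL (sm sm_add sm_smul sm_symm_sm sm_sm_symm glMap glMap_coe map_mulVec_sm)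
open scoped LinearAlgebra.Projectivization MatrixGroups

variable {F : Type*} [Field F] [Fintype F] {q n : ℕ}

local notation "hh" => Cfsg.hermForm n F q
local notation "VV" => (Fin n → F)
local notation "MM" => Matrix (Fin n) (Fin n) F

section main

variable [h : Good n q F]

variable {K : HP n q F} {α β : MulAut (Cfsg.PSU n F q)} {T T' : (Fin n → F) → (Fin n → F)}

theorem sG_zero (g : Matrix.GeneralLinearGroup (Fin n) F) (σ : F ≃+* F) : sG g σ (0 : Fin n → F) = 0 := by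
  have h2 := sG_smul g σ 0 0
  rwa [zero_smul, map_zero, zero_smul] at h2

/-- The image of a root group under a semilinear map fixing the point. -/
theorem semi_Xr {g : Matrix.GeneralLinearGroup (Fin n) F} (hg : g ∈ Cfsg.GU n F q) {σ : F ≃+* F} {v : Fin n → F} {hvv : hh v v = 0} {c : F} (hc0 : c ≠ 0)
    (hc : sG g σ v = c • v) {y : Cfsg.PSU n F q} (hy : y ∈ Xr hvv) : psuSemi g hg σ y ∈ Xr hvv := by
  have hF := h.hF
  obtain ⟨s, H, rfl⟩ := mem_Xr.1 hy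
  rw [psuSemi_ue]
  have H₁ := UV.semi hg σ H
  have H₂ : UV q (c • v) (0 : Fin n → F) (σ s) := by
    rw [← hc, ← sG_zero g σ]
    exact H₁
  have H₃ := UV.scale H₂ hc0
  rw [smul_zero] at H₃
  refine mem_Xr.2 ⟨_, H₃, ?_⟩
  congr 1
  rw [ue_congr (UV.semi hg σ H) H₂ hc (sG_zero g σ) rfl, ue_scale H₂ hc0]
  exact ue_congr _ _ rfl (by rw [smul_zero]) rfl

theorem sG_inv_eig {g : Matrix.GeneralLinearGroup (Fin n) F} {σ : F ≃+* F} {v : Fin n → F} {c : F} (hc0 : c ≠ 0) (hc : sG g σ v = c • v) :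
    sG (gInv g σ) σ.symm v = (σ.symm c)⁻¹ • v := by
  have h1 := sG_gInv g σ v
  rw [hc, sG_smul] at h1
  have h2 : σ.symm c ≠ 0 := (map_ne_zero σ.symm).2 hc0
  nth_rewrite 2 [← h1]
  rw [smul_smul, inv_mul_cancel₀ h2, one_smul]

theorem XE_semi {g : Matrix.GeneralLinearGroup (Fin n) F} (hg : g ∈ Cfsg.GU n F q) {σ : F ≃+* F} {c : F} (hc0 : c ≠ 0)
    (hc : sG g σ K.e = c • K.e) : XE (psuSemi g hg σ) K := by
  intro y
  constructor
  · intro hy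
    have h1 := semi_Xr (gInv_mem hg σ) (inv_ne_zero ((map_ne_zero σ.symm).2 hc0)) (sG_inv_eig hc0 hc) hy
    rw [← psuSemi_inv hg] at h1
    simpa using h1
  · exact semi_Xr hg hc0 hc

theorem XF_semi {g : Matrix.GeneralLinearGroup (Fin n) F} (hg : g ∈ Cfsg.GU n F q) {σ : F ≃+* F} {c : F} (hc0 : c ≠ 0)
    (hc : sG g σ K.f = c • K.f) : XF (psuSemi g hg σ) K := by
  intro y
  constructor
  · intro hy
    have h1 := semi_Xr (gInv_mem hg σ) (inv_ne_zero ((map_ne_zero σ.symm).2 hc0)) (sG_inv_eig hc0 hc) hy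
    rw [← psuSemi_inv hg] at h1
    simpa using h1
  · exact semi_Xr hg hc0 hc

/-- Coordinates of a semilinear automorphism. -/
theorem isCh_semi {g : Matrix.GeneralLinearGroup (Fin n) F} (hg : g ∈ Cfsg.GU n F q) {σ : F ≃+* F} {c d : F} (hc0 : c ≠ 0) (hd0 : d ≠ 0)
    (hc : sG g σ K.e = c • K.e) (hd : sG g σ K.f = d • K.f) : IsCh (psuSemi g hg σ) K (fun w => c ^ q • sG g σ w) := by
  have hF := h.hF
  intro w s H hw
  have hmem : c ^ q • sG g σ w ∈ K.W := by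
    apply K.W.smul_mem
    have h1 := sG_form hg σ w K.e
    have h2 := sG_form hg σ w K.f
    rw [HP.W_e hw, map_zero, hc, herm_smul_right] at h1
    rw [HP.W_f hw, map_zero, hd, herm_smul_right] at h2
    exact HP.mem_W.2 ⟨(mul_eq_zero.1 h1).resolve_left (pow_ne_zero _ hc0), (mul_eq_zero.1 h2).resolve_left (pow_ne_zero _ hd0)⟩
  refine ⟨hmem, ?_⟩
  have H₁ := UV.semi hg σ H
  have H₂ : UV q (c • K.e) (sG g σ w) (σ s) := by
    rw [← hc]
    exact H₁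
  refine ⟨_, UV.scale H₂ hc0, ?_⟩
  rw [psuSemi_ue, ue_congr (UV.semi hg σ H) H₂ hc rfl rfl, ue_scale H₂ hc0]

theorem IsCh.comp (hT : IsCh α K T) (hT' : IsCh β K T') : IsCh (β * α) K (fun w => T' (T w)) := by
  intro w s H hw
  obtain ⟨m, s₁, H₁, e1⟩ := hT H hw
  obtain ⟨m', s₂, H₂, e2⟩ := hT' H₁ m
  refine ⟨m', s₂, H₂, ?_⟩
  show β (α _) = _
  rw [e1, e2]

theorem IsCh.congr (hT : IsCh α K T) (e : ∀ w ∈ K.W, T w = T' w) : IsCh α K T' := by
  intro w s H hw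
  obtain ⟨m, s₁, H₁, e1⟩ := hT H hw
  have H₂ : UV q K.e (T' w) s₁ := by
    rw [← e w hw]
    exact H₁
  refine ⟨e w hw ▸ m, s₁, H₂, ?_⟩
  rw [e1]
  congr 1
  exact ue_congr _ _ rfl (e w hw) rfl

section pgroup

variable {p : ℕ} [Fact p.Prime] [CharP F p]

include p in
/-- Automorphisms preserving the root groups of a hyperbolic pair are semilinear. -/
theorem semi_of_normal (hs : ¬ (n = 3 ∧ q = 2)) (hXE : XE α K) (hXF : XF α K) :
    ∃ (g : Matrix.GeneralLinearGroup (Fin n) F) (hg : g ∈ Cfsg.GU n F q) (σ : F ≃+* F), α = psuSemi g hg σ := by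
  have hF := h.hF
  have hq := two_le_q hF
  obtain ⟨T, hT⟩ := exists_ch (p := p) hXE
  obtain ⟨T', hT'⟩ := exists_ch (p := p) hXE.inv
  obtain ⟨σ, hσ⟩ := exists_sigma hs hXE hXF hT hT'
  obtain ⟨μ, hμ0, hμq, hμ⟩ := exists_mu hT hT' hσ
  obtain ⟨g, hg, ρ, hρ0, h1, h2, h3⟩ := exists_semi_of_chart hμ0 hμq (fun w hw => hT.mem hw) (fun u hu v hv => hT.add hu hv) hσ hμ
  have hρq : ρ ^ q ≠ 0 := pow_ne_zero _ hρ0
  have hXE' : XE (psuSemi g hg σ) K := XE_semi hg (inv_ne_zero hρq) h1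
  have hXF' : XF (psuSemi g hg σ) K := XF_semi hg hρ0 h2
  refine ⟨g, hg, σ, ?_⟩
  have hone : (psuSemi g hg σ)⁻¹ * α = 1 := by
    apply rigid hs (K := K) (hXE'.inv.mul hXE) (hXF'.inv.mul hXF)
    have hc0 : (σ.symm (ρ ^ q)⁻¹)⁻¹ ≠ 0 := inv_ne_zero ((map_ne_zero σ.symm).2 (inv_ne_zero hρq))
    have hd0 : (σ.symm ρ)⁻¹ ≠ 0 := inv_ne_zero ((map_ne_zero σ.symm).2 hρ0)
    have hT₁ : IsCh (psuSemi (gInv g σ) (gInv_mem hg σ) σ.symm) K (fun w => ((σ.symm (ρ ^ q)⁻¹)⁻¹) ^ q • sG (gInv g σ) σ.symm w) :=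
      isCh_semi (K := K) (gInv_mem hg σ) hc0 hd0 (sG_inv_eig (inv_ne_zero hρq) h1) (sG_inv_eig hρ0 h2)
    rw [← psuSemi_inv hg] at hT₁
    have hT₂ : IsCh ((psuSemi g hg σ)⁻¹ * α) K (fun w => ((σ.symm (ρ ^ q)⁻¹)⁻¹) ^ q • sG (gInv g σ) σ.symm (T w)) := IsCh.comp hT hT₁
    have hcongr : ∀ w ∈ K.W, (fun w => ((σ.symm (ρ ^ q)⁻¹)⁻¹) ^ q • sG (gInv g σ) σ.symm (T w)) w = id w := by
      intro w hw
      have e1 : T w = ρ⁻¹ • sG g σ w := by
        rw [h3 w hw, smul_smul, inv_mul_cancel₀ hρ0, one_smul]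
      simp only [id]
      rw [e1, sG_smul, sG_gInv, smul_smul]
      have e2 : ((σ.symm (ρ ^ q)⁻¹)⁻¹) ^ q * σ.symm ρ⁻¹ = 1 := by
        rw [map_inv₀, map_pow, inv_inv, map_inv₀, pow_q_pow_q hF, mul_inv_cancel₀ ((map_ne_zero σ.symm).2 hρ0)]
      rw [e2, one_smul]
    exact @IsCh.congr F _ _ q n h K _ _ _ hT₂ hcongr
  exact (inv_mul_eq_one.1 hone).symm

/-- Conjugating a root group. -/
theorem Xr_conj_iff (t : Cfsg.SU n F q) {z v : Fin n → F} {hzz : hh z z = 0} {hvv : hh v v = 0} (e : suM t *ᵥ z = v) (y : Cfsg.PSU n F q) :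
    pr t * y * (pr t)⁻¹ ∈ Xr hvv ↔ y ∈ Xr hzz := by
  constructor
  · intro hy
    have h1 : hh (suM t⁻¹ *ᵥ v) (suM t⁻¹ *ᵥ v) = 0 := (su_form t⁻¹ v v).trans hvv
    have h2 := Xr_conj t⁻¹ hy h1
    have h3 : pr t⁻¹ * (pr t * y * (pr t)⁻¹) * (pr t⁻¹)⁻¹ = y := by
      rw [map_inv]
      group
    rw [h3] at h2
    refine Xr_scale (c := 1) one_ne_zero ?_ h2
    rw [one_smul, ← e]
    exact su_inv_mulVec' t z
  · intro hy
    have h1 : hh (suM t *ᵥ z) (suM t *ᵥ z) = 0 := (su_form t z z).trans hzz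
    have h2 := Xr_conj t hy h1
    refine Xr_scale (c := 1) one_ne_zero ?_ h2
    rw [one_smul, e]

include p in
/-- Every automorphism of `PSU` is semilinear. -/
theorem semi_of_aut (hs : ¬ (n = 3 ∧ q = 2)) (α : MulAut (Cfsg.PSU n F q)) :
    ∃ (g : Matrix.GeneralLinearGroup (Fin n) F) (hg : g ∈ Cfsg.GU n F q) (σ : F ≃+* F), α = psuSemi g hg σ := by
  have hF := h.hF
  have hq := two_le_q hF
  obtain ⟨e, he, hee⟩ := exists_iso (n := n) (q := q) (F := F)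
  obtain ⟨f, hff, hef⟩ := exists_partner he hee
  let K : HP n q F := ⟨e, f, hee, hff, hef⟩
  have hf : f ≠ 0 := K.hf
  obtain ⟨z₁, hz₁, hz₁z₁, h1⟩ := image_X (p := p) α he hee
  obtain ⟨z₂, hz₂, hz₂z₂, h2⟩ := image_X (p := p) α hf hff
  obtain ⟨s₀, hs₀, hs₀'⟩ := exists_s0 (n := n) (q := q) (F := F)
  have hne : hh z₁ z₂ ≠ 0 := by
    intro h0
    have He : UV q e (0 : Fin n → F) s₀ := uv_root hF hee hs₀'
    have Hf : UV q f (0 : Fin n → F) s₀ := uv_root hF hff hs₀'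
    apply Xr_not_comm hee hff hef He Hf hs₀ hs₀
    apply α.injective
    rw [map_mul, map_mul]
    obtain ⟨a, Ha, ea⟩ := mem_Xr.1 ((h1 (pr (ue hF He))).2 (mem_Xr.2 ⟨_, He, rfl⟩))
    obtain ⟨b, Hb, eb⟩ := mem_Xr.1 ((h2 (pr (ue hF Hf))).2 (mem_Xr.2 ⟨_, Hf, rfl⟩))
    rw [ea, eb, ← map_mul, ← map_mul, Xr_comm_of_orth h0 Ha Hb]
  set a := hh z₁ z₂ with ha
  set b := (a⁻¹) ^ q with hb
  have hb0 : b ≠ 0 := pow_ne_zero _ (inv_ne_zero hne)
  set z₃ := b • z₂ with hz₃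
  have hz₃z₃ : hh z₃ z₃ = 0 := by
    rw [hz₃, herm_smul_left, herm_smul_right, hz₂z₂]
    ring
  have hz₁z₃ : hh z₁ z₃ = 1 := by
    rw [hz₃, herm_smul_right, hb, pow_q_pow_q hF, ← ha, inv_mul_cancel₀ hne]
  have hfr : 3 ≤ finrank F (⊤ : Submodule F (Fin n → F)) := by
    rw [finrank_top_fin hF]
    exact h.hn
  obtain ⟨t, -, ht1, ht2⟩ := hp_trans hF (nds_top hF) hfr (Submodule.mem_top (x := z₁)) (Submodule.mem_top (x := z₃)) (Submodule.mem_top (x := e)) (Submodule.mem_top (x := f))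
    hz₁z₁ hz₃z₃ hee hff hz₁z₃ hef
  have hXE : XE (MulAut.conj (pr t) * α) K := by
    intro y
    show pr t * α y * (pr t)⁻¹ ∈ _ ↔ _
    rw [Xr_conj_iff t (hzz := hz₁z₁) ht1]
    exact h1 y
  have hXF : XF (MulAut.conj (pr t) * α) K := by
    intro y
    show pr t * α y * (pr t)⁻¹ ∈ _ ↔ _
    rw [Xr_conj_iff t (hzz := hz₃z₃) ht2, ← h2 y]
    constructor
    · intro hy
      exact Xr_scale hb0 hz₃ hy
    · intro hy
      exact Xr_scale (c := b⁻¹) (inv_ne_zero hb0) (by rw [hz₃, smul_smul, inv_mul_cancel₀ hb0, one_smul]) hy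
  obtain ⟨g, hg, σ, e1⟩ := semi_of_normal (p := p) hs hXE hXF
  have e2 : α = psuSemi (suToGL n F q t⁻¹) (su_gu t⁻¹) (RingEquiv.refl F) * psuSemi g hg σ := by
    rw [← e1, ← conj_eq_psuSemi, map_inv, map_inv, ← mul_assoc]
    simp
  rw [psuSemi_mul] at e2
  exact ⟨_, _, _, e2⟩

end pgroup

end main

end Cfsg.Agent.Lib.AutPSU
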