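import Mathlib
import Cfsg.Agent.Lib.AutPSU.Main
import Cfsg.Agent.Lib.Classical.GUCenter

/-! The order of the automorphism group of `PSU`. -/

set_option autoImplicit false
set_option linter.unusedSimpArgs false
set_option linter.unusedVariables false
set_option linter.unusedSectionVars false

namespace Cfsg.Agent.Lib.AutPSU

open Matrix Module MulAction Cfsg.Agent.Lib.Classical
open scoped LinearAlgebra.Projectivization MatrixGroups

variable {F : Type*} [Field F] [Fintype F] {q n : ℕ}

local notation "hh" => Cfsg.hermForm n F q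
local notation "VV" => (Fin n → F)
local notation "MM" => Matrix (Fin n) (Fin n) F

/-- Counting through fibres. -/
theorem card_mul_of_fibers {X Y Z : Type*} [Finite X] [Finite Y] (Φ : X → Y) (hfib : ∀ y, Nonempty ({x // Φ x = y} ≃ Z)) :
    Nat.card X = Nat.card Y * Nat.card Z := by
  classical
  haveI := Fintype.ofFinite Y
  rw [Nat.card_congr (Equiv.sigmaFiberEquiv Φ).symm, Nat.card_sigma]
  have h1 : ∀ y : Y, Nat.card {x // Φ x = y} = Nat.card Z := fun y => Nat.card_congr (hfib y).some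
  simp only [h1, Finset.sum_const, Finset.card_univ, smul_eq_mul, Nat.card_eq_fintype_card]

/-- The scalars of norm one. -/
noncomputable def muN (F : Type*) [Field F] [Fintype F] (q : ℕ) : Subgroup Fˣ := (powMonoidHom (q + 1) : Fˣ →* Fˣ).ker

theorem muN_val (c : muN F q) : ((c.1 : Fˣ) : F) ^ (q + 1) = 1 := by
  have h1 := congrArg Units.val ((MonoidHom.mem_ker).1 c.2)
  simpa using h1

theorem card_muN (hF : Fintype.card F = q ^ 2) : Nat.card (muN F q) = q + 1 := by
  classical
  have hq := two_le_q hF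
  have hcardU : Nat.card Fˣ = (q - 1) * (q + 1) := by
    rw [Nat.card_eq_fintype_card, Fintype.card_units, hF]
    zify [show 1 ≤ q by omega, show 1 ≤ q ^ 2 from Nat.one_le_pow _ _ (by omega)]
    ring
  change Nat.card (powMonoidHom (q + 1) : Fˣ →* Fˣ).ker = _
  rw [IsCyclic.card_powMonoidHom_ker, hcardU]
  exact Nat.gcd_eq_right (dvd_mul_left _ _)

/-- Scalars as elements of the general linear group. -/
noncomputable def sclGL (c : Fˣ) : Matrix.GeneralLinearGroup (Fin n) F := Units.map (Matrix.scalar (Fin n) : F →+* Matrix (Fin n) (Fin n) F).toMonoidHom c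

theorem sclGL_coe (c : Fˣ) : ((sclGL c : Matrix.GeneralLinearGroup (Fin n) F) : Matrix (Fin n) (Fin n) F) = (c : F) • (1 : Matrix (Fin n) (Fin n) F) := by
  ext i j
  simp [sclGL, Matrix.scalar_apply, Matrix.diagonal_apply, Matrix.one_apply]

/-- A scalar multiple of an element of `GU`. -/
noncomputable def guScal (c : muN F q) (t : Cfsg.GU n F q) : Cfsg.GU n F q :=
  ⟨sclGL c.1 * t.1, by
    intro u v
    have e : ∀ x : Fin n → F, (Units.coeHom (Matrix (Fin n) (Fin n) F) (sclGL c.1 * t.1)) *ᵥ x = ((c.1 : Fˣ) : F) • ((t.1 : Matrix (Fin n) (Fin n) F) *ᵥ x) := by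
      intro x
      show ((sclGL c.1 * t.1 : Matrix.GeneralLinearGroup (Fin n) F) : Matrix (Fin n) (Fin n) F) *ᵥ x = _
      rw [Units.val_mul, sclGL_coe, Matrix.smul_mul, Matrix.one_mul, Matrix.smul_mulVec]
    rw [e, e, herm_smul_left, herm_smul_right, ← mul_assoc]
    have h1 := t.2 u v
    have h2 : ((c.1 : Fˣ) : F) * ((c.1 : Fˣ) : F) ^ q = 1 := by
      have := muN_val c
      rwa [pow_succ, mul_comm] at this
    rw [h2, one_mul]
    exact h1⟩

theorem guScal_coe (c : muN F q) (t : Cfsg.GU n F q) :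
    (((guScal c t).1 : Matrix.GeneralLinearGroup (Fin n) F) : Matrix (Fin n) (Fin n) F) = ((c.1 : Fˣ) : F) • ((t.1 : Matrix.GeneralLinearGroup (Fin n) F) : Matrix (Fin n) (Fin n) F) := by
  show ((sclGL c.1 * t.1 : Matrix.GeneralLinearGroup (Fin n) F) : Matrix (Fin n) (Fin n) F) = _
  rw [Units.val_mul, sclGL_coe, Matrix.smul_mul, Matrix.one_mul]

section main

variable [h : Good n q F]

instance finite_aut : Finite (MulAut (Cfsg.PSU n F q)) :=
  Finite.of_injective (fun s : MulAut (Cfsg.PSU n F q) => (s : Cfsg.PSU n F q → Cfsg.PSU n F q)) DFunLike.coe_injective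

section pgroup

variable {p : ℕ} [Fact p.Prime] [CharP F p]

include p in
/-- Counting semilinear pairs. -/
theorem card_pairs (hs : ¬ (n = 3 ∧ q = 2)) :
    Nat.card (Cfsg.GU n F q) * Nat.card (F ≃+* F) = Nat.card (MulAut (Cfsg.PSU n F q)) * (q + 1) := by
  classical
  have hF := h.hF
  have hq := two_le_q hF
  haveI hfin : Finite (F ≃+* F) := Finite.of_injective (fun s : F ≃+* F => (s : F → F)) DFunLike.coe_injective
  let Φ : (Cfsg.GU n F q) × (F ≃+* F) → MulAut (Cfsg.PSU n F q) := fun x => psuSemi x.1.1 x.1.2 x.2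
  have hfib : ∀ y, Nonempty ({x // Φ x = y} ≃ muN F q) := by
    intro y
    obtain ⟨g₀, hg₀, σ₀, rfl⟩ := semi_of_aut (p := p) hs y
    obtain ⟨x₀, hx₀⟩ := exists_one_vec (n := n) (q := q) (F := F)
    have hΨ : ∀ c : muN F q, Φ (guScal c ⟨g₀, hg₀⟩, σ₀) = psuSemi g₀ hg₀ σ₀ := by
      intro c
      exact psuSemi_smul_eq' hg₀ (guScal c ⟨g₀, hg₀⟩).2 c.1.ne_zero (guScal_coe c ⟨g₀, hg₀⟩)
    let Ψ : muN F q → {x // Φ x = psuSemi g₀ hg₀ σ₀} := fun c => ⟨(guScal c ⟨g₀, hg₀⟩, σ₀), hΨ c⟩
    have hbij : Function.Bijective Ψ := by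
      constructor
      · intro c c' e
        have e1 : guScal c ⟨g₀, hg₀⟩ = guScal c' ⟨g₀, hg₀⟩ := congrArg (fun z => z.1.1) e
        have e2 : (((guScal c ⟨g₀, hg₀⟩).1 : Matrix.GeneralLinearGroup (Fin n) F) : Matrix (Fin n) (Fin n) F) = (((guScal c' ⟨g₀, hg₀⟩).1 : Matrix.GeneralLinearGroup (Fin n) F) : Matrix (Fin n) (Fin n) F) := by
          rw [e1]
        rw [guScal_coe, guScal_coe] at e2
        have e3 := congrArg (fun M => M *ᵥ x₀) e2
        simp only [Matrix.smul_mulVec] at e3
        have hne : (g₀ : Matrix (Fin n) (Fin n) F) *ᵥ x₀ ≠ 0 := by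
          intro h0
          have h1 := gu_form hg₀ x₀ x₀
          rw [h0, herm_zero_left, hx₀] at h1
          exact zero_ne_one h1
        have e4 : (((c.1 : Fˣ) : F) - ((c'.1 : Fˣ) : F)) • ((g₀ : Matrix (Fin n) (Fin n) F) *ᵥ x₀) = 0 := by
          rw [sub_smul, sub_eq_zero]
          exact e3
        have e5 := sub_eq_zero.1 ((smul_eq_zero.1 e4).resolve_right hne)
        exact Subtype.ext (Units.ext e5)
      · rintro ⟨⟨t, σ⟩, hx⟩
        obtain ⟨h2, c, hc, h3⟩ := psuSemi_inj' hg₀ t.2 hx.symm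
        have h4 : c ^ (q + 1) = 1 := by
          have h5 := t.2 x₀ x₀
          have e1 : (Units.coeHom (Matrix (Fin n) (Fin n) F) t.1) *ᵥ x₀ = c • ((g₀ : Matrix (Fin n) (Fin n) F) *ᵥ x₀) := by
            show (t.1 : Matrix (Fin n) (Fin n) F) *ᵥ x₀ = _
            rw [h3, Matrix.smul_mulVec]
          rw [e1, herm_smul_left, herm_smul_right, gu_form hg₀, hx₀] at h5
          rw [pow_succ, mul_comm]
          linear_combination h5
        have hmem : Units.mk0 c hc ∈ muN F q := by
          rw [muN, MonoidHom.mem_ker]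
          apply Units.ext
          simpa using h4
        refine ⟨⟨Units.mk0 c hc, hmem⟩, ?_⟩
        apply Subtype.ext
        apply Prod.ext
        · apply Subtype.ext
          apply Units.ext
          show (((guScal _ _).1 : Matrix.GeneralLinearGroup (Fin n) F) : Matrix (Fin n) (Fin n) F) = _
          rw [guScal_coe, h3]
          rfl
        · exact h2.symm
    exact ⟨(Equiv.ofBijective Ψ hbij).symm⟩
  have h1 := card_mul_of_fibers Φ hfib
  rw [Nat.card_prod, card_muN hF] at h1
  exact h1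

include p in
/-- The order of the automorphism group. -/
theorem card_aut (hs : ¬ (n = 3 ∧ q = 2)) :
    Nat.card (MulAut (Cfsg.PSU n F q)) = Nat.gcd n (q + 1) * Nat.card (F ≃+* F) * Nat.card (Cfsg.PSU n F q) := by
  have hF := h.hF
  have hn := h.hn
  have h1 := card_pairs (p := p) (n := n) (q := q) (F := F) hs
  rw [← card_su_mul hF (by omega)] at h1
  have h2 : Nat.card (Cfsg.SU n F q) * Nat.card (F ≃+* F) = Nat.card (MulAut (Cfsg.PSU n F q)) := by
    apply Nat.eq_of_mul_eq_mul_left (show 0 < q + 1 by omega)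
    rw [← mul_assoc, h1, mul_comm]
  rw [← h2]
  have h3 := Subgroup.card_eq_card_quotient_mul_card_subgroup (Subgroup.center (Cfsg.SU n F q))
  rw [card_center_su hF hn] at h3
  rw [h3]
  ring

end pgroup

end main

end Cfsg.Agent.Lib.AutPSU
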