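import Mathlib
import Cfsg.Agent.Lib.AutPSU.Count

/-! The outer automorphism group of `PSU`. -/

set_option autoImplicit false
set_option linter.unusedSimpArgs false
set_option linter.unusedVariables false
set_option linter.unusedSectionVars false

namespace Cfsg.Agent.Lib.AutPSU

open Matrix Module MulAction Cfsg.Agent.Lib.Classical
open Cfsg.Agent.Lib.AutPSL (sm sm_add sm_smul sm_symm_sm sm_sm_symm glMap glMap_coe map_mulVec_sm)
open scoped LinearAlgebra.Projectivization MatrixGroups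

variable {F : Type*} [Field F] [Fintype F] {q n : ℕ}

local notation "hh" => Cfsg.hermForm n F q
local notation "VV" => (Fin n → F)
local notation "MM" => Matrix (Fin n) (Fin n) F

theorem glMap_refl (g : Matrix.GeneralLinearGroup (Fin n) F) : glMap (RingEquiv.refl F) g = g := by
  apply Units.ext
  rw [glMap_coe]
  ext i j
  rfl

theorem psuSemi_congr {g g' : Matrix.GeneralLinearGroup (Fin n) F} {σ σ' : F ≃+* F} (hg : g ∈ Cfsg.GU n F q) (hg' : g' ∈ Cfsg.GU n F q) (e1 : g = g')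
    (e2 : σ = σ') : psuSemi g hg σ = psuSemi g' hg' σ' := by
  subst e1 e2
  rfl

/-- The action of `GU` on `PSU`. -/
noncomputable def guAut : Cfsg.GU n F q →* MulAut (Cfsg.PSU n F q) where
  toFun g := psuSemi g.1 g.2 (RingEquiv.refl F)
  map_one' := by
    ext x
    obtain ⟨A, rfl⟩ := pr_surj x
    rw [psuSemi_pr]
    show pr _ = pr A
    congr 1
    apply su_ext
    intro y
    have h1 := suSemi_apply (1 : Matrix.GeneralLinearGroup (Fin n) F) (one_mem _) (RingEquiv.refl F) A y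
    have h2 : ∀ z : Fin n → F, sG (1 : Matrix.GeneralLinearGroup (Fin n) F) (RingEquiv.refl F) z = z := by
      intro z
      show (1 : Matrix (Fin n) (Fin n) F) *ᵥ sm (RingEquiv.refl F) z = z
      rw [one_mulVec]
      rfl
    rw [h2, h2] at h1
    exact h1
  map_mul' g g' := by
    rw [psuSemi_mul]
    exact psuSemi_congr _ _ (by
      show g.1 * g'.1 = _
      rw [glMap_refl]) rfl

theorem guAut_apply (g : Cfsg.GU n F q) : guAut g = psuSemi g.1 g.2 (RingEquiv.refl F) := rfl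

theorem gu_val_mul (t t' : Cfsg.GU n F q) :
    (((t * t').1 : Matrix.GeneralLinearGroup (Fin n) F) : Matrix (Fin n) (Fin n) F) = ((t.1 : Matrix.GeneralLinearGroup (Fin n) F) : Matrix (Fin n) (Fin n) F) * ((t'.1 : Matrix.GeneralLinearGroup (Fin n) F) : Matrix (Fin n) (Fin n) F) := rfl

theorem guScal_one_coe (c : muN F q) :
    (((guScal c (1 : Cfsg.GU n F q)).1 : Matrix.GeneralLinearGroup (Fin n) F) : Matrix (Fin n) (Fin n) F) = ((c.1 : Fˣ) : F) • (1 : Matrix (Fin n) (Fin n) F) := by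
  rw [guScal_coe]
  rfl

theorem guScal_center (c : muN F q) : guScal c (1 : Cfsg.GU n F q) ∈ Subgroup.center (Cfsg.GU n F q) := by
  rw [Subgroup.mem_center_iff]
  intro t
  apply Subtype.ext
  apply Units.ext
  rw [gu_val_mul, gu_val_mul, guScal_one_coe, Matrix.mul_smul, Matrix.smul_mul, mul_one, one_mul]

section main

variable [h : Good n q F]

section pgroup

variable {p : ℕ} [Fact p.Prime] [CharP F p]

include p in
/-- The map to the Galois group. -/
theorem exists_galHom (hs : ¬ (n = 3 ∧ q = 2)) : ∃ Θ : MulAut (Cfsg.PSU n F q) →* (F ≃+* F),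
    ∀ α σ, Θ α = σ ↔ ∃ (g : Matrix.GeneralLinearGroup (Fin n) F) (hg : g ∈ Cfsg.GU n F q), α = psuSemi g hg σ := by
  apply Cfsg.Agent.Lib.AutPSL.exists_hom_of_rel
  · intro α
    obtain ⟨g, hg, σ, e⟩ := semi_of_aut (p := p) hs α
    exact ⟨σ, g, hg, e⟩
  · rintro α σ τ ⟨g, hg, rfl⟩ ⟨g', hg', he⟩
    exact (psuSemi_inj' hg hg' he).1.symm
  · rintro α β σ τ ⟨g, hg, rfl⟩ ⟨g', hg', rfl⟩
    exact ⟨_, _, psuSemi_mul hg hg' σ τ⟩

include p in
/-- The kernel of the action of `GU` on `Out`. -/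
theorem guAut_mem_inn_iff (g : Cfsg.GU n F q) : guAut g ∈ Cfsg.Inn (Cfsg.PSU n F q) ↔
    g ∈ (Matrix.GeneralLinearGroup.det : Matrix.GeneralLinearGroup (Fin n) F →* Fˣ).ker.subgroupOf (Cfsg.GU n F q) ⊔ Subgroup.center (Cfsg.GU n F q) := by
  have hF := h.hF
  have hn := h.hn
  constructor
  · rintro ⟨y, hy⟩
    obtain ⟨A, rfl⟩ := pr_surj y
    rw [conj_eq_psuSemi, guAut_apply] at hy
    obtain ⟨-, c, hc, hcA⟩ := psuSemi_inj' (su_gu A) g.2 hy
    -- `c` has norm one
    obtain ⟨x₀, hx₀⟩ := exists_one_vec (n := n) (q := q) (F := F)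
    have h4 : c ^ (q + 1) = 1 := by
      have h5 := g.2 x₀ x₀
      have e1 : (Units.coeHom (Matrix (Fin n) (Fin n) F) g.1) *ᵥ x₀ = c • (((suToGL n F q A : Matrix.GeneralLinearGroup (Fin n) F) : Matrix (Fin n) (Fin n) F) *ᵥ x₀) := by
        show (g.1 : Matrix (Fin n) (Fin n) F) *ᵥ x₀ = _
        rw [hcA, Matrix.smul_mulVec]
      rw [e1, herm_smul_left, herm_smul_right, gu_form (su_gu A), hx₀] at h5
      rw [pow_succ, mul_comm]
      linear_combination h5
    have hmem : Units.mk0 c hc ∈ muN F q := by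
      rw [muN, MonoidHom.mem_ker]
      apply Units.ext
      simpa using h4
    have hgeq : g = (⟨suToGL n F q A, su_gu A⟩ : Cfsg.GU n F q) * (guScal ⟨Units.mk0 c hc, hmem⟩ 1) := by
      apply Subtype.ext
      apply Units.ext
      rw [gu_val_mul, guScal_one_coe, hcA, Matrix.mul_smul, mul_one]
      rfl
    rw [hgeq]
    apply Subgroup.mul_mem_sup
    · rw [Subgroup.mem_subgroupOf, MonoidHom.mem_ker]
      apply Units.ext
      show ((suToGL n F q A : Matrix.GeneralLinearGroup (Fin n) F) : Matrix (Fin n) (Fin n) F).det = 1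
      exact A.1.2
    · exact guScal_center _
  · intro hg
    obtain ⟨y, hy, z, hz, rfl⟩ := Subgroup.mem_sup_of_normal_right.1 hg
    rw [map_mul]
    have h1 : guAut z = 1 := by
      obtain ⟨a, ha⟩ := gu_center_scalar hF (by omega) ⟨z, hz⟩
      have ha' : ((z.1 : Matrix.GeneralLinearGroup (Fin n) F) : Matrix (Fin n) (Fin n) F) = a • (1 : Matrix (Fin n) (Fin n) F) := by
        rw [Matrix.smul_one_eq_diagonal]
        exact ha
      have ha0 : a ≠ 0 := by
        rintro rfl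
        obtain ⟨x₀, hx₀⟩ := exists_one_vec (n := n) (q := q) (F := F)
        have h5 := gu_form z.2 x₀ x₀
        rw [ha', zero_smul, zero_mulVec, herm_zero_left, hx₀] at h5
        exact zero_ne_one h5
      have h2 := psuSemi_smul_eq' (σ := RingEquiv.refl F) (one_mem _ : (1 : Matrix.GeneralLinearGroup (Fin n) F) ∈ Cfsg.GU n F q) z.2 ha0 (by
        rw [ha']
        simp)
      rw [guAut_apply, h2, ← map_one (guAut (n := n) (q := q) (F := F))]
      rfl
    rw [h1, mul_one]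
    have hdet : ((y.1 : Matrix.GeneralLinearGroup (Fin n) F) : Matrix (Fin n) (Fin n) F).det = 1 := by
      have h2 := congrArg Units.val ((MonoidHom.mem_ker).1 (Subgroup.mem_subgroupOf.1 hy))
      exact h2
    refine ⟨pr (guSU y hdet), ?_⟩
    rw [conj_eq_psuSemi, guAut_apply]
    exact psuSemi_congr _ _ (by
      apply Units.ext
      rfl) rfl

include p in
/-- The structure of the outer automorphism group. -/
theorem out_structure {f : ℕ} (hf : 1 ≤ f) (hF' : Fintype.card F = p ^ (2 * f)) (hs : ¬ (n = 3 ∧ q = 2)) :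
    ∃ φ : Cfsg.Out (Cfsg.PSU n F q) →* Multiplicative (ZMod (2 * f)), Function.Surjective φ ∧ IsCyclic φ.ker ∧ Nat.card φ.ker = Nat.gcd n (q + 1) := by
  classical
  have hF := h.hF
  have hn := h.hn
  obtain ⟨Θ, hΘ⟩ := exists_galHom (p := p) (n := n) (q := q) (F := F) hs
  obtain ⟨e⟩ := Cfsg.Agent.Lib.AutPSL.exists_gal_equiv (F := F) (f := 2 * f) (by omega) hF'
  have hinn : ∀ x ∈ Cfsg.Inn (Cfsg.PSU n F q), Θ x = 1 := by
    rintro _ ⟨y, rfl⟩
    obtain ⟨A, rfl⟩ := pr_surj y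
    exact (hΘ _ 1).2 ⟨_, _, conj_eq_psuSemi A⟩
  let Θb : Cfsg.Out (Cfsg.PSU n F q) →* (F ≃+* F) := QuotientGroup.lift _ Θ hinn
  have hΘb : ∀ α, Θb (QuotientGroup.mk α) = Θ α := fun α => rfl
  let φ : Cfsg.Out (Cfsg.PSU n F q) →* Multiplicative (ZMod (2 * f)) := (e : (F ≃+* F) →* Multiplicative (ZMod (2 * f))).comp Θb
  have hφ : ∀ α, φ (QuotientGroup.mk α) = e (Θ α) := fun α => rfl
  refine ⟨φ, ?_, ?_⟩
  · intro y
    obtain ⟨σ, rfl⟩ := e.surjective y
    refine ⟨QuotientGroup.mk (psuSemi 1 (one_mem _) σ), ?_⟩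
    rw [hφ, (hΘ _ σ).2 ⟨_, _, rfl⟩]
  have hker : ∀ g : Cfsg.GU n F q, (QuotientGroup.mk (guAut g) : Cfsg.Out (Cfsg.PSU n F q)) ∈ φ.ker := by
    intro g
    rw [MonoidHom.mem_ker, hφ, (hΘ (guAut g) 1).2 ⟨g.1, g.2, rfl⟩, map_one]
  let θ : Cfsg.GU n F q →* φ.ker := ((QuotientGroup.mk' (Cfsg.Inn (Cfsg.PSU n F q))).comp guAut).codRestrict φ.ker hker
  have hθ : ∀ g, (θ g : Cfsg.Out (Cfsg.PSU n F q)) = QuotientGroup.mk (guAut g) := fun g => rfl
  have hθs : Function.Surjective θ := by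
    rintro ⟨x, hx⟩
    obtain ⟨α, rfl⟩ := QuotientGroup.mk_surjective x
    rw [MonoidHom.mem_ker, hφ] at hx
    have h1 : Θ α = 1 := by
      apply e.injective
      rw [hx, map_one]
    obtain ⟨g, hg, rfl⟩ := (hΘ α 1).1 h1
    exact ⟨⟨g, hg⟩, Subtype.ext rfl⟩
  obtain ⟨φ₀, hφ₀s, hφ₀k⟩ := gu_quotient hF (show 2 ≤ n by omega)
  have hkers : θ.ker = φ₀.ker := by
    ext g
    rw [hφ₀k, ← guAut_mem_inn_iff (p := p), MonoidHom.mem_ker]
    constructor
    · intro h1
      have h2 : (QuotientGroup.mk (guAut g) : Cfsg.Out (Cfsg.PSU n F q)) = 1 := by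
        rw [← hθ, h1]
        rfl
      exact (QuotientGroup.eq_one_iff _).1 h2
    · intro h1
      apply Subtype.ext
      rw [hθ]
      exact (QuotientGroup.eq_one_iff _).2 h1
  let E : φ.ker ≃* Multiplicative (ZMod (Nat.gcd n (q + 1))) :=
    (QuotientGroup.quotientKerEquivOfSurjective θ hθs).symm.trans
      ((QuotientGroup.quotientMulEquivOfEq hkers).trans (QuotientGroup.quotientKerEquivOfSurjective φ₀ hφ₀s))
  constructor
  · exact isCyclic_of_surjective E.symm E.symm.surjective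
  · rw [Nat.card_congr E.toEquiv, Nat.card_congr Multiplicative.toAdd, Nat.card_zmod]

end pgroup

end main

end Cfsg.Agent.Lib.AutPSU
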