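import Mathlib
import Cfsg.Agent.Lib.AutPSU.Out
import Cfsg.Agent.Lib.AutPSL.Cocycle2
import Cfsg.Agent.Lib.Classical.HermBasis

/-! Descent of invariant Hermitian forms along field automorphisms of odd order. -/

set_option autoImplicit false
set_option linter.unusedSimpArgs false
set_option linter.unusedVariables false
set_option linter.unusedSectionVars false

namespace Cfsg.Agent.Lib.AutPSU

open Matrix Module MulAction Cfsg.Agent.Lib.Classical Cfsg.Agent.Lib.FieldAut
open Cfsg.Agent.Lib.AutPSL (sm sm_add sm_smul sm_symm_sm sm_sm_symm glMap glMap_coe map_mulVec_sm nrm nrmF)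
open scoped LinearAlgebra.Projectivization MatrixGroups

variable {F : Type*} [Field F] [Fintype F] {q n : ℕ}

local notation "hh" => Cfsg.hermForm n F q
local notation "VV" => (Fin n → F)
local notation "MM" => Matrix (Fin n) (Fin n) F

/-- The involution `x ↦ x ^ q` as a ring automorphism. -/
noncomputable def frobE (hF : Fintype.card F = q ^ 2) : F ≃+* F :=
  { frobQ hF with
    invFun := frobQ hF
    left_inv := frobQ_frobQ hF
    right_inv := frobQ_frobQ hF }

theorem frobE_apply (hF : Fintype.card F = q ^ 2) (x : F) : frobE hF x = x ^ q := frobQ_apply hF x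

theorem herm_eq_dot (hF : Fintype.card F = q ^ 2) (u v : VV) : hh u v = u ⬝ᵥ sm (frobE hF) v := by
  simp [Cfsg.hermForm, dotProduct, sm, frobE_apply]

/-- Preservation of the form from the Gram matrix. -/
theorem form_of_gram (hF : Fintype.card F = q ^ 2) (A : MM)
    (h : ∀ i j, hh (A *ᵥ Pi.single i 1) (A *ᵥ Pi.single j 1) = if i = j then 1 else 0) (u v : VV) :
    hh (A *ᵥ u) (A *ᵥ v) = hh u v := by
  have h1 : Aᵀ * A.map (frobE hF) = 1 := by
    ext i j
    have h2 := h i j
    rw [herm_eq_dot hF, Matrix.mulVec_single_one, Matrix.mulVec_single_one] at h2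
    rw [Matrix.mul_apply, Matrix.one_apply, ← h2]
    simp [dotProduct, sm]
  rw [herm_eq_dot hF, herm_eq_dot hF, ← map_mulVec_sm, ← Matrix.vecMul_transpose, ← Matrix.dotProduct_mulVec,
    Matrix.mulVec_mulVec, h1, Matrix.one_mulVec]

variable (hF : Fintype.card F = q ^ 2)

/-- The involution on the fixed field. -/
noncomputable def tau0 (σ : F ≃+* F) : fixedField σ →+* fixedField σ :=
  ((frobQ hF).comp (fixedField σ).subtype).codRestrict (fixedField σ) (fun x => by
    rw [mem_fixedField]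
    simp only [RingHom.comp_apply, frobQ_apply, map_pow]
    congr 1
    exact mem_fixedField.1 x.2)

theorem tau0_coe (σ : F ≃+* F) (x : fixedField σ) : ((tau0 hF σ x : fixedField σ) : F) = (x : F) ^ q :=
  frobQ_apply hF _

theorem tau0_tau0 (σ : F ≃+* F) (x : fixedField σ) : tau0 hF σ (tau0 hF σ x) = x := by
  apply Subtype.ext
  rw [tau0_coe, tau0_coe, pow_q_pow_q hF]

theorem tau0_ne_id {σ : F ≃+* F} (hσ : Odd (orderOf σ)) : tau0 hF σ ≠ RingHom.id _ := by
  intro h
  have hfix : ∀ x : fixedField σ, (x : F) ^ q = x := fun x => by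
    rw [← tau0_coe hF, h]
    rfl
  have hfin : Finite (F ≃+* F) := Finite.of_injective (fun s : F ≃+* F => (s : F → F)) DFunLike.coe_injective
  let τ : F ≃ₐ[fixedField σ] F := AlgEquiv.ofRingEquiv (f := frobE hF) (fun x => by
    show frobE hF (x : F) = x
    rw [frobE_apply, hfix])
  have hτapp : ∀ x, τ x = x ^ q := fun x => frobE_apply hF x
  have hcard : Nat.card (F ≃ₐ[fixedField σ] F) = orderOf σ := by
    rw [IsGalois.card_aut_eq_finrank]
    have : Fintype (Subgroup.zpowers σ) := Fintype.ofFinite _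
    show Module.finrank (FixedPoints.subfield (Subgroup.zpowers σ) F) F = orderOf σ
    rw [FixedPoints.finrank_eq_card, ← Nat.card_eq_fintype_card, Nat.card_zpowers]
  have hτ2 : τ ^ 2 = 1 := by
    ext x
    rw [pow_two]
    show τ (τ x) = x
    rw [hτapp, hτapp, pow_q_pow_q hF]
  have hτ1 : τ ≠ 1 := by
    intro h1
    apply frobQ_ne_id hF
    ext x
    rw [frobQ_apply, ← hτapp, h1]
    rfl
  have h2 : orderOf τ = 2 := orderOf_eq_prime hτ2 hτ1
  have h3 : orderOf τ ∣ Nat.card (F ≃ₐ[fixedField σ] F) := orderOf_dvd_natCard τ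
  rw [h2, hcard] at h3
  obtain ⟨k, hk⟩ := hσ
  omega

include hF in
/-- Invariant Hermitian forms descend. -/
theorem descent_herm (σ : F ≃+* F) (hσ : Odd (orderOf σ)) (x : Matrix.GeneralLinearGroup (Fin n) F)
    (hinv : ∀ u v : VV, hh ((x : MM) *ᵥ sm σ u) ((x : MM) *ᵥ sm σ v) = σ (hh ((x : MM) *ᵥ u) ((x : MM) *ᵥ v))) :
    ∃ y : Matrix.GeneralLinearGroup (Fin n) F, glMap σ y = y ∧ x * y ∈ Cfsg.GU n F q := by
  classical
  let F₀ := fixedField σ
  let V₀ := Fin n → F₀
  let ι₀ : V₀ → VV := fun w i => (w i : F)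
  have hι₀σ : ∀ w, sm σ (ι₀ w) = ι₀ w := fun w => by
    funext i
    exact mem_fixedField.1 (w i).2
  have hι₀add : ∀ u v, ι₀ (u + v) = ι₀ u + ι₀ v := fun u v => rfl
  have hι₀smul : ∀ (c : F₀) u, ι₀ (c • u) = (c : F) • ι₀ u := fun c u => rfl
  let H : VV → VV → F := fun u v => hh ((x : MM) *ᵥ u) ((x : MM) *ᵥ v)
  have hHadd : ∀ a b c, H (a + b) c = H a c + H b c := fun a b c => by
    simp only [H, Matrix.mulVec_add, herm_add_left]
  have hHadd' : ∀ a b c, H a (b + c) = H a b + H a c := fun a b c => by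
    simp only [H, Matrix.mulVec_add, herm_add_right hF]
  have hHsmul : ∀ (c : F) a b, H (c • a) b = c * H a b := fun c a b => by
    simp only [H, Matrix.mulVec_smul, herm_smul_left]
  have hHsmul' : ∀ (c : F) a b, H a (c • b) = c ^ q * H a b := fun c a b => by
    simp only [H, Matrix.mulVec_smul, herm_smul_right]
  have hmem : ∀ u v, H (ι₀ u) (ι₀ v) ∈ F₀ := fun u v => by
    apply mem_fixedField.2
    show σ (hh _ _) = hh _ _
    rw [← hinv, hι₀σ, hι₀σ]
  let B₀ : V₀ →ₛₗ[tau0 hF σ] V₀ →ₗ[F₀] F₀ := LinearMap.mk₂'ₛₗ (tau0 hF σ) (RingHom.id F₀)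
    (fun a b => (⟨H (ι₀ b) (ι₀ a), hmem b a⟩ : F₀))
    (fun a a' b => Subtype.ext (by
      show H (ι₀ b) (ι₀ (a + a')) = H (ι₀ b) (ι₀ a) + H (ι₀ b) (ι₀ a')
      rw [hι₀add, hHadd']))
    (fun c a b => Subtype.ext (by
      show H (ι₀ b) (ι₀ (c • a)) = (tau0 hF σ c : F) * H (ι₀ b) (ι₀ a)
      rw [hι₀smul, hHsmul', tau0_coe]))
    (fun a b b' => Subtype.ext (by
      show H (ι₀ (b + b')) (ι₀ a) = H (ι₀ b) (ι₀ a) + H (ι₀ b') (ι₀ a)
      rw [hι₀add, hHadd]))
    (fun c a b => Subtype.ext (by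
      show H (ι₀ (c • b)) (ι₀ a) = (c : F) * H (ι₀ b) (ι₀ a)
      rw [hι₀smul, hHsmul]))
  have hB₀ : ∀ a b, (B₀ a b : F) = H (ι₀ b) (ι₀ a) := fun a b => rfl
  have hsingle : ∀ a : Fin n, ι₀ (Pi.single a 1) = Pi.single a 1 := by
    intro a
    funext i
    by_cases h : i = a
    · subst h
      simp [ι₀]
    · simp [ι₀, h]
  have hxinv : ∀ w : VV, (x : MM) *ᵥ (((x⁻¹ : Matrix.GeneralLinearGroup (Fin n) F) : MM) *ᵥ w) = w := by
    intro w
    rw [Matrix.mulVec_mulVec, ← Units.val_mul, mul_inv_cancel]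
    simp
  have hinj : ∀ a : V₀, ι₀ a = 0 → a = 0 := by
    intro a ha
    funext i
    exact Subtype.ext (congrFun ha i)
  have hxinj : ∀ w : VV, (x : MM) *ᵥ w = 0 → w = 0 := by
    intro w hw
    have h1 : ((x⁻¹ : Matrix.GeneralLinearGroup (Fin n) F) : MM) *ᵥ ((x : MM) *ᵥ w) = w := by
      rw [Matrix.mulVec_mulVec, ← Units.val_mul, inv_mul_cancel]
      simp
    rw [← h1, hw, Matrix.mulVec_zero]
  have hH0 : ∀ (v : VV), (∀ i, H (Pi.single i 1) v = 0) → v = 0 := by
    intro v hv
    have hall : ∀ u, H u v = 0 := by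
      intro u
      have h1 : ∀ s : Finset (Fin n), H (∑ i ∈ s, u i • Pi.single i 1) v = 0 := by
        intro s
        induction s using Finset.induction_on with
        | empty =>
          have := hHsmul 0 0 v
          simpa using this
        | insert a s ha ih =>
          rw [Finset.sum_insert ha, hHadd, hHsmul, hv, ih]
          simp
      have h2 : u = ∑ i, u i • (Pi.single i 1 : VV) := by
        funext j
        simp [Finset.sum_apply, Pi.single_apply]
      rw [h2]
      exact h1 _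
    apply hxinj
    apply herm_nondeg_right hF
    intro w
    have := hall (((x⁻¹ : Matrix.GeneralLinearGroup (Fin n) F) : MM) *ᵥ w)
    simp only [H, hxinv] at this
    rw [herm_conj hF, this, zero_pow (by have := two_le_q hF; omega)]
  have hH0' : ∀ (v : VV), (∀ i, H v (Pi.single i 1) = 0) → v = 0 := by
    intro v hv
    apply hH0
    intro i
    have h1 : H (Pi.single i 1) v = (H v (Pi.single i 1)) ^ q := herm_conj hF _ _
    rw [h1, hv, zero_pow (by have := two_le_q hF; omega)]
  have hS : B₀.IsSymm := by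
    constructor
    intro a b
    apply Subtype.ext
    show ((tau0 hF σ (B₀ a b) : fixedField σ) : F) = B₀ b a
    rw [tau0_coe, hB₀, hB₀]
    exact (herm_conj hF _ _).symm
  have hnd : B₀.Nondegenerate := by
    constructor
    · intro a ha
      apply hinj
      apply hH0
      intro i
      have := congrArg (Subtype.val) (ha (Pi.single i 1))
      rw [hB₀, hsingle] at this
      exact this
    · intro a ha
      apply hinj
      apply hH0'
      intro i
      have := congrArg (Subtype.val) (ha (Pi.single i 1))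
      rw [hB₀, hsingle] at this
      exact this
  obtain ⟨b, hb⟩ := exists_orthonormal_basis (tau0 hF σ) (tau0_ne_id hF hσ) (tau0_tau0 hF σ) n V₀ B₀ hS hnd (Module.finrank_fin_fun _)
  let y₀ : Matrix.GeneralLinearGroup (Fin n) F₀ := glOfEquiv b.equivFun.symm
  have hy₀ : ∀ a, ((y₀ : Matrix.GeneralLinearGroup _ F₀) : Matrix (Fin n) (Fin n) F₀) *ᵥ Pi.single a 1 = b a := by
    intro a
    rw [glOfEquiv_mulVec]
    simp
  let y : Matrix.GeneralLinearGroup (Fin n) F := Matrix.GeneralLinearGroup.map F₀.subtype y₀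
  have hent : ∀ i j, (y : MM) i j = ((((y₀ : Matrix.GeneralLinearGroup _ F₀) : Matrix (Fin n) (Fin n) F₀) i j : F₀) : F) := fun i j => rfl
  have hy : ∀ a, (y : MM) *ᵥ Pi.single a 1 = ι₀ (b a) := by
    intro a
    funext i
    rw [Matrix.mulVec_single_one, ← hy₀ a, Matrix.mulVec_single_one]
    rfl
  refine ⟨y, ?_, ?_⟩
  · apply Units.ext
    rw [glMap_coe]
    ext i j
    show σ _ = _
    rw [hent]
    exact mem_fixedField.1 (Subtype.property _)
  · show ∀ u v, hh (((x * y : Matrix.GeneralLinearGroup (Fin n) F) : MM) *ᵥ u) (((x * y : Matrix.GeneralLinearGroup (Fin n) F) : MM) *ᵥ v) = hh u v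
    apply form_of_gram hF
    intro i j
    rw [Units.val_mul, ← Matrix.mulVec_mulVec, ← Matrix.mulVec_mulVec, hy, hy]
    have h1 := hb j i
    have h2 := congrArg (Subtype.val) h1
    rw [hB₀] at h2
    show H _ _ = _
    rw [h2]
    by_cases hij : i = j
    · simp [hij]
    · simp [hij, Ne.symm hij]

end Cfsg.Agent.Lib.AutPSU
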