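import Mathlib
import Cfsg.Agent.Lib.AutPSU.Descent
import Cfsg.Agent.Lib.AutPSL.Coset
import Cfsg.Agent.Lib.AutPSL.Core

/-! Cosets of the inner-diagonal group of `PSU` containing field automorphisms. -/

set_option autoImplicit false
set_option linter.unusedSimpArgs false
set_option linter.unusedVariables false
set_option linter.unusedSectionVars false

namespace Cfsg.Agent.Lib.AutPSU

open Matrix Module MulAction Cfsg.Agent.Lib.Classical Cfsg.Agent.Lib.FieldAut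
open Cfsg.Agent.Lib.AutPSL (sm sm_add sm_smul sm_symm_sm sm_sm_symm glMap glMap_coe map_mulVec_sm nrm nrmF nrmF_succ nrm_succ' exists_gl_of_nrm_one exists_nrmF_eq exists_of_nrmF_one nrm_scalar_mul nrmF_inv nrmF_zero coe_scalar_mul glMap_one orderOf_conj')
open scoped LinearAlgebra.Projectivization MatrixGroups

variable {F : Type*} [Field F] [Fintype F] {q n : ℕ}

local notation "hh" => Cfsg.hermForm n F q
local notation "VV" => (Fin n → F)
local notation "MM" => Matrix (Fin n) (Fin n) F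
local notation "GG" => GL (Fin n) F

theorem one_mem_GU : (1 : GG) ∈ Cfsg.GU n F q := Subgroup.one_mem _

theorem innerDiag_eq {β : MulAut (Cfsg.PSU n F q)} (h : Cfsg.IsInnerDiagonalAutPSU β) :
    ∃ (g : GG) (hg : g ∈ Cfsg.GU n F q), β = psuSemi g hg (RingEquiv.refl F) := by
  obtain ⟨g, hg, hβ⟩ := h
  refine ⟨g, hg, ?_⟩
  ext x
  obtain ⟨s, rfl⟩ := pr_surj x
  rw [psuSemi_pr]
  exact hβ s (suSemi g hg (RingEquiv.refl F) s) (by
    show suM (suSemiFun g hg (RingEquiv.refl F) s) = _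
    rw [suSemiFun_coe]
    rfl)

theorem fieldAut_eq {σ : F ≃+* F} {β : MulAut (Cfsg.PSU n F q)} (h : Cfsg.IsFieldAutPSUOf σ β) :
    β = psuSemi 1 one_mem_GU σ := by
  ext x
  obtain ⟨s, rfl⟩ := pr_surj x
  rw [psuSemi_pr]
  exact h s (suSemi 1 one_mem_GU σ s) (by
    show suM (suSemiFun 1 one_mem_GU σ s) = _
    rw [suSemiFun_coe]
    simp)

theorem psuSemi_fieldAut (σ : F ≃+* F) : Cfsg.IsFieldAutPSUOf (q := q) (n := n) σ (psuSemi (1 : GG) one_mem_GU σ) := by
  intro s s' h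
  show pr (suSemi 1 one_mem_GU σ s) = pr s'
  congr 1
  apply Subtype.ext
  apply Subtype.ext
  show suM (suSemiFun 1 one_mem_GU σ s) = _
  rw [suSemiFun_coe, h]
  simp

theorem psuSemi_one_refl : psuSemi (1 : GG) one_mem_GU (RingEquiv.refl F) = (1 : MulAut (Cfsg.PSU n F q)) :=
  map_one (guAut (n := n) (F := F) (q := q))

theorem psuSemi_refl_mul {x y : GG} (hx : x ∈ Cfsg.GU n F q) (hy : y ∈ Cfsg.GU n F q) (σ : F ≃+* F) :
    psuSemi x hx (RingEquiv.refl F) * psuSemi y hy σ = psuSemi (x * y) (Subgroup.mul_mem _ hx hy) σ := by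
  rw [psuSemi_mul]
  apply psuSemi_congr
  · rw [glMap_refl]
  · ext a; rfl

theorem psuSemi_mul_refl {x y : GG} (hx : x ∈ Cfsg.GU n F q) (hy : y ∈ Cfsg.GU n F q) (σ : F ≃+* F) :
    psuSemi y hy σ * psuSemi x hx (RingEquiv.refl F) = psuSemi (y * glMap σ x) (gMul_mem hy hx σ) σ := by
  rw [psuSemi_mul]
  apply psuSemi_congr _ _ rfl
  ext a; rfl

theorem psuSemi_refl_inv {x : GG} (hx : x ∈ Cfsg.GU n F q) :
    (psuSemi x hx (RingEquiv.refl F))⁻¹ = psuSemi x⁻¹ (Subgroup.inv_mem _ hx) (RingEquiv.refl F) := by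
  rw [psuSemi_inv]
  apply psuSemi_congr
  · exact glMap_refl x⁻¹
  · rfl

/-- Conjugation by an inner-diagonal automorphism. -/
theorem psuSemi_conj {x y : GG} (hx : x ∈ Cfsg.GU n F q) (hy : y ∈ Cfsg.GU n F q) (σ : F ≃+* F) (h : x * y * (glMap σ x)⁻¹ ∈ Cfsg.GU n F q) :
    psuSemi x hx (RingEquiv.refl F) * psuSemi y hy σ * (psuSemi x hx (RingEquiv.refl F))⁻¹ = psuSemi (x * y * (glMap σ x)⁻¹) h σ := by
  rw [psuSemi_refl_inv, psuSemi_refl_mul, psuSemi_mul_refl]
  apply psuSemi_congr _ _ _ rfl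
  rw [map_inv]

theorem semi_conj_diag {g k : GG} (hg : g ∈ Cfsg.GU n F q) (hk : k ∈ Cfsg.GU n F q) (σ : F ≃+* F) (hm : g * glMap σ k * g⁻¹ ∈ Cfsg.GU n F q) :
    psuSemi g hg σ * psuSemi k hk (RingEquiv.refl F) * (psuSemi g hg σ)⁻¹ = psuSemi (g * glMap σ k * g⁻¹) hm (RingEquiv.refl F) := by
  rw [mul_inv_eq_iff_eq_mul, psuSemi_mul_refl, psuSemi_refl_mul]
  apply psuSemi_congr _ _ _ rfl
  rw [inv_mul_cancel_right]

theorem glMap_mem_GU {k g : GG} (hg : g ∈ Cfsg.GU n F q) (hk : k ∈ Cfsg.GU n F q) (σ : F ≃+* F) : g * glMap σ k * g⁻¹ ∈ Cfsg.GU n F q :=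
  Subgroup.mul_mem _ (gMul_mem hg hk σ) (Subgroup.inv_mem _ hg)

theorem psuSemi_innerDiag {g : GG} (hg : g ∈ Cfsg.GU n F q) : Cfsg.IsInnerDiagonalAutPSU (psuSemi g hg (RingEquiv.refl F)) := by
  refine ⟨g, hg, ?_⟩
  intro s s' h
  show pr (suSemi g hg (RingEquiv.refl F) s) = pr s'
  congr 1
  apply Subtype.ext
  apply Subtype.ext
  show suM (suSemiFun g hg (RingEquiv.refl F) s) = _
  rw [suSemiFun_coe, h]
  rfl

theorem inndiag_eq_range : Cfsg.inndiagPSU n F q = (guAut (n := n) (F := F) (q := q)).range := by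
  apply le_antisymm
  · rw [Cfsg.inndiagPSU, Cfsg.autSubgroupOf, Subgroup.closure_le]
    intro β hβ
    obtain ⟨g, hg, h⟩ := innerDiag_eq hβ
    exact ⟨⟨g, hg⟩, h.symm⟩
  · rintro _ ⟨g, rfl⟩
    exact Subgroup.subset_closure (psuSemi_innerDiag g.2)

theorem mem_inndiag {δ : MulAut (Cfsg.PSU n F q)} :
    δ ∈ Cfsg.inndiagPSU n F q ↔ ∃ (g : GG) (hg : g ∈ Cfsg.GU n F q), δ = psuSemi g hg (RingEquiv.refl F) := by
  rw [inndiag_eq_range]
  constructor
  · rintro ⟨g, rfl⟩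
    exact ⟨g.1, g.2, rfl⟩
  · rintro ⟨g, hg, rfl⟩
    exact ⟨⟨g, hg⟩, rfl⟩

theorem nrm_mem_GU {g : GG} (hg : g ∈ Cfsg.GU n F q) (σ : F ≃+* F) (k : ℕ) : nrm g σ k ∈ Cfsg.GU n F q := by
  induction k with
  | zero => exact one_mem_GU
  | succ k ih => exact gMul_mem hg ih σ

theorem psuSemi_pow {g : GG} (hg : g ∈ Cfsg.GU n F q) (σ : F ≃+* F) (k : ℕ) :
    (psuSemi g hg σ) ^ k = psuSemi (nrm g σ k) (nrm_mem_GU hg σ k) (σ ^ k) := by
  induction k with
  | zero =>
    rw [pow_zero]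
    exact psuSemi_one_refl.symm
  | succ k ih =>
    rw [pow_succ', ih, psuSemi_mul]
    apply psuSemi_congr
    · rfl
    · rw [pow_succ']
      rfl

/-- The standard field automorphisms as a hom. -/
noncomputable def stdAut : (F ≃+* F) →* MulAut (Cfsg.PSU n F q) where
  toFun σ := psuSemi 1 one_mem_GU σ
  map_one' := psuSemi_one_refl
  map_mul' σ τ := by
    rw [psuSemi_mul]
    apply psuSemi_congr
    · rw [map_one, mul_one]
    · rfl

section norm

variable (hF : Fintype.card F = q ^ 2)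

include hF in
/-- The norm is onto the norm-one scalars of the fixed field. -/
theorem exists_unit_nrmF {σ : F ≃+* F} (hodd : Odd (orderOf σ)) {c : F} (hc : σ c = c) (hcq : c ^ (q + 1) = 1) :
    ∃ l : F, l ^ (q + 1) = 1 ∧ nrmF σ l (orderOf σ) = c := by
  classical
  have hq2 := two_le_q hF
  have hr0 : 0 < orderOf σ := by
    obtain ⟨k, hk⟩ := hodd
    omega
  let τ₀ : fixedField σ ≃+* fixedField σ :=
    { tau0 hF σ with
      invFun := tau0 hF σ
      left_inv := tau0_tau0 hF σ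
      right_inv := tau0_tau0 hF σ }
  have hτ₀ : ∀ x, ((τ₀ x : fixedField σ) : F) = (x : F) ^ q := fun x => tau0_coe hF σ x
  have hτ₀2 : τ₀ ^ 2 = 1 := by
    ext x
    rw [pow_two]
    show ((τ₀ (τ₀ x) : fixedField σ) : F) = x
    rw [hτ₀, hτ₀, pow_q_pow_q hF]
  have hτ₀1 : τ₀ ≠ 1 := by
    intro h1
    apply tau0_ne_id hF hodd
    ext x
    exact congrArg (fun s : fixedField σ ≃+* fixedField σ => ((s x : fixedField σ) : F)) h1
  have hord : orderOf τ₀ = 2 := orderOf_eq_prime hτ₀2 hτ₀1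
  let c₀ : fixedField σ := ⟨c, mem_fixedField.2 hc⟩
  have hN : nrmF τ₀ c₀ 2 = 1 := by
    apply Subtype.ext
    rw [nrmF_succ, nrmF_succ]
    simp [nrmF, hτ₀, c₀]
    rw [← hcq, pow_succ]
    ring
  obtain ⟨b₀, hb₀, hb⟩ := exists_of_nrmF_one τ₀ (by norm_num) hord hN
  have hb' : c * (b₀ : F) ^ q = b₀ := by
    have := congrArg Subtype.val hb
    rw [Subfield.coe_mul, hτ₀] at this
    exact this
  have hb0 : (b₀ : F) ≠ 0 := fun h => hb₀ (Subtype.ext h)
  obtain ⟨a, ha⟩ := exists_nrmF_eq σ hr0 rfl (mem_fixedField.1 b₀.2)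
  have ha0 : a ≠ 0 := by
    rintro rfl
    rw [nrmF_zero σ hr0] at ha
    exact hb0 ha.symm
  have haq : a ^ q ≠ 0 := pow_ne_zero _ ha0
  have hNq : ∀ d : F, nrmF σ (d ^ q) (orderOf σ) = (nrmF σ d (orderOf σ)) ^ q := by
    intro d
    simp [nrmF, Finset.prod_pow]
  refine ⟨a * (a ^ q)⁻¹, ?_, ?_⟩
  · rw [pow_succ, mul_pow, inv_pow, pow_q_pow_q hF]
    field_simp
  · have h1 : nrmF σ (a * (a ^ q)⁻¹) (orderOf σ) = nrmF σ a (orderOf σ) * nrmF σ ((a ^ q)⁻¹) (orderOf σ) := by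
      rw [nrmF, nrmF, nrmF, ← Finset.prod_mul_distrib]
      apply Finset.prod_congr rfl
      intro i _
      rw [map_mul]
    rw [h1, nrmF_inv, hNq, ha]
    have : (b₀ : F) ^ q ≠ 0 := pow_ne_zero _ hb0
    field_simp
    linear_combination -hb'

end norm

section main

variable [h : Good n q F]

theorem orderOf_std (σ : F ≃+* F) : orderOf (psuSemi (1 : GG) one_mem_GU σ : MulAut (Cfsg.PSU n F q)) = orderOf σ := by
  have hinj : Function.Injective (stdAut (n := n) (F := F) (q := q)) := by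
    intro σ τ e
    exact (psuSemi_inj' _ _ e).1.symm
  exact orderOf_injective _ hinj σ

/-- A semilinear automorphism with the right order and field automorphism is conjugate to the standard field automorphism. -/
theorem core_field {g : GG} (hg : g ∈ Cfsg.GU n F q) (σ : F ≃+* F) (hodd : Odd (orderOf σ))
    (hy : (psuSemi g hg σ) ^ (orderOf σ) = 1) :
    ∃ (k : GG) (hk : k ∈ Cfsg.GU n F q), psuSemi g hg σ =
      psuSemi k hk (RingEquiv.refl F) * psuSemi 1 one_mem_GU σ * (psuSemi k hk (RingEquiv.refl F))⁻¹ := by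
  have hF := h.hF
  have hq2 := two_le_q hF
  haveI : Nonempty (Fin n) := ⟨⟨0, by have := h.hn; omega⟩⟩
  set r := orderOf σ with hr
  have hr0 : 0 < r := by
    obtain ⟨k, hk⟩ := hodd
    omega
  have hσr : σ ^ r = 1 := by rw [hr]; exact pow_orderOf_eq_one σ
  rw [psuSemi_pow] at hy
  have hy' : psuSemi (nrm g σ r) (nrm_mem_GU hg σ r) (RingEquiv.refl F) = 1 := by
    rw [← hy]
    exact psuSemi_congr _ _ rfl hσr.symm
  obtain ⟨-, c, hc0, hc⟩ := eq_one_imp _ hy'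
  have h1 : g * glMap σ (nrm g σ r) = nrm g σ r * glMap (σ ^ r) g := by rw [← nrm, nrm_succ']
  have hσc : σ c = c := by
    have h2 := congrArg (fun M : GG => (M : MM)) h1
    simp only [Units.val_mul, glMap_coe, hc, hσr] at h2
    have h3 : ((c • (1 : MM)).map σ) = σ c • (1 : MM) := by
      ext i j
      simp [Matrix.one_apply]
      split_ifs <;> simp
    rw [h3, Matrix.mul_smul, mul_one, Matrix.smul_mul, one_mul] at h2
    have h4 : (g : MM).map (1 : F ≃+* F) = g := by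
      ext i j; rfl
    rw [h4] at h2
    by_contra hne₂
    have h5 : (σ c - c) • (g : MM) = 0 := by
      rw [sub_smul, h2, sub_self]
    rcases smul_eq_zero.1 h5 with h6 | h6
    · exact hne₂ (sub_eq_zero.1 h6)
    · have h7 : (g : MM).det = 0 := by
        rw [h6]
        exact Matrix.det_zero
      exact ((Matrix.isUnit_iff_isUnit_det _).1 g.isUnit).ne_zero h7
  have hcq : c ^ (q + 1) = 1 := by
    obtain ⟨x₀, hx₀⟩ := exists_one_vec (n := n) (q := q) (F := F)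
    have h5 := gu_form (nrm_mem_GU hg σ r) x₀ x₀
    rw [hc, Matrix.smul_mulVec, one_mulVec, herm_smul_left, herm_smul_right, hx₀] at h5
    rw [pow_succ, mul_comm]
    linear_combination h5
  obtain ⟨l, hl, hlN⟩ := exists_unit_nrmF hF hodd (c := c⁻¹) (by rw [map_inv₀, hσc]) (by rw [inv_pow, hcq, inv_one])
  have hl0 : l ≠ 0 := by
    rintro rfl
    rw [zero_pow (by omega)] at hl
    exact zero_ne_one hl
  set u : Fˣ := Units.mk0 l hl0 with hu
  set g' : GG := Matrix.GeneralLinearGroup.scalar _ u * g with hg'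
  have hg'coe : (g' : MM) = l • (g : MM) := coe_scalar_mul u g
  have hg'mem : g' ∈ Cfsg.GU n F q := by
    show ∀ a b, hh ((g' : MM) *ᵥ a) ((g' : MM) *ᵥ b) = hh a b
    intro a b
    rw [hg'coe, Matrix.smul_mulVec, Matrix.smul_mulVec, herm_smul_left, herm_smul_right, gu_form hg, ← mul_assoc]
    have : l * l ^ q = 1 := by
      rw [← hl, pow_succ]
      ring
    rw [this, one_mul]
  have hn : nrm g' σ r = 1 := by
    apply Units.ext
    rw [hg', nrm_scalar_mul, hc, Units.val_mk0, hlN]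
    rw [smul_smul, inv_mul_cancel₀ hc0, one_smul]
    rfl
  obtain ⟨x, hx⟩ := exists_gl_of_nrm_one g' σ hr0 rfl hn
  have hxg : ∀ w : VV, (x : MM) *ᵥ sm σ w = (g' : MM) *ᵥ sm σ ((x : MM) *ᵥ w) := by
    intro w
    have e1 : x = g' * glMap σ x := by
      rw [hx, inv_mul_cancel_right]
    have e2 : (x : MM) = (g' : MM) * (glMap σ x : GG).1 := by
      conv_lhs => rw [e1]
      rfl
    conv_lhs => rw [e2]
    rw [← Matrix.mulVec_mulVec, glMap_coe, map_mulVec_sm]
  obtain ⟨y, hy1, hy2⟩ := descent_herm hF σ hodd x (by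
    intro u v
    rw [hxg, hxg, gu_form hg'mem, herm_sm])
  refine ⟨x * y, hy2, ?_⟩
  have hg'eq : g' = x * y * 1 * (glMap σ (x * y))⁻¹ := by
    rw [mul_one, map_mul, hy1, _root_.mul_inv_rev, mul_assoc, mul_inv_cancel_left]
    exact hx
  have hmem2 : x * y * 1 * (glMap σ (x * y))⁻¹ ∈ Cfsg.GU n F q := by
    rw [← hg'eq]
    exact hg'mem
  rw [psuSemi_conj hy2 one_mem_GU σ hmem2]
  rw [← psuSemi_smul_eq' hg hg'mem hl0 hg'coe]
  exact psuSemi_congr _ _ hg'eq rfl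

section pgroup

variable {p : ℕ} [Fact p.Prime] [CharP F p]

include p in
/-- The inner-diagonal group is normal. -/
theorem inndiag_normal (hs : ¬ (n = 3 ∧ q = 2)) : (Cfsg.inndiagPSU n F q).Normal := by
  constructor
  intro δ hδ α
  obtain ⟨k, hk, rfl⟩ := mem_inndiag.1 hδ
  obtain ⟨g, hg, σ, rfl⟩ := semi_of_aut (p := p) hs α
  rw [semi_conj_diag hg hk σ (glMap_mem_GU hg hk σ)]
  exact mem_inndiag.2 ⟨_, _, rfl⟩

include p in
/-- `S2711`: the forward direction. -/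
theorem coset_conj (hs : ¬ (n = 3 ∧ q = 2)) (x δ : MulAut (Cfsg.PSU n F q))
    (hx : Cfsg.IsFieldAutClassPSU x) {r : ℕ} (hxr : orderOf x = r)
    (hδ : δ ∈ Cfsg.inndiagPSU n F q) (hy : orderOf (δ * x) = r) :
    Cfsg.IsConjUnder (Cfsg.inndiagPSU n F q) x (δ * x) := by
  have hN := inndiag_normal (p := p) (F := F) (n := n) (q := q) hs
  obtain ⟨α, φ, σ, hσ, hodd, hφ, hstd⟩ := hx
  have hx₀ := fieldAut_eq hφ
  have hordσ : orderOf σ = r := by
    rw [← orderOf_std (n := n) (q := q) σ, ← hx₀, ← hstd, orderOf_conj', hxr]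
  obtain ⟨g, hg, hge⟩ := mem_inndiag.1 (hN.conj_mem δ hδ α)
  have h1 : α * (δ * x) * α⁻¹ = psuSemi g hg σ := by
    have h2 : α * (δ * x) * α⁻¹ = (α * δ * α⁻¹) * (α * x * α⁻¹) := by group
    rw [h2, hge, hstd, hx₀, psuSemi_refl_mul]
    exact psuSemi_congr _ _ (mul_one g) rfl
  have h3 : (psuSemi g hg σ) ^ (orderOf σ) = 1 := by
    rw [← h1, hordσ, ← hy, ← orderOf_conj' α, pow_orderOf_eq_one]
  obtain ⟨k, hk, hke⟩ := core_field hg σ hodd h3
  refine ⟨α⁻¹ * psuSemi k hk (RingEquiv.refl F) * α, ?_, ?_⟩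
  · have := hN.conj_mem _ (mem_inndiag.2 ⟨k, hk, rfl⟩) α⁻¹
    simpa using this
  · have h4 : δ * x = α⁻¹ * (α * (δ * x) * α⁻¹) * α := by group
    have h5 : x = α⁻¹ * (α * x * α⁻¹) * α := by group
    rw [h4, h1, hke, ← hx₀, ← hstd]
    group

end pgroup

end main

end Cfsg.Agent.Lib.AutPSU
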