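import Mathlib
import Cfsg.Agent.Lib.AutPSU.Coset
import Cfsg.Agent.Lib.AutPSp.FieldMain

/-! The centraliser of a field automorphism of `PSU`, and the splitting of its class. -/

set_option autoImplicit false
set_option linter.unusedSimpArgs false
set_option linter.unusedVariables false
set_option linter.unusedSectionVars false

namespace Cfsg.Agent.Lib.AutPSU

open Matrix Module MulAction Cfsg.Agent.Lib.Classical Cfsg.Agent.Lib.FieldAut
open Cfsg.Agent.Lib.AutPSL (sm sm_add sm_smul sm_symm_sm sm_sm_symm glMap glMap_coe map_mulVec_sm nrm nrmF nrmF_succ nrm_succ' exists_gl_of_nrm_one exists_nrmF_eq exists_of_nrmF_one nrm_scalar_mul nrmF_inv nrmF_zero coe_scalar_mul glMap_one orderOf_conj' dg dg_coe det_dg index_pow_sup unitsFixed mem_unitsFixed split_conj centConj card_gal)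
open Cfsg.Agent.Lib.AutPSp (split_count_abs map_pow_smul_gen exists_GL_fixed_gen)
open scoped LinearAlgebra.Projectivization MatrixGroups

variable {F : Type*} [Field F] [Fintype F] {q n : ℕ}

local notation "hh" => Cfsg.hermForm n F q
local notation "VV" => (Fin n → F)
local notation "MM" => Matrix (Fin n) (Fin n) F
local notation "GG" => GL (Fin n) F

/-- Hilbert 90 for the norm-one scalars. -/
theorem exists_unit_h90 (hF : Fintype.card F = q ^ 2) {σ : F ≃+* F} (hodd : Odd (orderOf σ)) {c : F} (hcq : c ^ (q + 1) = 1)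
    (hN : nrmF σ c (orderOf σ) = 1) : ∃ b : F, b ^ (q + 1) = 1 ∧ c * σ b = b := by
  have hq2 := two_le_q hF
  have hr0 : 0 < orderOf σ := hodd.pos
  obtain ⟨b₁, hb₁0, hb₁⟩ := exists_of_nrmF_one σ hr0 rfl hN
  have h1 : (σ b₁) ^ (q + 1) = b₁ ^ (q + 1) := by
    nth_rewrite 2 [← hb₁]
    rw [mul_pow, hcq, one_mul]
  have ht0 : b₁ ^ (q + 1) ≠ 0 := pow_ne_zero _ hb₁0
  let t : F := (b₁ ^ (q + 1))⁻¹
  have htσ : σ t = t := by
    simp only [t, map_inv₀, map_pow, h1]
  let t₀ : fixedField σ := ⟨t, mem_fixedField.2 htσ⟩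
  have ht₀0 : t₀ ≠ 0 := by
    intro h0
    have := congrArg Subtype.val h0
    exact inv_ne_zero ht0 this
  have htτ : tau0 hF σ t₀ = t₀ := by
    apply Subtype.ext
    rw [tau0_coe]
    show t ^ q = t
    simp only [t, inv_pow]
    congr 1
    rw [← pow_mul, mul_comm, pow_mul, pow_succ, pow_q_pow_q hF]
    ring
  obtain ⟨l, hl⟩ := exists_norm_eq (tau0 hF σ) (tau0_ne_id hF hodd) (tau0_tau0 hF σ) t₀ ht₀0 htτ
  have hl' : (l : F) * (l : F) ^ q = t := by
    have := congrArg Subtype.val hl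
    rwa [Subfield.coe_mul, tau0_coe] at this
  refine ⟨b₁ * l, ?_, ?_⟩
  · rw [mul_pow, pow_succ (l : F) q, mul_comm ((l : F) ^ q), hl']
    exact mul_inv_cancel₀ ht0
  · rw [map_mul, mem_fixedField.1 l.2, ← mul_assoc, hb₁]

theorem glMap_mem {g : GG} (hg : g ∈ Cfsg.GU n F q) (σ : F ≃+* F) : glMap σ g ∈ Cfsg.GU n F q := by
  have := gMul_mem one_mem_GU hg σ
  rwa [one_mul] at this

section transfer

variable {F₀ : Type*} [Field F₀] [Fintype F₀] {q₀ : ℕ} (φ : F₀ →+* F) (hφq : ∀ b, φ (b ^ q₀) = φ b ^ q)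

include hφq in
theorem herm_map (u v : Fin n → F₀) : hh (fun i => φ (u i)) (fun i => φ (v i)) = φ (Cfsg.hermForm n F₀ q₀ u v) := by
  simp [Cfsg.hermForm, map_sum, hφq]

theorem map_mulVec_single (g₀ : GL (Fin n) F₀) (i : Fin n) :
    ((Matrix.GeneralLinearGroup.map φ g₀ : GG) : MM) *ᵥ Pi.single i 1 = fun k => φ (((g₀ : Matrix (Fin n) (Fin n) F₀) *ᵥ Pi.single i 1) k) := by
  funext k
  rw [Matrix.mulVec_single_one, Matrix.mulVec_single_one]
  rfl

theorem herm_single_self {K : Type*} [Field K] [Fintype K] {Q : ℕ} (hQ : Q ≠ 0) (i j : Fin n) :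
    Cfsg.hermForm n K Q (Pi.single i 1) (Pi.single j 1) = if i = j then 1 else 0 := by
  rw [herm_right_single _ _ hQ, Pi.single_apply]
  by_cases hij : i = j
  · simp [hij]
  · simp [hij, Ne.symm hij]

theorem map_mem_GU (hF : Fintype.card F = q ^ 2) (hq₀ : q₀ ≠ 0) (hφq : ∀ b, φ (b ^ q₀) = φ b ^ q) {g₀ : GL (Fin n) F₀} (hg₀ : g₀ ∈ Cfsg.GU n F₀ q₀) :
    Matrix.GeneralLinearGroup.map φ g₀ ∈ Cfsg.GU n F q := by
  show ∀ u v, hh (((Matrix.GeneralLinearGroup.map φ g₀ : GG) : MM) *ᵥ u) (((Matrix.GeneralLinearGroup.map φ g₀ : GG) : MM) *ᵥ v) = hh u v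
  apply form_of_gram hF
  intro i j
  rw [map_mulVec_single, map_mulVec_single, herm_map φ hφq, gu_form hg₀, herm_single_self hq₀]
  split_ifs <;> simp

theorem mem_GU_of_map (hF₀ : Fintype.card F₀ = q₀ ^ 2) (hq : q ≠ 0) (hφq : ∀ b, φ (b ^ q₀) = φ b ^ q) {g₀ : GL (Fin n) F₀}
    (hg : Matrix.GeneralLinearGroup.map φ g₀ ∈ Cfsg.GU n F q) : g₀ ∈ Cfsg.GU n F₀ q₀ := by
  show ∀ u v, Cfsg.hermForm n F₀ q₀ ((g₀ : Matrix (Fin n) (Fin n) F₀) *ᵥ u) ((g₀ : Matrix (Fin n) (Fin n) F₀) *ᵥ v) = Cfsg.hermForm n F₀ q₀ u v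
  apply form_of_gram hF₀
  intro i j
  apply φ.injective
  rw [← herm_map φ hφq, ← map_mulVec_single, ← map_mulVec_single, gu_form hg, herm_single_self hq]
  split_ifs <;> simp

/-- Base change of unitary matrices. -/
noncomputable def guMap (hF : Fintype.card F = q ^ 2) (hq₀ : q₀ ≠ 0) (hφq : ∀ b, φ (b ^ q₀) = φ b ^ q) : ↥(Cfsg.GU n F₀ q₀) →* ↥(Cfsg.GU n F q) where
  toFun g := ⟨Matrix.GeneralLinearGroup.map φ g.1, map_mem_GU φ hF hq₀ hφq g.2⟩
  map_one' := Subtype.ext (map_one _)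
  map_mul' a b := Subtype.ext (map_mul _ _ _)

end transfer

section main

variable [h : Good n q F]

theorem comm_field_iff (σ : F ≃+* F) {g : GG} (hg : g ∈ Cfsg.GU n F q) :
    psuSemi g hg (RingEquiv.refl F) ∈ Subgroup.centralizer {psuSemi (1 : GG) one_mem_GU σ} ↔
      ∃ c : F, c ≠ 0 ∧ (g : MM) = c • (g : MM).map σ := by
  rw [Subgroup.mem_centralizer_singleton_iff, psuSemi_refl_mul, psuSemi_mul_refl]
  constructor
  · intro e
    obtain ⟨-, c, hc0, hc⟩ := psuSemi_inj' _ _ e.symm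
    refine ⟨c, hc0, ?_⟩
    simpa [glMap_coe] using hc
  · rintro ⟨c, hc0, hc⟩
    refine psuSemi_smul_eq' _ _ hc0 ?_
    simpa [glMap_coe] using hc

/-- Elements commuting with a field automorphism are scalar multiples of fixed unitary matrices. -/
theorem comm_decomp {σ : F ≃+* F} (hodd : Odd (orderOf σ)) {g : GG} (hg : g ∈ Cfsg.GU n F q)
    (hcomm : psuSemi g hg (RingEquiv.refl F) ∈ Subgroup.centralizer {psuSemi (1 : GG) one_mem_GU σ}) :
    ∃ (b : Fˣ) (g₁ : GG), (b : F) ^ (q + 1) = 1 ∧ (g : MM) = (b : F) • (g₁ : MM) ∧ g₁ ∈ Cfsg.GU n F q ∧ (g₁ : MM).map σ = g₁ := by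
  have hF := h.hF
  have hq2 := two_le_q hF
  haveI : Nonempty (Fin n) := ⟨⟨0, by have := h.hn; omega⟩⟩
  obtain ⟨c, hc0, hc⟩ := (comm_field_iff σ hg).1 hcomm
  have hσr : σ ^ orderOf σ = 1 := pow_orderOf_eq_one σ
  have h1 := map_pow_smul_gen σ hc (orderOf σ)
  rw [hσr] at h1
  have h2 : (g : MM).map (1 : F ≃+* F) = g := by
    ext i j; rfl
  rw [h2] at h1
  have h3 : nrmF σ c (orderOf σ) = 1 := by
    have h4 : (nrmF σ c (orderOf σ) - 1) • (g : MM) = 0 := by
      rw [sub_smul, one_smul, ← h1, sub_self]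
    exact sub_eq_zero.1 (by
      rcases smul_eq_zero.1 h4 with h6 | h6
      · exact h6
      · exfalso
        have h7 : (g : MM).det = 0 := by
          rw [h6]
          exact Matrix.det_zero
        exact ((Matrix.isUnit_iff_isUnit_det _).1 g.isUnit).ne_zero h7)
  have hcq : c ^ (q + 1) = 1 := by
    obtain ⟨x₀, hx₀⟩ := exists_one_vec (n := n) (q := q) (F := F)
    have h5 := gu_form hg x₀ x₀
    have h6 := gu_form (glMap_mem hg σ) x₀ x₀
    rw [glMap_coe] at h6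
    rw [hc, Matrix.smul_mulVec, herm_smul_left, herm_smul_right, h6, hx₀] at h5
    rw [pow_succ, mul_comm]
    linear_combination h5
  obtain ⟨b, hb, hbc⟩ := exists_unit_h90 hF hodd hcq h3
  have hb0 : b ≠ 0 := by
    rintro rfl
    rw [zero_pow (by omega)] at hb
    exact zero_ne_one hb
  set u : Fˣ := Units.mk0 b hb0 with hu
  have hub : (u : F) = b := rfl
  set g₁ : GG := Matrix.GeneralLinearGroup.scalar (Fin n) u⁻¹ * g with hg₁
  have hg₁c : (g₁ : MM) = b⁻¹ • (g : MM) := by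
    rw [hg₁, coe_scalar_mul]
    rfl
  have hbq : b⁻¹ * (b⁻¹) ^ q = 1 := by
    rw [inv_pow, ← mul_inv, ← pow_succ', hb, inv_one]
  refine ⟨u, g₁, hb, ?_, ?_, ?_⟩
  · rw [hg₁c, smul_smul, hub, mul_inv_cancel₀ hb0, one_smul]
  · show ∀ a a', hh ((g₁ : MM) *ᵥ a) ((g₁ : MM) *ᵥ a') = hh a a'
    intro a a'
    rw [hg₁c, Matrix.smul_mulVec, Matrix.smul_mulVec, herm_smul_left, herm_smul_right, gu_form hg, ← mul_assoc, hbq, one_mul]
  · rw [hg₁c]
    have h5 : (b⁻¹ • (g : MM)).map σ = (σ b)⁻¹ • (g : MM).map σ := by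
      ext i j
      simp
    rw [h5]
    nth_rewrite 2 [hc]
    rw [smul_smul]
    congr 1
    have hσb : σ b ≠ 0 := by simpa using hb0
    field_simp
    linear_combination -hbc

section fix

variable {F₀ : Type*} [Field F₀] [Fintype F₀] {q₀ : ℕ} (φ : F₀ →+* F) (hq₀ : q₀ ≠ 0) (hφq : ∀ b, φ (b ^ q₀) = φ b ^ q)

theorem guMap_fixed (σ : F ≃+* F) (hφ' : ∀ b, σ (φ b) = φ b) (g₀ : ↥(Cfsg.GU n F₀ q₀)) :
    guAut (guMap φ h.hF hq₀ hφq g₀) ∈ Cfsg.inndiagPSU n F q ⊓ Subgroup.centralizer {psuSemi (1 : GG) one_mem_GU σ} := by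
  refine Subgroup.mem_inf.2 ⟨mem_inndiag.2 ⟨_, (guMap φ h.hF hq₀ hφq g₀).2, rfl⟩, ?_⟩
  show psuSemi _ (guMap φ h.hF hq₀ hφq g₀).2 _ ∈ _
  rw [comm_field_iff]
  refine ⟨1, one_ne_zero, ?_⟩
  rw [one_smul]
  ext i j
  exact (hφ' _).symm

/-- The hom onto the centraliser. -/
noncomputable def guFix (σ : F ≃+* F) (hφ' : ∀ b, σ (φ b) = φ b) :
    ↥(Cfsg.GU n F₀ q₀) →* ↥(Cfsg.inndiagPSU n F q ⊓ Subgroup.centralizer {psuSemi (1 : GG) one_mem_GU σ}) :=
  ((guAut (n := n) (F := F) (q := q)).comp (guMap φ h.hF hq₀ hφq)).codRestrict _ (guMap_fixed φ hq₀ hφq σ hφ')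

theorem guFix_surjective (hF₀ : Fintype.card F₀ = q₀ ^ 2) {σ : F ≃+* F} (hodd : Odd (orderOf σ)) (hφ' : ∀ b, σ (φ b) = φ b)
    (hφ : ∀ a, σ a = a → ∃ b, φ b = a) : Function.Surjective (guFix (n := n) φ hq₀ hφq σ hφ') := by
  have hq2 := two_le_q h.hF
  rintro ⟨y, hy⟩
  obtain ⟨h1, h2⟩ := Subgroup.mem_inf.1 hy
  obtain ⟨g, hg, rfl⟩ := mem_inndiag.1 h1
  obtain ⟨b, g₁, hb, hgb, hg₁, hfix⟩ := comm_decomp hodd hg h2
  obtain ⟨g₀, rfl⟩ := exists_GL_fixed_gen σ φ hφ g₁ hfix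
  have hg₀ := mem_GU_of_map φ hF₀ (by omega) hφq hg₁
  refine ⟨⟨g₀, hg₀⟩, ?_⟩
  apply Subtype.ext
  show psuSemi _ (map_mem_GU φ h.hF hq₀ hφq hg₀) _ = _
  exact (psuSemi_smul_eq' _ _ b.ne_zero hgb).symm

theorem guFix_ker (σ : F ≃+* F) (hφ' : ∀ b, σ (φ b) = φ b) :
    (guFix (n := n) φ hq₀ hφq σ hφ').ker = (Cfsg.Geo.scalars (Fin n) F₀).subgroupOf (Cfsg.GU n F₀ q₀) := by
  have hne : Nonempty (Fin n) := ⟨⟨0, by have := h.hn; omega⟩⟩
  ext g₀
  rw [MonoidHom.mem_ker, Subgroup.mem_subgroupOf, Cfsg.Geo.mem_scalars_iff]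
  constructor
  · intro h1
    have h2 : psuSemi _ (guMap φ h.hF hq₀ hφq g₀).2 (RingEquiv.refl F) = 1 := congrArg Subtype.val h1
    obtain ⟨-, c, hc0, hc⟩ := eq_one_imp _ h2
    have hent : ∀ i j, ((guMap φ h.hF hq₀ hφq g₀).1 : MM) i j = φ ((g₀.1 : Matrix (Fin n) (Fin n) F₀) i j) := fun i j => rfl
    have i₀ : Fin n := Classical.arbitrary _
    have h3 := congrFun (congrFun hc i₀) i₀
    rw [hent] at h3
    simp only [Matrix.smul_apply, Matrix.one_apply_eq, smul_eq_mul, mul_one] at h3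
    set a : F₀ := (g₀.1 : Matrix (Fin n) (Fin n) F₀) i₀ i₀ with ha
    have ha0 : a ≠ 0 := by
      intro h0
      rw [h0, map_zero] at h3
      exact hc0 h3.symm
    refine ⟨Units.mk0 a ha0, ?_⟩
    ext i j
    apply φ.injective
    have h4 := congrFun (congrFun hc i) j
    rw [hent, h3.symm] at h4
    rw [h4]
    show _ = φ (a • (1 : Matrix (Fin n) (Fin n) F₀) i j)
    simp only [Matrix.smul_apply, smul_eq_mul, map_mul]
    rw [Matrix.one_apply, Matrix.one_apply]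
    split_ifs <;> simp
  · rintro ⟨a, ha⟩
    apply Subtype.ext
    show psuSemi _ (guMap φ h.hF hq₀ hφq g₀).2 (RingEquiv.refl F) = 1
    rw [← psuSemi_one_refl]
    refine psuSemi_smul_eq' _ _ (c := φ a) (by simp) ?_
    ext i j
    show φ ((g₀.1 : Matrix (Fin n) (Fin n) F₀) i j) = _
    rw [ha]
    simp only [Matrix.smul_apply, smul_eq_mul, map_mul]
    rw [Matrix.one_apply]
    simp only [Units.val_one, Matrix.one_apply]
    split_ifs <;> simp

/-- The centraliser of the standard field automorphism. -/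
noncomputable def centEquivPSU (hF₀ : Fintype.card F₀ = q₀ ^ 2) {σ : F ≃+* F} (hodd : Odd (orderOf σ)) (hφ' : ∀ b, σ (φ b) = φ b)
    (hφ : ∀ a, σ a = a → ∃ b, φ b = a) :
    Cfsg.PGU n F₀ q₀ ≃* ↥(Cfsg.inndiagPSU n F q ⊓ Subgroup.centralizer {psuSemi (1 : GG) one_mem_GU σ}) :=
  (QuotientGroup.quotientMulEquivOfEq (guFix_ker (n := n) φ hq₀ hφq σ hφ').symm).trans
    (QuotientGroup.quotientKerEquivOfSurjective (guFix (n := n) φ hq₀ hφq σ hφ') (guFix_surjective φ hq₀ hφq hF₀ hodd hφ' hφ))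

end fix

/-- The determinant with values in the norm-one scalars. -/
noncomputable def detU : ↥(Cfsg.GU n F q) →* muN F q :=
  (guDet n F q).codRestrict (muN F q) (fun g => by
    rw [muN, MonoidHom.mem_ker]
    apply Units.ext
    simpa [guDet_val] using gu_det_norm h.hF _ g.2)

theorem detU_val (g : ↥(Cfsg.GU n F q)) : (((detU g : muN F q) : Fˣ) : F) = ((g.1 : GG) : MM).det := rfl

/-- The diagonal section of the determinant. -/
noncomputable def dgU (i₀ : Fin n) : muN F q →* ↥(Cfsg.GU n F q) where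
  toFun a := ⟨dg i₀ a.1, by
    show ∀ u v, hh (((dg i₀ a.1 : GG) : MM) *ᵥ u) (((dg i₀ a.1 : GG) : MM) *ᵥ v) = hh u v
    intro u v
    rw [dg_coe, herm_apply, herm_apply]
    apply Finset.sum_congr rfl
    intro k _
    rw [Matrix.mulVec_diagonal, Matrix.mulVec_diagonal, mul_pow]
    have h1 : Function.update (1 : Fin n → F) i₀ ((a.1 : Fˣ) : F) k * (Function.update (1 : Fin n → F) i₀ ((a.1 : Fˣ) : F) k) ^ q = 1 := by
      by_cases hk : k = i₀
      · subst hk
        rw [Function.update_self, ← pow_succ']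
        exact muN_val a
      · rw [Function.update_of_ne hk]
        simp
    linear_combination (u k * v k ^ q) * h1⟩
  map_one' := Subtype.ext (map_one _)
  map_mul' a b := Subtype.ext (map_mul _ _ _)

theorem detU_dgU (i₀ : Fin n) (a : muN F q) : detU (dgU i₀ a) = a := by
  apply Subtype.ext
  apply Units.ext
  rw [detU_val]
  exact det_dg i₀ a.1

/-- The number of inner classes in an inner-diagonal class, as an index of determinants. -/
theorem split_count_psu (x₀ : MulAut (Cfsg.PSU n F q)) :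
    Cfsg.splitClassCount (Cfsg.inndiagPSU n F q) (Cfsg.Inn (Cfsg.PSU n F q)) x₀ =
      (((Subgroup.centralizer {x₀}).comap (guAut (n := n) (F := F) (q := q))).map (detU (n := n) (F := F) (q := q))).index := by
  have hn := h.hn
  rw [inndiag_eq_range]
  refine split_count_abs (A := MulAut (Cfsg.PSU n F q)) guAut detU (dgU ⟨0, by omega⟩) (detU_dgU _) (Cfsg.Inn (Cfsg.PSU n F q)) (hK := Cfsg.innNormal _) ?_ ?_ x₀
  · rintro _ ⟨y, rfl⟩
    obtain ⟨A, rfl⟩ := pr_surj y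
    refine ⟨⟨suToGL n F q A, su_gu A⟩, ?_, (conj_eq_psuSemi A).symm⟩
    apply Subtype.ext
    apply Units.ext
    rw [detU_val]
    exact A.1.2
  · intro s hs
    have hdet : ((s.1 : GG) : MM).det = 1 := by
      have := congrArg (fun u : muN F q => ((u : Fˣ) : F)) hs
      simpa [detU_val] using this
    let A : Cfsg.SU n F q := ⟨⟨((s.1 : GG) : MM), hdet⟩, fun u v => s.2 u v⟩
    refine ⟨pr A, ?_⟩
    show MulAut.conj (pr A) = _
    rw [conj_eq_psuSemi]
    exact psuSemi_congr _ _ (Units.ext rfl) rfl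

/-- The norm-one scalars fixed by a field automorphism. -/
noncomputable def fixU (σ : F ≃+* F) : Subgroup (muN F q) := (unitsFixed σ).subgroupOf (muN F q)

theorem mem_fixU {σ : F ≃+* F} {u : muN F q} : u ∈ fixU σ ↔ σ ((u.1 : Fˣ) : F) = ((u.1 : Fˣ) : F) := Iff.rfl

/-- The determinants of the elements commuting with a field automorphism. -/
theorem wdet_field {σ : F ≃+* F} (hodd : Odd (orderOf σ)) :
    ((Subgroup.centralizer {psuSemi (1 : GG) one_mem_GU σ}).comap (guAut (n := n) (F := F) (q := q))).map (detU (n := n) (F := F) (q := q)) =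
      fixU σ ⊔ (powMonoidHom n : muN F q →* muN F q).range := by
  have hn := h.hn
  have hF := h.hF
  have hq2 := two_le_q hF
  set i₀ : Fin n := ⟨0, by omega⟩ with hi₀
  apply le_antisymm
  · rintro _ ⟨g, hg, rfl⟩
    have hg' : psuSemi g.1 g.2 (RingEquiv.refl F) ∈ Subgroup.centralizer {psuSemi (1 : GG) one_mem_GU σ} := hg
    obtain ⟨b, g₁, hb, hgb, hg₁, hfix⟩ := comm_decomp hodd g.2 hg'
    have hbm : b ∈ muN F q := by
      rw [muN, MonoidHom.mem_ker]
      apply Units.ext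
      simpa using hb
    have hdec : detU g = detU ⟨g₁, hg₁⟩ * (powMonoidHom n : muN F q →* muN F q) ⟨b, hbm⟩ := by
      apply Subtype.ext
      apply Units.ext
      show (((detU g : muN F q) : Fˣ) : F) = (((detU ⟨g₁, hg₁⟩ : muN F q) : Fˣ) : F) * (b : F) ^ n
      rw [detU_val, detU_val, hgb, Matrix.det_smul, Fintype.card_fin, mul_comm]
    rw [hdec]
    apply Subgroup.mul_mem_sup
    · rw [mem_fixU, detU_val]
      have h1 : σ ((g₁ : MM).det) = ((g₁ : MM).map σ).det := (σ : F →+* F).map_det _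
      show σ ((g₁ : MM).det) = _
      rw [h1, hfix]
    · exact ⟨_, rfl⟩
  · apply sup_le
    · intro k hk
      refine ⟨dgU i₀ k, ?_, detU_dgU i₀ k⟩
      refine (comm_field_iff σ (dgU i₀ k).2).2 ⟨1, one_ne_zero, ?_⟩
      rw [one_smul]
      ext i j
      show (Matrix.diagonal (Function.update (1 : Fin n → F) i₀ ((k.1 : Fˣ) : F))) i j = σ ((Matrix.diagonal (Function.update (1 : Fin n → F) i₀ ((k.1 : Fˣ) : F))) i j)
      by_cases hij : i = j
      · subst hij
        rw [Matrix.diagonal_apply_eq]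
        by_cases hi : i = i₀
        · subst hi
          rw [Function.update_self]
          exact (mem_fixU.1 hk).symm
        · rw [Function.update_of_ne hi]
          simp
      · simp [Matrix.diagonal_apply, hij]
    · rintro _ ⟨t, rfl⟩
      refine ⟨guScal t 1, ?_, ?_⟩
      · show guAut (guScal t 1) ∈ Subgroup.centralizer {psuSemi (1 : GG) one_mem_GU σ}
        have h1 : guAut (guScal t (1 : Cfsg.GU n F q)) = 1 := by
          rw [guAut_apply, ← psuSemi_one_refl]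
          exact psuSemi_smul_eq' _ _ (c := ((t.1 : Fˣ) : F)) t.1.ne_zero (guScal_one_coe t)
        rw [h1]
        exact Subgroup.one_mem _
      · apply Subtype.ext
        apply Units.ext
        rw [detU_val, guScal_one_coe, Matrix.det_smul, Matrix.det_one, mul_one, Fintype.card_fin]
        rfl

end main

section card

variable {F₀ : Type*} [Field F₀] [Fintype F₀] {q₀ : ℕ} (φ : F₀ →+* F) (hφq : ∀ b, φ (b ^ q₀) = φ b ^ q)

include hφq in
/-- The fixed scalars of norm one form a unitary group over the fixed field. -/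
theorem card_fixU (hF₀ : Fintype.card F₀ = q₀ ^ 2) (hq : q ≠ 0) {σ : F ≃+* F} (hφ' : ∀ b, σ (φ b) = φ b)
    (hφ : ∀ a, σ a = a → ∃ b, φ b = a) : Nat.card (fixU (q := q) σ) = q₀ + 1 := by
  have hq₀2 := two_le_q hF₀
  rw [← card_muN hF₀]
  symm
  let Ψ : muN F₀ q₀ → fixU (q := q) σ := fun v => ⟨⟨Units.map (φ : F₀ →* F) v.1, by
      rw [muN, MonoidHom.mem_ker]
      apply Units.ext
      show (φ ((v.1 : F₀ˣ) : F₀)) ^ (q + 1) = 1
      rw [pow_succ, ← hφq, ← map_mul, ← pow_succ, muN_val v, map_one]⟩, hφ' _⟩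
  apply Nat.card_congr
  refine Equiv.ofBijective Ψ ⟨?_, ?_⟩
  · intro v v' e
    apply Subtype.ext
    apply Units.ext
    apply φ.injective
    have := congrArg (fun z : fixU (q := q) σ => ((z.1.1 : Fˣ) : F)) e
    exact this
  · rintro ⟨⟨u, hu⟩, hfix⟩
    obtain ⟨b, hb⟩ := hφ _ (mem_fixU.1 hfix)
    have hu' : (u : F) ^ (q + 1) = 1 := muN_val ⟨u, hu⟩
    have hb0 : b ≠ 0 := by
      rintro rfl
      rw [map_zero] at hb
      exact u.ne_zero hb.symm
    have hbN : b ^ (q₀ + 1) = 1 := by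
      apply φ.injective
      rw [pow_succ, map_mul, hφq, hb, ← pow_succ, hu', map_one]
    refine ⟨⟨Units.mk0 b hb0, ?_⟩, ?_⟩
    · rw [muN, MonoidHom.mem_ker]
      apply Units.ext
      simpa using hbN
    · apply Subtype.ext
      apply Subtype.ext
      apply Units.ext
      exact hb

end card

section final

variable {p f : ℕ} [Fact p.Prime]

theorem pow_q_of_fixed {K : Type*} [Field K] [Fintype K] {q₀ r : ℕ} (hK : Fintype.card K = q₀ ^ 2) (hr : Odd r) (b : K) :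
    b ^ (q₀ ^ r) = b ^ q₀ := by
  obtain ⟨k, rfl⟩ := hr
  have h1 : q₀ ^ (2 * k + 1) = (Fintype.card K) ^ k * q₀ := by
    rw [hK, ← pow_mul, pow_succ]
  rw [h1, pow_mul, FiniteField.pow_card_pow]

/-- The main statement about field automorphisms of `PSU`. -/
theorem field_main (hq : q = p ^ f) (hf : 1 ≤ f) (hF : Fintype.card F = q ^ 2) (hn : 3 ≤ n) (hs : ¬ (n = 3 ∧ q = 2))
    (x : MulAut (Cfsg.PSU n F q)) (hx : Cfsg.IsFieldAutClassPSU x) {r : ℕ} (hr : r.Prime) (hro : Odd r) (hxr : orderOf x = r)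
    (F₀ : Type*) [Field F₀] [Fintype F₀] (hF₀ : Fintype.card F₀ = p ^ (2 * (f / r))) :
    r ∣ f ∧ Nonempty (↥(Cfsg.inndiagPSU n F q ⊓ Subgroup.centralizer {x}) ≃* Cfsg.PGU n F₀ (p ^ (f / r))) ∧
      Cfsg.splitClassCount (Cfsg.inndiagPSU n F q) (Cfsg.Inn (Cfsg.PSU n F q)) x = Nat.gcd n ((q + 1) / (p ^ (f / r) + 1)) := by
  classical
  haveI : Good n q F := ⟨hF, hn⟩
  have hF' : Fintype.card F = p ^ (2 * f) := by rw [hF, hq, ← pow_mul, mul_comm]
  haveI : CharP F p := Cfsg.Agent.Lib.AutPSL.charP_of_card (by omega) hF'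
  have hN := inndiag_normal (p := p) (F := F) (n := n) (q := q) hs
  have hI : (Cfsg.Inn (Cfsg.PSU n F q)).Normal := Cfsg.innNormal _
  obtain ⟨α, φ₁, σ, hσ, hodd, hφ₁, hstd⟩ := hx
  have hx₀ := fieldAut_eq hφ₁
  have hordσ : orderOf σ = r := by
    rw [← orderOf_std (n := n) (q := q) σ, ← hx₀, ← hstd, orderOf_conj', hxr]
  have hrf : r ∣ f := by
    have h1 : r ∣ 2 * f := by
      rw [← (card_gal (F := F) (by omega) hF').2, ← hordσ]
      exact orderOf_dvd_natCard σ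
    have h2 : Nat.Coprime r 2 := by
      exact Nat.coprime_two_right.2 hro
    exact h2.dvd_of_dvd_mul_left h1
  have hfr : r * (f / r) = f := Nat.mul_div_cancel' hrf
  set q₀ := p ^ (f / r) with hq₀
  have hqq : q = q₀ ^ r := by
    rw [hq, hq₀, ← pow_mul, mul_comm, hfr]
  have hF1 : Fintype.card F = (q₀ ^ 2) ^ r := by
    rw [hF, hqq]
    ring
  have hK1 : Nat.card (fixedField σ) = q₀ ^ 2 := card_fixedField hr.ne_zero hF1 σ hordσ
  have hF₀' : Fintype.card F₀ = q₀ ^ 2 := by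
    rw [hF₀, hq₀, ← pow_mul, mul_comm]
  have hp : p.Prime := Fact.out
  have hfr0 : 0 < f / r := Nat.div_pos (Nat.le_of_dvd (by omega) hrf) hr.pos
  have hq₀2 : 2 ≤ q₀ := by
    calc 2 ≤ p := hp.two_le
      _ = p ^ 1 := (pow_one _).symm
      _ ≤ p ^ (f / r) := Nat.pow_le_pow_right hp.pos hfr0
  have hq2 := two_le_q hF
  have : Fintype (fixedField σ) := Fintype.ofFinite _
  have e₀ : F₀ ≃+* fixedField σ := FiniteField.ringEquivOfCardEq (by
    rw [hF₀', ← Nat.card_eq_fintype_card, hK1])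
  let φ : F₀ →+* F := (fixedField σ).subtype.comp (e₀ : F₀ →+* fixedField σ)
  have hφ' : ∀ b, σ (φ b) = φ b := fun b => mem_fixedField.1 (e₀ b).2
  have hφ : ∀ a, σ a = a → ∃ b, φ b = a := fun a ha => ⟨e₀.symm ⟨a, mem_fixedField.2 ha⟩, by
    show ((e₀ (e₀.symm ⟨a, mem_fixedField.2 ha⟩) : fixedField σ) : F) = a
    rw [e₀.apply_symm_apply]⟩
  have hφq : ∀ b, φ (b ^ q₀) = φ b ^ q := by
    intro b
    rw [hqq, ← map_pow, pow_q_of_fixed hF₀' hro]
  refine ⟨hrf, ?_, ?_⟩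
  · have e2 := centConj (Cfsg.inndiagPSU n F q) α x
    rw [hstd, hx₀] at e2
    exact ⟨e2.trans (centEquivPSU φ (by omega) hφq hF₀' hodd hφ' hφ).symm⟩
  · rw [split_conj (Cfsg.inndiagPSU n F q) (Cfsg.Inn (Cfsg.PSU n F q)) α x, hstd, hx₀, split_count_psu, wdet_field hodd,
      index_pow_sup]
    have h2 := Subgroup.index_mul_card (fixU (q := q) σ)
    rw [card_fixU φ hφq hF₀' (by omega) hφ' hφ, card_muN hF] at h2
    have h3 : (fixU (q := q) σ).index = (q + 1) / (q₀ + 1) :=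
      Nat.eq_div_of_mul_eq_left (by omega) h2
    rw [h3]

end final

end Cfsg.Agent.Lib.AutPSU
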