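import Mathlib
import Cfsg.Agent.Lib.AutPSU.FieldMain

/-! Counting the unitary matrices fixed up to scalars by a field automorphism. -/

set_option autoImplicit false
set_option linter.unusedSimpArgs false
set_option linter.unusedVariables false
set_option linter.unusedSectionVars false

namespace Cfsg.Agent.Lib.AutPSU

open Matrix Module MulAction Cfsg.Agent.Lib.Classical Cfsg.Agent.Lib.FieldAut
open Cfsg.Agent.Lib.AutPSL (sm sm_add sm_smul sm_symm_sm sm_sm_symm glMap glMap_coe map_mulVec_sm nrm nrmF nrmF_succ nrm_succ' exists_gl_of_nrm_one exists_nrmF_eq exists_of_nrmF_one nrm_scalar_mul nrmF_inv nrmF_zero coe_scalar_mul glMap_one orderOf_conj')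
open Cfsg.Agent.Lib.AutPSp (map_pow_smul_gen exists_GL_fixed_gen)
open scoped LinearAlgebra.Projectivization MatrixGroups

variable {F : Type*} [Field F] [Fintype F] {q n : ℕ}

local notation "hh" => Cfsg.hermForm n F q
local notation "VV" => (Fin n → F)
local notation "MM" => Matrix (Fin n) (Fin n) F
local notation "GG" => GL (Fin n) F

/-- Unitary matrices fixed up to scalars are scalar multiples of fixed unitary matrices. -/
theorem scal_decomp (hF : Fintype.card F = q ^ 2) (hn : 1 ≤ n) {σ : F ≃+* F} (hodd : Odd (orderOf σ)) {g : GG} (hg : g ∈ Cfsg.GU n F q)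
    {c : F} (hc0 : c ≠ 0) (hc : (g : MM) = c • (g : MM).map σ) :
    ∃ (b : Fˣ) (g₁ : GG), (b : F) ^ (q + 1) = 1 ∧ (g : MM) = (b : F) • (g₁ : MM) ∧ g₁ ∈ Cfsg.GU n F q ∧ (g₁ : MM).map σ = g₁ := by
  have hq2 := two_le_q hF
  haveI : Nonempty (Fin n) := ⟨⟨0, by omega⟩⟩
  have hσr : σ ^ orderOf σ = 1 := pow_orderOf_eq_one σ
  have h1 := map_pow_smul_gen σ hc (orderOf σ)
  rw [hσr] at h1
  have h2 : (g : MM).map (1 : F ≃+* F) = g := by
    ext i j; rfl
  rw [h2] at h1
  have h3 : nrmF σ c (orderOf σ) = 1 := by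
    have h4 : (nrmF σ c (orderOf σ) - 1) • (g : MM) = 0 := by
      rw [sub_smul, one_smul, ← h1, sub_self]
    exact sub_eq_zero.1 (by
      rcases smul_eq_zero.1 h4 with h6 | h6
      · exact h6
      · exfalso
        have h7 : (g : MM).det = 0 := by
          rw [h6]
          exact Matrix.det_zero
        exact ((Matrix.isUnit_iff_isUnit_det _).1 g.isUnit).ne_zero h7)
  have hcq : c ^ (q + 1) = 1 := by
    have hx₀ : hh (Pi.single ⟨0, by omega⟩ 1) (Pi.single ⟨0, by omega⟩ 1) = 1 := by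
      rw [herm_single_self (by omega)]
      simp
    set x₀ : Fin n → F := Pi.single ⟨0, by omega⟩ 1 with hx
    have h5 := gu_form hg x₀ x₀
    have h6 := gu_form (glMap_mem hg σ) x₀ x₀
    rw [glMap_coe] at h6
    rw [hc, Matrix.smul_mulVec, herm_smul_left, herm_smul_right, h6, hx₀] at h5
    rw [pow_succ, mul_comm]
    linear_combination h5
  obtain ⟨b, hb, hbc⟩ := exists_unit_h90 hF hodd hcq h3
  have hb0 : b ≠ 0 := by
    rintro rfl
    rw [zero_pow (by omega)] at hb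
    exact zero_ne_one hb
  set u : Fˣ := Units.mk0 b hb0 with hu
  have hub : (u : F) = b := rfl
  set g₁ : GG := Matrix.GeneralLinearGroup.scalar (Fin n) u⁻¹ * g with hg₁
  have hg₁c : (g₁ : MM) = b⁻¹ • (g : MM) := by
    rw [hg₁, coe_scalar_mul]
    rfl
  have hbq : b⁻¹ * (b⁻¹) ^ q = 1 := by
    rw [inv_pow, ← mul_inv, ← pow_succ', hb, inv_one]
  refine ⟨u, g₁, hb, ?_, ?_, ?_⟩
  · rw [hg₁c, smul_smul, hub, mul_inv_cancel₀ hb0, one_smul]
  · show ∀ a a', hh ((g₁ : MM) *ᵥ a) ((g₁ : MM) *ᵥ a') = hh a a'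
    intro a a'
    rw [hg₁c, Matrix.smul_mulVec, Matrix.smul_mulVec, herm_smul_left, herm_smul_right, gu_form hg, ← mul_assoc, hbq, one_mul]
  · rw [hg₁c]
    have h5 : (b⁻¹ • (g : MM)).map σ = (σ b)⁻¹ • (g : MM).map σ := by
      ext i j
      simp
    rw [h5]
    nth_rewrite 2 [hc]
    rw [smul_smul]
    congr 1
    have hσb : σ b ≠ 0 := by simpa using hb0
    field_simp
    linear_combination -hbc

section fix

variable {F₀ : Type*} [Field F₀] [Fintype F₀] {q₀ : ℕ} (φ : F₀ →+* F) (hF : Fintype.card F = q ^ 2) (hq₀ : q₀ ≠ 0) (hφq : ∀ b, φ (b ^ q₀) = φ b ^ q)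

/-- Scalars times base-changed matrices. -/
noncomputable def scalMap : muN F q × ↥(Cfsg.GU n F₀ q₀) →* ↥(Cfsg.GU n F q) where
  toFun x := guScal x.1 (guMap φ hF hq₀ hφq x.2)
  map_one' := by
    apply Subtype.ext
    apply Units.ext
    rw [guScal_coe]
    have e : (guMap φ hF hq₀ hφq (1 : muN F q × ↥(Cfsg.GU n F₀ q₀)).2) = 1 := by
      rw [Prod.snd_one, map_one]
    rw [e]
    simp
  map_mul' x y := by
    apply Subtype.ext
    apply Units.ext
    rw [guScal_coe, gu_val_mul, guScal_coe, guScal_coe]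
    have e : ((guMap φ hF hq₀ hφq (x * y).2).1 : GG) = ((guMap φ hF hq₀ hφq x.2).1 : GG) * ((guMap φ hF hq₀ hφq y.2).1 : GG) := by
      rw [Prod.snd_mul, map_mul]
      rfl
    rw [e, Units.val_mul, Prod.fst_mul, Subgroup.coe_mul, Units.val_mul, smul_mul_smul_comm]

theorem scalMap_coe (x : muN F q × ↥(Cfsg.GU n F₀ q₀)) :
    (((scalMap φ hF hq₀ hφq x).1 : GG) : MM) = ((x.1.1 : Fˣ) : F) • ((x.2.1 : Matrix (Fin n) (Fin n) F₀)).map φ :=
  guScal_coe _ _

theorem card_ker_scalMap (hn : 1 ≤ n) (hF₀ : Fintype.card F₀ = q₀ ^ 2) (hq : q ≠ 0) :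
    Nat.card (scalMap (n := n) φ hF hq₀ hφq).ker = q₀ + 1 := by
  classical
  have hq2 := two_le_q hF₀
  rw [← card_muN hF₀]
  symm
  have hker : ∀ t : muN F₀ q₀, (Units.map (φ : F₀ →* F) t.1) ^ (q + 1) = 1 := by
    intro t
    apply Units.ext
    show (φ ((t.1 : F₀ˣ) : F₀)) ^ (q + 1) = 1
    rw [pow_succ, ← hφq, ← map_mul, ← pow_succ, muN_val t, map_one]
  let Ψ : muN F₀ q₀ → (scalMap (n := n) φ hF hq₀ hφq).ker := fun t =>
    ⟨(⟨(Units.map (φ : F₀ →* F) t.1)⁻¹, by
        rw [muN, MonoidHom.mem_ker, powMonoidHom_apply, inv_pow, hker t, inv_one]⟩, guScal t 1), by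
      rw [MonoidHom.mem_ker]
      apply Subtype.ext
      apply Units.ext
      rw [scalMap_coe, guScal_one_coe]
      ext i j
      by_cases hij : i = j
      · subst hij
        simp
      · simp [Matrix.one_apply, hij]⟩
  apply Nat.card_congr
  refine Equiv.ofBijective Ψ ⟨?_, ?_⟩
  · intro t t' e
    apply Subtype.ext
    have e1 := congrArg (fun z : (scalMap (n := n) φ hF hq₀ hφq).ker => z.1.1.1) e
    have e2 : (Units.map (φ : F₀ →* F) t.1)⁻¹ = (Units.map (φ : F₀ →* F) t'.1)⁻¹ := e1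
    have e3 := inv_injective e2
    apply Units.ext
    apply φ.injective
    exact congrArg Units.val e3
  · rintro ⟨⟨⟨b, hbm⟩, g₀⟩, hk⟩
    have hk' : ((b : F)) • ((g₀.1 : Matrix (Fin n) (Fin n) F₀)).map φ = 1 := by
      have h1 := congrArg (fun z : ↥(Cfsg.GU n F q) => ((z.1 : GG) : MM)) (MonoidHom.mem_ker.1 hk)
      simp only [scalMap_coe] at h1
      exact h1
    set i₀ : Fin n := ⟨0, by omega⟩ with hi₀
    have h2 : (b : F) * φ ((g₀.1 : Matrix (Fin n) (Fin n) F₀) i₀ i₀) = 1 := by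
      have := congrFun (congrFun hk' i₀) i₀
      simpa using this
    set a : F₀ := (g₀.1 : Matrix (Fin n) (Fin n) F₀) i₀ i₀ with ha
    have ha0 : a ≠ 0 := by
      rintro h0
      rw [h0, map_zero, mul_zero] at h2
      exact zero_ne_one h2
    have hg₀ : ((g₀.1 : Matrix (Fin n) (Fin n) F₀)) = a • 1 := by
      ext i j
      have h3 := congrFun (congrFun hk' i) j
      simp only [Matrix.smul_apply, Matrix.map_apply, smul_eq_mul] at h3
      apply φ.injective
      have h4 : φ a = (b : F)⁻¹ := eq_inv_of_mul_eq_one_right h2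
      simp only [Matrix.smul_apply, smul_eq_mul, map_mul, h4]
      have hb0 : (b : F) ≠ 0 := b.ne_zero
      by_cases hij : i = j
      · subst hij
        simp only [Matrix.one_apply_eq] at h3 ⊢
        field_simp
        rw [map_one]
        linear_combination h3
      · simp only [Matrix.one_apply, hij, if_false] at h3 ⊢
        rw [map_zero, mul_zero]
        exact (mul_eq_zero.1 h3).resolve_left hb0
    have hbN : (b : F) ^ (q + 1) = 1 := muN_val ⟨b, hbm⟩
    have haN : a ^ (q₀ + 1) = 1 := by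
      apply φ.injective
      have h4 : φ a = (b : F)⁻¹ := eq_inv_of_mul_eq_one_right h2
      rw [pow_succ, map_mul, hφq, map_one, h4, ← pow_succ, inv_pow, hbN, inv_one]
    have hm : Units.mk0 a ha0 ∈ muN F₀ q₀ := by
      rw [muN, MonoidHom.mem_ker]
      apply Units.ext
      simpa using haN
    refine ⟨⟨Units.mk0 a ha0, hm⟩, ?_⟩
    apply Subtype.ext
    apply Prod.ext
    · apply Subtype.ext
      apply Units.ext
      have e5 : (((Units.map (φ : F₀ →* F) (Units.mk0 a ha0))⁻¹ : Fˣ) : F) = (φ a)⁻¹ := by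
        simp
      refine e5.trans ?_
      rw [eq_inv_of_mul_eq_one_right h2, inv_inv]
    · apply Subtype.ext
      apply Units.ext
      show ((guScal ⟨Units.mk0 a ha0, hm⟩ (1 : Cfsg.GU n F₀ q₀)).1 : Matrix (Fin n) (Fin n) F₀) = _
      rw [guScal_one_coe, hg₀]
      rfl

end fix

/-- `S2677`, in natural numbers. -/
theorem card_fixed_up_to_scalars {q₀ r : ℕ} (hr : r.Prime) (hr2 : r ≠ 2) (hn : 1 ≤ n) (hq : q = q₀ ^ r) (hF : Fintype.card F = q ^ 2)
    (σ : F ≃+* F) (hσ : orderOf σ = r) :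
    Nat.card {g : ↥(Cfsg.GU n F q) // ∃ c : F, c ≠ 0 ∧ ((g : GG) : MM).map σ = c • ((g : GG) : MM)} * (q₀ + 1) =
      (q + 1) * Nat.card (Cfsg.GU n (fixedField σ) q₀) ∧ (q₀ + 1) ∣ (q + 1) ∧ Nat.card (fixedField σ) = q₀ ^ 2 := by
  classical
  have hro : Odd r := hr.odd_of_ne_two hr2
  have hodd : Odd (orderOf σ) := by rwa [hσ]
  have hq2 := two_le_q hF
  have hF1 : Fintype.card F = (q₀ ^ 2) ^ r := by
    rw [hF, hq]
    ring
  have hK1 : Nat.card (fixedField σ) = q₀ ^ 2 := card_fixedField hr.ne_zero hF1 σ hσ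
  haveI : Fintype (fixedField σ) := Fintype.ofFinite _
  have hcF₀ : Fintype.card (fixedField σ) = q₀ ^ 2 := by
    rw [← Nat.card_eq_fintype_card, hK1]
  have hq₀2 := two_le_q hcF₀
  let φ : fixedField σ →+* F := (fixedField σ).subtype
  have hφq : ∀ b, φ (b ^ q₀) = φ b ^ q := by
    intro b
    rw [hq, ← map_pow, pow_q_of_fixed hcF₀ hro]
  have hq₀0 : q₀ ≠ 0 := by omega
  refine ⟨?_, ?_, hK1⟩
  · have hrange : ∀ g : ↥(Cfsg.GU n F q), g ∈ (scalMap (n := n) φ hF hq₀0 hφq).range ↔ ∃ c : F, c ≠ 0 ∧ ((g : GG) : MM).map σ = c • ((g : GG) : MM) := by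
      intro g
      constructor
      · rintro ⟨⟨b, g₀⟩, rfl⟩
        have hb0 : ((b.1 : Fˣ) : F) ≠ 0 := b.1.ne_zero
        have hσb : σ ((b.1 : Fˣ) : F) ≠ 0 := by simpa using hb0
        refine ⟨σ ((b.1 : Fˣ) : F) / ((b.1 : Fˣ) : F), div_ne_zero hσb hb0, ?_⟩
        rw [scalMap_coe]
        ext i j
        simp only [Matrix.map_apply, Matrix.smul_apply, smul_eq_mul, map_mul]
        have h5 : σ (φ ((g₀.1 : Matrix (Fin n) (Fin n) (fixedField σ)) i j)) = φ ((g₀.1 : Matrix (Fin n) (Fin n) (fixedField σ)) i j) :=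
          mem_fixedField.1 (Subtype.property _)
        rw [h5]
        field_simp
      · rintro ⟨c, hc0, hc⟩
        have hc' : ((g : GG) : MM) = c⁻¹ • ((g : GG) : MM).map σ := by
          rw [hc, smul_smul, inv_mul_cancel₀ hc0, one_smul]
        obtain ⟨b, g₁, hb, hgb, hg₁, hfix⟩ := scal_decomp hF hn hodd g.2 (inv_ne_zero hc0) hc'
        obtain ⟨g₀, rfl⟩ := exists_GL_fixed_gen σ φ (fun a ha => ⟨⟨a, mem_fixedField.2 ha⟩, rfl⟩) g₁ hfix
        have hg₀ := mem_GU_of_map φ hcF₀ (by omega) hφq hg₁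
        have hbm : b ∈ muN F q := by
          rw [muN, MonoidHom.mem_ker]
          apply Units.ext
          simpa using hb
        refine ⟨(⟨b, hbm⟩, ⟨g₀, hg₀⟩), ?_⟩
        apply Subtype.ext
        apply Units.ext
        rw [scalMap_coe, hgb]
        rfl
    have h1 : Nat.card {g : ↥(Cfsg.GU n F q) // ∃ c : F, c ≠ 0 ∧ ((g : GG) : MM).map σ = c • ((g : GG) : MM)} = Nat.card (scalMap (n := n) φ hF hq₀0 hφq).range :=
      Nat.card_congr (Equiv.subtypeEquivRight (fun g => (hrange g).symm))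
    have h2 := Subgroup.index_ker (scalMap (n := n) φ hF hq₀0 hφq)
    have h3 := Subgroup.card_mul_index (scalMap (n := n) φ hF hq₀0 hφq).ker
    rw [h2, card_ker_scalMap φ hF hq₀0 hφq hn hcF₀ (by omega), Nat.card_prod, card_muN hF] at h3
    rw [h1, mul_comm]
    exact h3
  · rw [hq]
    have := Odd.nat_add_dvd_pow_add_pow q₀ 1 hro
    simpa using this

end Cfsg.Agent.Lib.AutPSU
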