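import Cfsg.Agent.Lib.AutPSL.GInvDet
import Cfsg.Agent.Lib.AutPSU.FieldMain

/-! Bridge between the involutory graph automorphisms of `PSU_n(q)` and those of `PSL_n(q)`. -/

set_option autoImplicit false
set_option linter.unusedSimpArgs false
set_option linter.unusedVariables false
set_option linter.unusedSectionVars false
set_option linter.style.haveILetI false

namespace Cfsg.Agent.Lib.AutPSU

open Matrix MulAction Cfsg.Agent.Lib.Classical Cfsg.Agent.Lib.FieldAut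
open Cfsg.Agent.Lib.AutPSp (exists_GL_fixed_gen)
open Cfsg.Agent.Lib.AutPSL (adj adj_apply adj_mul adj_adj adj_smul adj_one adj_inv_mul glMap glMap_coe nrm nrmF nrmF_succ exists_gl_of_nrm_one exists_nrmF_eq exists_of_nrmF_one exists_unitary_of_similitude mem_GU_iff herm_eq th bf dot_mul_mul glT glT_coe)
open scoped MatrixGroups

variable {F : Type*} [Field F] [Fintype F] {q n : ℕ} {K : Type*} [Field K]

local notation "MM" => Matrix (Fin n) (Fin n) F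
local notation "GG" => GL (Fin n) F
local notation "MK" => Matrix (Fin n) (Fin n) K
local notation "GK" => GL (Fin n) K

/-- Matrix form of the similitude relation. -/
theorem bf_iff_mat {L : Type*} [Field L] (g₁ g₂ h : GL (Fin n) L) (c : L) :
    (∀ u v, bf g₂ ((h : Matrix (Fin n) (Fin n) L) *ᵥ u) ((h : Matrix (Fin n) (Fin n) L) *ᵥ v) = c * bf g₁ u v) ↔
      (h : Matrix (Fin n) (Fin n) L)ᵀ * ((g₂⁻¹ : GL (Fin n) L) : Matrix (Fin n) (Fin n) L) * (h : Matrix (Fin n) (Fin n) L) =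
        c • ((g₁⁻¹ : GL (Fin n) L) : Matrix (Fin n) (Fin n) L) := by
  constructor
  · intro H
    apply Cfsg.Agent.Lib.AutPSL.bf_gen
    intro u v
    have := H u v
    rw [bf, dot_mul_mul, bf] at this
    rw [this, Matrix.smul_mulVec, dotProduct_smul, smul_eq_mul]
  · intro H u v
    rw [bf, dot_mul_mul, H, bf, Matrix.smul_mulVec, dotProduct_smul, smul_eq_mul]

/-- Hypotheses on the involution `σ` and the base field embedding `φ`. -/
structure Br (q : ℕ) (σ : F ≃+* F) (φ : K →+* F) : Prop where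
  hq : ∀ a : F, σ a = a ^ q
  h2 : ∀ a, σ (σ a) = a
  hne : σ ≠ RingEquiv.refl F
  fix : ∀ b, σ (φ b) = φ b
  ex : ∀ a, σ a = a → ∃ b, φ b = a

/-- A semilinear `g` has fixed space the image of `P`, on which the hermitian form is a multiple of the form with Gram matrix `g₀⁻¹`. -/
structure DatP (σ : F ≃+* F) (φ : K →+* F) (g : GG) (g₀ : GK) (P : GG) (a l : F) : Prop where
  ha : a ≠ 0
  hl : l ≠ 0
  hform : adj σ (P : MM) * (P : MM) = a • ((g₀⁻¹ : GK) : MK).map φ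
  hg : (g : MM) = l • ((P * (glMap σ P)⁻¹ : GG) : MM)

/-- A scalar-free variant. -/
def Dat (σ : F ≃+* F) (φ : K →+* F) (g : GG) (g₀ : GK) : Prop := ∃ (P : GG) (a l : F), DatP σ φ g g₀ P a l

theorem Br.order {σ : F ≃+* F} {φ : K →+* F} (hB : Br q σ φ) : orderOf σ = 2 := by
  apply orderOf_eq_prime
  · ext a
    exact hB.h2 a
  · intro h
    apply hB.hne
    rw [h]
    rfl

theorem nrmF_two (σ : F ≃+* F) (hσ : ∀ a, σ (σ a) = a) (c : F) : nrmF σ c 2 = c * σ c := by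
  rw [nrmF_succ, nrmF_succ]
  simp [Cfsg.Agent.Lib.AutPSL.nrmF]

theorem adj_map_fix {σ : F ≃+* F} {φ : K →+* F} (hB : Br q σ φ) (M : MK) : adj σ (M.map φ) = (M.map φ)ᵀ := by
  ext i j
  simp [adj_apply, hB.fix]

theorem map_map_fix {σ : F ≃+* F} {φ : K →+* F} (hB : Br q σ φ) (M : MK) : (M.map φ).map σ = M.map φ := by
  ext i j
  simp [hB.fix]

theorem glMap_map {σ : F ≃+* F} {φ : K →+* F} (hB : Br q σ φ) (h₀ : GK) :
    glMap σ (Matrix.GeneralLinearGroup.map φ h₀) = Matrix.GeneralLinearGroup.map φ h₀ := by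
  apply Units.ext
  rw [glMap_coe]
  exact map_map_fix hB _

theorem map_coe (φ : K →+* F) (h₀ : GK) : ((Matrix.GeneralLinearGroup.map φ h₀ : GG) : MM) = (h₀ : MK).map φ := rfl

theorem adj_glMap_inv {σ : F ≃+* F} (h2 : ∀ a, σ (σ a) = a) (P : GG) :
    adj σ (((glMap σ P)⁻¹ : GG) : MM) = (((P⁻¹ : GG) : MM))ᵀ := by
  rw [← map_inv, glMap_coe]
  ext i j
  simp [adj_apply, h2]

theorem adj_map_self {σ : F ≃+* F} (h2 : ∀ a, σ (σ a) = a) (M : MM) : (adj σ M).map σ = Mᵀ := by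
  ext i j
  simp [adj_apply, h2]

/-- The similarity `X` is an `adj`-similitude. -/
theorem adj_X {σ : F ≃+* F} {φ : K →+* F} (hB : Br q σ φ) {g₁ g₂ : GG} {g₀₁ g₀₂ : GK} {P₁ P₂ : GG} {a₁ a₂ l₁ l₂ : F}
    (d₁ : DatP σ φ g₁ g₀₁ P₁ a₁ l₁) (d₂ : DatP σ φ g₂ g₀₂ P₂ a₂ l₂) (h₀ : GK) {m : K}
    (hs : (h₀ : MK)ᵀ * ((g₀₂⁻¹ : GK) : MK) * (h₀ : MK) = m • ((g₀₁⁻¹ : GK) : MK)) :
    adj σ ((P₂ * Matrix.GeneralLinearGroup.map φ h₀ * P₁⁻¹ : GG) : MM) * ((P₂ * Matrix.GeneralLinearGroup.map φ h₀ * P₁⁻¹ : GG) : MM) =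
      (a₂ * φ m * a₁⁻¹) • (1 : MM) := by
  set H : MM := (h₀ : MK).map φ with hH
  set Q₁ : MM := ((P₁⁻¹ : GG) : MM) with hQ₁
  set S₁ : MM := ((g₀₁⁻¹ : GK) : MK).map φ with hS₁
  set S₂ : MM := ((g₀₂⁻¹ : GK) : MK).map φ with hS₂
  have hPQ : (P₁ : MM) * Q₁ = 1 := by
    rw [hQ₁, ← Units.val_mul, mul_inv_cancel]
    rfl
  have hQP : adj σ Q₁ * adj σ (P₁ : MM) = 1 := adj_inv_mul σ P₁
  have hX : ((P₂ * Matrix.GeneralLinearGroup.map φ h₀ * P₁⁻¹ : GG) : MM) = (P₂ : MM) * H * Q₁ := rfl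
  have hadjH : adj σ H = Hᵀ := adj_map_fix hB _
  have hHS : Hᵀ * S₂ * H = φ m • S₁ := by
    have h1 := congrArg (fun M : MK => M.map φ) hs
    simp only [Matrix.map_mul] at h1
    rw [hH, hS₂, hS₁, ← Matrix.transpose_map]
    convert h1 using 1
    ext i j
    simp
  have hS₁' : S₁ = a₁⁻¹ • (adj σ (P₁ : MM) * (P₁ : MM)) := by
    rw [d₁.hform, smul_smul, inv_mul_cancel₀ d₁.ha, one_smul]
  rw [hX, adj_mul, adj_mul, hadjH]
  calc adj σ Q₁ * (Hᵀ * adj σ (P₂ : MM)) * ((P₂ : MM) * H * Q₁)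
      = adj σ Q₁ * Hᵀ * (adj σ (P₂ : MM) * (P₂ : MM)) * H * Q₁ := by simp only [Matrix.mul_assoc]
    _ = a₂ • (adj σ Q₁ * (Hᵀ * S₂ * H) * Q₁) := by
        rw [d₂.hform]
        simp only [Matrix.mul_smul, Matrix.smul_mul, Matrix.mul_assoc]
        rfl
    _ = (a₂ * φ m * a₁⁻¹) • (adj σ Q₁ * (adj σ (P₁ : MM) * (P₁ : MM)) * Q₁) := by
        rw [hHS, hS₁']
        simp only [Matrix.mul_smul, Matrix.smul_mul, smul_smul, mul_assoc]
    _ = (a₂ * φ m * a₁⁻¹) • (1 : MM) := by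
        congr 1
        calc adj σ Q₁ * (adj σ (P₁ : MM) * (P₁ : MM)) * Q₁ = (adj σ Q₁ * adj σ (P₁ : MM)) * ((P₁ : MM) * Q₁) := by
              simp only [Matrix.mul_assoc]
          _ = 1 := by rw [hQP, hPQ, Matrix.one_mul]

/-- The similarity intertwines the twisted conjugation. -/
theorem twist_X {σ : F ≃+* F} {φ : K →+* F} (hB : Br q σ φ) (P₁ P₂ : GG) (h₀ : GK) :
    (P₂ * Matrix.GeneralLinearGroup.map φ h₀ * P₁⁻¹) * (P₁ * (glMap σ P₁)⁻¹) * (glMap σ (P₂ * Matrix.GeneralLinearGroup.map φ h₀ * P₁⁻¹))⁻¹ =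
      P₂ * (glMap σ P₂)⁻¹ := by
  rw [map_mul, map_mul, glMap_map hB, map_inv]
  group

theorem mat_mid (A B B' C : GG) {l : F} (h : (B : MM) = l • (B' : MM)) : ((A * B * C : GG) : MM) = l • ((A * B' * C : GG) : MM) := by
  rw [Units.val_mul, Units.val_mul, Units.val_mul, Units.val_mul, h, Matrix.mul_smul, Matrix.smul_mul]

theorem glMap_smul (σ : F ≃+* F) {A B : GG} {l : F} (h : (A : MM) = l • (B : MM)) : ((glMap σ A : GG) : MM) = σ l • ((glMap σ B : GG) : MM) := by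
  rw [glMap_coe, glMap_coe, h]
  ext i j
  simp

theorem inv_smul' {A B : GG} {l : F} (hl : l ≠ 0) (h : (A : MM) = l • (B : MM)) : ((A⁻¹ : GG) : MM) = l⁻¹ • ((B⁻¹ : GG) : MM) := by
  have h1 : (A : MM) * (l⁻¹ • ((B⁻¹ : GG) : MM)) = 1 := by
    rw [h, Matrix.smul_mul, Matrix.mul_smul, smul_smul, mul_inv_cancel₀ hl, one_smul, ← Units.val_mul, mul_inv_cancel]
    rfl
  have h2 : ((A⁻¹ : GG) : MM) * (A : MM) = 1 := by
    rw [← Units.val_mul, inv_mul_cancel]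
    rfl
  calc ((A⁻¹ : GG) : MM) = ((A⁻¹ : GG) : MM) * ((A : MM) * (l⁻¹ • ((B⁻¹ : GG) : MM))) := by rw [h1, Matrix.mul_one]
    _ = _ := by rw [← Matrix.mul_assoc, h2, Matrix.one_mul]

/-- Adjusting an `adj`-similitude to a unitary element. -/
theorem exists_unit_X {σ : F ≃+* F} {φ : K →+* F} (hB : Br q σ φ) [Nontrivial (Fin n)] {X : GG} {c : F} (hc : c ≠ 0)
    (hX : adj σ (X : MM) * (X : MM) = c • (1 : MM)) :
    ∃ (u : GG) (l : F), l ≠ 0 ∧ u ∈ Cfsg.GU n F q ∧ (X : MM) = l • (u : MM) := by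
  have h1 : (X : MM) * adj σ (X : MM) = c • (1 : MM) := by
    have h2 : (c⁻¹ • adj σ (X : MM)) * (X : MM) = 1 := by
      rw [Matrix.smul_mul, hX, smul_smul, inv_mul_cancel₀ hc, one_smul]
    have h3 := mul_eq_one_comm.1 h2
    rw [Matrix.mul_smul] at h3
    have h4 := congrArg (fun M : MM => c • M) h3
    simp only [smul_smul, mul_inv_cancel₀ hc, one_smul] at h4
    exact h4
  obtain ⟨l, u, hu, hu1⟩ := exists_unitary_of_similitude σ hB.hne hB.h2 hc h1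
  refine ⟨u, l, l.ne_zero, (mem_GU_iff σ hB.hq hB.h2).2 hu1, ?_⟩
  rw [hu, Cfsg.Agent.Lib.AutPSL.coe_scalar_mul]

section conj

variable [h : Good n q F]

/-- A unitary multiple of a similitude twists `g₁` to a scalar multiple of `g₂`. -/
theorem twist_of_smul {σ : F ≃+* F} {φ : K →+* F} (hB : Br q σ φ) {g₁ g₂ : GG} {g₀₁ g₀₂ : GK} {P₁ P₂ : GG} {a₁ a₂ l₁ l₂ : F}
    (d₁ : DatP σ φ g₁ g₀₁ P₁ a₁ l₁) (d₂ : DatP σ φ g₂ g₀₂ P₂ a₂ l₂) (h₀ : GK) {u : GG} {l : F} (hl : l ≠ 0)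
    (hXu : ((P₂ * Matrix.GeneralLinearGroup.map φ h₀ * P₁⁻¹ : GG) : MM) = l • (u : MM)) :
    ∃ κ : F, κ ≠ 0 ∧ (g₂ : MM) = κ • ((u * g₁ * (glMap σ u)⁻¹ : GG) : MM) := by
  set X : GG := P₂ * Matrix.GeneralLinearGroup.map φ h₀ * P₁⁻¹ with hX
  have hσl : σ l ≠ 0 := by simpa using hl
  have huX : (u : MM) = l⁻¹ • (X : MM) := by
    rw [hXu, smul_smul, inv_mul_cancel₀ hl, one_smul]
  have h1 : ((u * g₁ * (glMap σ u)⁻¹ : GG) : MM) = (l₁ * (l⁻¹ * σ l)) • ((X * (P₁ * (glMap σ P₁)⁻¹) * (glMap σ X)⁻¹ : GG) : MM) := by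
    have h2 : (((glMap σ u)⁻¹ : GG) : MM) = σ l • (((glMap σ X)⁻¹ : GG) : MM) := by
      have h3 := inv_smul' (l := σ l⁻¹) (by simpa using hl) (glMap_smul σ huX)
      rwa [map_inv₀, inv_inv] at h3
    rw [mat_mid _ _ _ _ d₁.hg]
    rw [Units.val_mul, Units.val_mul, Units.val_mul, Units.val_mul, huX, h2]
    simp only [Matrix.mul_smul, Matrix.smul_mul, smul_smul]
    congr 1
    ring
  refine ⟨l₂ * (l₁ * (l⁻¹ * σ l))⁻¹, ?_, ?_⟩
  · exact mul_ne_zero d₂.hl (inv_ne_zero (mul_ne_zero d₁.hl (mul_ne_zero (inv_ne_zero hl) hσl)))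
  · rw [h1, hX, twist_X hB, d₂.hg, smul_smul, mul_assoc, inv_mul_cancel₀ (mul_ne_zero d₁.hl (mul_ne_zero (inv_ne_zero hl) hσl)), mul_one]

/-- From a similitude of forms to a unitary element conjugating the semilinear maps. -/
theorem conj_of_sim {σ : F ≃+* F} {φ : K →+* F} (hB : Br q σ φ) [Nontrivial (Fin n)] {g₁ g₂ : GG} {g₀₁ g₀₂ : GK} {P₁ P₂ : GG} {a₁ a₂ l₁ l₂ : F}
    (d₁ : DatP σ φ g₁ g₀₁ P₁ a₁ l₁) (d₂ : DatP σ φ g₂ g₀₂ P₂ a₂ l₂) (h₀ : GK) {m : K} (hm : m ≠ 0)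
    (hs : (h₀ : MK)ᵀ * ((g₀₂⁻¹ : GK) : MK) * (h₀ : MK) = m • ((g₀₁⁻¹ : GK) : MK)) :
    ∃ (u : GG) (l κ : F), l ≠ 0 ∧ κ ≠ 0 ∧ u ∈ Cfsg.GU n F q ∧ ((P₂ * Matrix.GeneralLinearGroup.map φ h₀ * P₁⁻¹ : GG) : MM) = l • (u : MM) ∧
      (g₂ : MM) = κ • ((u * g₁ * (glMap σ u)⁻¹ : GG) : MM) := by
  have hφm : φ m ≠ 0 := by simpa using hm
  obtain ⟨u, l, hl, hu, hXu⟩ := exists_unit_X hB (c := a₂ * φ m * a₁⁻¹)
    (mul_ne_zero (mul_ne_zero d₂.ha hφm) (inv_ne_zero d₁.ha)) (adj_X hB d₁ d₂ h₀ hs)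
  obtain ⟨κ, hκ, e⟩ := twist_of_smul hB d₁ d₂ h₀ hl hXu
  exact ⟨u, l, κ, hl, hκ, hu, hXu, e⟩

theorem exists_K_scalar (φ : K →+* F) {T S : MK} (hS : S ≠ 0) {c : F} (h : T.map φ = c • S.map φ) :
    ∃ m : K, φ m = c ∧ T = m • S := by
  obtain ⟨i, j, hij⟩ : ∃ i j, S i j ≠ 0 := by
    by_contra hc
    push Not at hc
    exact hS (Matrix.ext hc)
  have hφ : φ (S i j) ≠ 0 := by simpa using hij
  have h1 : φ (T i j) = c * φ (S i j) := by
    have := congrFun (congrFun h i) j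
    simpa using this
  refine ⟨T i j / S i j, ?_, ?_⟩
  · rw [map_div₀, h1]
    field_simp
  · ext k l
    apply φ.injective
    have := congrFun (congrFun h k) l
    simp only [Matrix.map_apply, Matrix.smul_apply, smul_eq_mul] at this
    rw [Matrix.smul_apply, smul_eq_mul, map_mul, this, map_div₀, h1]
    field_simp

theorem gl_ne_zero [Nontrivial (Fin n)] {L : Type*} [Field L] (g : GL (Fin n) L) : (g : Matrix (Fin n) (Fin n) L) ≠ 0 := by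
  intro h
  have h1 := g.isUnit
  rw [h] at h1
  exact not_isUnit_zero h1

theorem smul_gl_eq [Nontrivial (Fin n)] {L : Type*} [Field L] (g : GL (Fin n) L) {c d : L}
    (h : c • (g : Matrix (Fin n) (Fin n) L) = d • (g : Matrix (Fin n) (Fin n) L)) : c = d := by
  have h1 : (c - d) • (g : Matrix (Fin n) (Fin n) L) = 0 := by rw [sub_smul, h, sub_self]
  rcases smul_eq_zero.1 h1 with h2 | h2
  · exact sub_eq_zero.1 h2
  · exact absurd h2 (gl_ne_zero g)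

theorem adj_mul_self_of_mem {σ : F ≃+* F} {φ : K →+* F} (hB : Br q σ φ) {u : GG} (hu : u ∈ Cfsg.GU n F q) :
    adj σ (u : MM) * (u : MM) = 1 := mul_eq_one_comm.1 ((mem_GU_iff σ hB.hq hB.h2).1 hu)

/-- Conjugating unitary elements come from similitudes of the forms. -/
theorem descent_u {σ : F ≃+* F} {φ : K →+* F} (hB : Br q σ φ) [Nontrivial (Fin n)] {g₁ g₂ : GG} {g₀₁ g₀₂ : GK} {P₁ P₂ : GG} {a₁ a₂ l₁ l₂ : F}
    (d₁ : DatP σ φ g₁ g₀₁ P₁ a₁ l₁) (d₂ : DatP σ φ g₂ g₀₂ P₂ a₂ l₂) {u : GG} (hu : u ∈ Cfsg.GU n F q) {κ : F} (hκ : κ ≠ 0)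
    (e : (g₂ : MM) = κ • ((u * g₁ * (glMap σ u)⁻¹ : GG) : MM)) :
    ∃ (ν : F) (h₀ : GK) (m : K), ν ≠ 0 ∧ m ≠ 0 ∧ (u : MM) = ν • ((P₂ * Matrix.GeneralLinearGroup.map φ h₀ * P₁⁻¹ : GG) : MM) ∧
      (h₀ : MK)ᵀ * ((g₀₂⁻¹ : GK) : MK) * (h₀ : MK) = m • ((g₀₁⁻¹ : GK) : MK) := by
  have hl₁ := d₁.hl
  have hl₂ := d₂.hl
  have ha₁ := d₁.ha
  have ha₂ := d₂.ha
  set X : GG := P₂⁻¹ * u * P₁ with hX
  set κ' : F := l₂ * (κ * l₁)⁻¹ with hκ'
  have hκ'0 : κ' ≠ 0 := mul_ne_zero hl₂ (inv_ne_zero (mul_ne_zero hκ hl₁))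
  have hm1 : ((u * (P₁ * (glMap σ P₁)⁻¹) * (glMap σ u)⁻¹ : GG) : MM) = κ' • ((P₂ * (glMap σ P₂)⁻¹ : GG) : MM) := by
    have h1 := mat_mid u g₁ (P₁ * (glMap σ P₁)⁻¹) (glMap σ u)⁻¹ d₁.hg
    have h2 : (κ * l₁) • ((u * (P₁ * (glMap σ P₁)⁻¹) * (glMap σ u)⁻¹ : GG) : MM) = l₂ • ((P₂ * (glMap σ P₂)⁻¹ : GG) : MM) := by
      rw [← d₂.hg, e, h1, smul_smul]
    rw [hκ', mul_comm, mul_smul, ← h2, smul_smul, inv_mul_cancel₀ (mul_ne_zero hκ hl₁), one_smul]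
  have hY : ((X * (glMap σ X)⁻¹ : GG) : MM) = κ' • (1 : MM) := by
    have e1 : X * (glMap σ X)⁻¹ = P₂⁻¹ * (u * (P₁ * (glMap σ P₁)⁻¹) * (glMap σ u)⁻¹) * glMap σ P₂ := by
      rw [hX, map_mul, map_mul, map_inv]
      group
    rw [e1, mat_mid _ _ _ _ hm1]
    have e2 : P₂⁻¹ * (P₂ * (glMap σ P₂)⁻¹) * glMap σ P₂ = 1 := by group
    rw [e2]
    rfl
  have hXσ : (X : MM) = κ' • ((glMap σ X : GG) : MM) := by
    have e1 : X = (X * (glMap σ X)⁻¹) * glMap σ X := by group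
    calc (X : MM) = ((X * (glMap σ X)⁻¹ : GG) : MM) * ((glMap σ X : GG) : MM) := by
          rw [← Units.val_mul, ← e1]
      _ = _ := by rw [hY, Matrix.smul_mul, Matrix.one_mul]
  have hσX : ((glMap σ X : GG) : MM) = σ κ' • (X : MM) := by
    have h1 := glMap_smul σ (A := X) (B := glMap σ X) hXσ
    rw [h1]
    congr 1
    rw [glMap_coe, glMap_coe]
    ext i j
    simp [hB.h2]
  have hN : κ' * σ κ' = 1 := by
    apply smul_gl_eq X
    rw [one_smul, mul_smul, ← hσX, ← hXσ]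
  obtain ⟨ν, hν0, hν⟩ := exists_of_nrmF_one σ (by norm_num) hB.order (c := κ') (by rw [nrmF_two σ hB.h2]; exact hN)
  have hσν : σ ν ≠ 0 := by simpa using hν0
  set νu : Fˣ := Units.mk0 ν hν0 with hνu
  set Z : GG := Matrix.GeneralLinearGroup.scalar (Fin n) νu⁻¹ * X with hZ
  have hZc : (Z : MM) = ν⁻¹ • (X : MM) := by
    rw [hZ, Cfsg.Agent.Lib.AutPSL.coe_scalar_mul]
    rfl
  have hZfix : (Z : MM).map σ = (Z : MM) := by
    have h1 := glMap_smul σ (A := Z) (B := X) hZc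
    rw [glMap_coe] at h1
    have hν' : σ κ' * ν = σ ν := by
      have h2 := congrArg σ hν
      rwa [map_mul, hB.h2] at h2
    rw [h1, hZc, hσX, smul_smul, map_inv₀]
    congr 1
    field_simp
    linear_combination hν'
  obtain ⟨h₀, hh₀⟩ := exists_GL_fixed_gen σ φ hB.ex Z hZfix
  have hXZ : (X : MM) = ν • ((Matrix.GeneralLinearGroup.map φ h₀ : GG) : MM) := by
    rw [hh₀, hZc, smul_smul, mul_inv_cancel₀ hν0, one_smul]
  have hu' : (u : MM) = ν • ((P₂ * Matrix.GeneralLinearGroup.map φ h₀ * P₁⁻¹ : GG) : MM) := by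
    have e1 : u = P₂ * X * P₁⁻¹ := by rw [hX]; group
    rw [← mat_mid _ _ _ _ hXZ, ← e1]
  -- the similitude
  set H : MM := (h₀ : MK).map φ with hH
  set Q₁ : MM := ((P₁⁻¹ : GG) : MM) with hQ₁
  set S₁ : MK := ((g₀₁⁻¹ : GK) : MK) with hS₁
  set S₂ : MK := ((g₀₂⁻¹ : GK) : MK) with hS₂
  have hQP : (Q₁ : MM) * (P₁ : MM) = 1 := by
    rw [hQ₁, ← Units.val_mul, inv_mul_cancel]
    rfl
  have hPQ : adj σ (P₁ : MM) * adj σ Q₁ = 1 := mul_eq_one_comm.1 (adj_inv_mul σ P₁)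
  have hadjH : adj σ H = Hᵀ := adj_map_fix hB _
  have hW : ((P₂ * Matrix.GeneralLinearGroup.map φ h₀ * P₁⁻¹ : GG) : MM) = (P₂ : MM) * H * Q₁ := rfl
  have huu := adj_mul_self_of_mem hB hu
  rw [hu', hW, adj_smul, adj_mul, adj_mul, hadjH] at huu
  set c₀ : F := σ ν * ν * a₂ with hc₀
  have hc₀0 : c₀ ≠ 0 := mul_ne_zero (mul_ne_zero hσν hν0) ha₂
  have h1 : c₀ • (adj σ Q₁ * (Hᵀ * S₂.map φ * H) * Q₁) = 1 := by
    rw [← huu]
    have e1 : adj σ (P₂ : MM) * (P₂ : MM) = a₂ • S₂.map φ := d₂.hform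
    have e2 : (σ ν • (adj σ Q₁ * (Hᵀ * adj σ (P₂ : MM)))) * (ν • ((P₂ : MM) * H * Q₁)) =
        (σ ν * ν) • (adj σ Q₁ * Hᵀ * (adj σ (P₂ : MM) * (P₂ : MM)) * H * Q₁) := by
      simp only [Matrix.smul_mul, Matrix.mul_smul, smul_smul, Matrix.mul_assoc]
      rw [mul_comm]
    rw [e2, e1, hc₀]
    simp only [Matrix.smul_mul, Matrix.mul_smul, smul_smul, Matrix.mul_assoc]
  have h2 : c₀ • (Hᵀ * S₂.map φ * H) = a₁ • S₁.map φ := by
    rw [← d₁.hform]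
    calc c₀ • (Hᵀ * S₂.map φ * H) = adj σ (P₁ : MM) * (c₀ • (adj σ Q₁ * (Hᵀ * S₂.map φ * H) * Q₁)) * (P₁ : MM) := by
          rw [Matrix.mul_smul, Matrix.smul_mul]
          congr 1
          calc Hᵀ * S₂.map φ * H = (adj σ (P₁ : MM) * adj σ Q₁) * (Hᵀ * S₂.map φ * H) * (Q₁ * (P₁ : MM)) := by
                rw [hPQ, hQP, Matrix.one_mul, Matrix.mul_one]
            _ = _ := by simp only [Matrix.mul_assoc]
      _ = _ := by rw [h1, Matrix.mul_one]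
  have h3 : ((h₀ : MK)ᵀ * S₂ * (h₀ : MK)).map φ = (c₀⁻¹ * a₁) • S₁.map φ := by
    rw [mul_smul, ← h2, smul_smul, inv_mul_cancel₀ hc₀0, one_smul, Matrix.map_mul, Matrix.map_mul, Matrix.transpose_map]
  obtain ⟨m, hm, hT⟩ := exists_K_scalar φ (gl_ne_zero g₀₁⁻¹) h3
  refine ⟨ν, h₀, m, hν0, ?_, hu', hT⟩
  rintro rfl
  rw [map_zero] at hm
  exact mul_ne_zero (inv_ne_zero hc₀0) ha₁ hm.symm

theorem twist_mem {g u : GG} (hu : u ∈ Cfsg.GU n F q) (hg : g ∈ Cfsg.GU n F q) (σ : F ≃+* F) : u * g * (glMap σ u)⁻¹ ∈ Cfsg.GU n F q :=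
  Subgroup.mul_mem _ (Subgroup.mul_mem _ hu hg) (Subgroup.inv_mem _ (glMap_mem hu σ))

/-- Inner-diagonal conjugacy of the semilinear maps is similarity of the forms. -/
theorem conj_iff {σ : F ≃+* F} {φ : K →+* F} (hB : Br q σ φ) [Nontrivial (Fin n)] {g₁ g₂ : GG} (hg₁ : g₁ ∈ Cfsg.GU n F q) (hg₂ : g₂ ∈ Cfsg.GU n F q)
    {g₀₁ g₀₂ : GK} (d₁ : Dat σ φ g₁ g₀₁) (d₂ : Dat σ φ g₂ g₀₂) :
    Cfsg.IsConjUnder (Cfsg.inndiagPSU n F q) (psuSemi g₁ hg₁ σ) (psuSemi g₂ hg₂ σ) ↔ Cfsg.IsConjUnder (Cfsg.inndiagPSL n K) (th g₀₁) (th g₀₂) := by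
  obtain ⟨P₁, a₁, l₁, d₁⟩ := d₁
  obtain ⟨P₂, a₂, l₂, d₂⟩ := d₂
  rw [Cfsg.Agent.Lib.AutPSL.isConj_th_iff]
  constructor
  · rintro ⟨δ, hδ, e⟩
    obtain ⟨u, hu, rfl⟩ := mem_inndiag.1 hδ
    rw [psuSemi_conj hu hg₁ σ (twist_mem hu hg₁ σ)] at e
    obtain ⟨-, c, hc, hcc⟩ := psuSemi_inj' _ _ e.symm
    obtain ⟨ν, h₀, m, hν, hm, -, hs⟩ := descent_u hB d₁ d₂ hu hc hcc
    exact ⟨h₀, m, hm, (bf_iff_mat _ _ _ _).2 hs⟩
  · rintro ⟨h₀, m, hm, hs⟩
    obtain ⟨u, l, κ, hl, hκ, hu, -, e⟩ := conj_of_sim hB d₁ d₂ h₀ hm ((bf_iff_mat _ _ _ _).1 hs)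
    refine ⟨_, mem_inndiag.2 ⟨u, hu, rfl⟩, ?_⟩
    rw [psuSemi_conj hu hg₁ σ (twist_mem hu hg₁ σ)]
    exact psuSemi_smul_eq' _ _ hκ e

end conj

section cent

theorem mem_sim_mat {g₀ : GK} (h₀ : GK) : h₀ ∈ Cfsg.Geo.similarityGroup (bf g₀) ↔
    ∃ m : K, m ≠ 0 ∧ (h₀ : MK)ᵀ * ((g₀⁻¹ : GK) : MK) * (h₀ : MK) = m • ((g₀⁻¹ : GK) : MK) := by
  constructor
  · rintro ⟨m, hm⟩
    exact ⟨m, m.ne_zero, (bf_iff_mat _ _ _ _).1 hm⟩
  · rintro ⟨m, hm, hs⟩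
    exact ⟨Units.mk0 m hm, (bf_iff_mat _ _ _ _).2 hs⟩


variable [h : Good n q F] {σ : F ≃+* F} {φ : K →+* F} [Nontrivial (Fin n)] {g : GL (Fin n) F} {g₀ : GL (Fin n) K} {P : GL (Fin n) F} {a l : F}

theorem exists_rep (hB : Br q σ φ) (d : DatP σ φ g g₀ P a l) (h₀ : ↥(Cfsg.Geo.similarityGroup (bf g₀) : Subgroup GK)) :
    ∃ (u : Cfsg.GU n F q) (c : F), c ≠ 0 ∧ ((P * Matrix.GeneralLinearGroup.map φ h₀.1 * P⁻¹ : GG) : MM) = c • ((u.1 : GG) : MM) := by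
  obtain ⟨m, hm, hs⟩ := (mem_sim_mat (K := K) h₀.1).1 h₀.2
  have hφm : φ m ≠ 0 := by simpa using hm
  have hc0 : a * φ m * a⁻¹ ≠ 0 := mul_ne_zero (mul_ne_zero d.ha hφm) (inv_ne_zero d.ha)
  have hX := adj_X hB d d h₀.1 hs
  obtain ⟨u, c, hc, hu, hXu⟩ := exists_unit_X hB hc0 hX
  exact ⟨⟨u, hu⟩, c, hc, hXu⟩

/-- A unitary representative. -/
noncomputable def rep (hB : Br q σ φ) (d : DatP σ φ g g₀ P a l) (h₀ : ↥(Cfsg.Geo.similarityGroup (bf g₀) : Subgroup GK)) : Cfsg.GU n F q :=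
  Classical.choose (exists_rep hB d h₀)

theorem rep_spec (hB : Br q σ φ) (d : DatP σ φ g g₀ P a l) (h₀ : ↥(Cfsg.Geo.similarityGroup (bf g₀) : Subgroup GK)) :
    ∃ c : F, c ≠ 0 ∧ ((P * Matrix.GeneralLinearGroup.map φ h₀.1 * P⁻¹ : GG) : MM) = c • (((rep hB d h₀).1 : GG) : MM) :=
  Classical.choose_spec (exists_rep hB d h₀)

theorem guAut_eq_of_smul {t t' : Cfsg.GU n F q} {c : F} (hc : c ≠ 0) (e : ((t'.1 : GG) : MM) = c • ((t.1 : GG) : MM)) :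
    (guAut t' : MulAut (Cfsg.PSU n F q)) = guAut t := psuSemi_smul_eq' _ _ hc e

/-- The hom from similitudes to automorphisms. -/
noncomputable def phi0 (hB : Br q σ φ) (d : DatP σ φ g g₀ P a l) :
    ↥(Cfsg.Geo.similarityGroup (bf g₀) : Subgroup GK) →* MulAut (Cfsg.PSU n F q) :=
  MonoidHom.mk' (fun h₀ => guAut (rep hB d h₀)) (by
    intro x y
    obtain ⟨c₁, hc₁, e₁⟩ := rep_spec hB d x
    obtain ⟨c₂, hc₂, e₂⟩ := rep_spec hB d y
    obtain ⟨c₃, hc₃, e₃⟩ := rep_spec hB d (x * y)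
    show guAut (rep hB d (x * y)) = guAut (rep hB d x) * guAut (rep hB d y)
    rw [← map_mul]
    have e₄ : P * Matrix.GeneralLinearGroup.map φ (x * y).1 * P⁻¹ = (P * Matrix.GeneralLinearGroup.map φ x.1 * P⁻¹) * (P * Matrix.GeneralLinearGroup.map φ y.1 * P⁻¹) := by
      rw [Subgroup.coe_mul, map_mul]
      group
    apply guAut_eq_of_smul (c := c₃⁻¹ * (c₁ * c₂)) (mul_ne_zero (inv_ne_zero hc₃) (mul_ne_zero hc₁ hc₂))
    have e₅ : c₃ • (((rep hB d (x * y)).1 : GG) : MM) = (c₁ * c₂) • (((rep hB d x * rep hB d y).1 : GG) : MM) := by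
      rw [← e₃, e₄, Units.val_mul, e₁, e₂, Matrix.smul_mul, Matrix.mul_smul, smul_smul]
      rfl
    rw [mul_smul, ← e₅, smul_smul, inv_mul_cancel₀ hc₃, one_smul])

theorem phi0_apply (hB : Br q σ φ) (d : DatP σ φ g g₀ P a l) (h₀) : phi0 hB d h₀ = guAut (rep hB d h₀) := rfl

theorem phi0_mem (hB : Br q σ φ) (hg : g ∈ Cfsg.GU n F q) (d : DatP σ φ g g₀ P a l) (h₀) :
    phi0 hB d h₀ ∈ Cfsg.inndiagPSU n F q ⊓ Subgroup.centralizer {psuSemi g hg σ} := by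
  refine Subgroup.mem_inf.2 ⟨mem_inndiag.2 ⟨_, (rep hB d h₀).2, rfl⟩, ?_⟩
  rw [Subgroup.mem_centralizer_singleton_iff]
  obtain ⟨c, hc, e⟩ := rep_spec hB d h₀
  obtain ⟨κ, hκ, e'⟩ := twist_of_smul hB d d h₀.1 hc e
  rw [phi0_apply, guAut_apply, ← mul_inv_eq_iff_eq_mul, psuSemi_conj _ hg σ (twist_mem (rep hB d h₀).2 hg σ)]
  exact (psuSemi_smul_eq' _ _ hκ e').symm

/-- The hom onto the centraliser. -/
noncomputable def phi (hB : Br q σ φ) (hg : g ∈ Cfsg.GU n F q) (d : DatP σ φ g g₀ P a l) :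
    ↥(Cfsg.Geo.similarityGroup (bf g₀) : Subgroup GK) →* ↥(Cfsg.inndiagPSU n F q ⊓ Subgroup.centralizer {psuSemi g hg σ}) :=
  (phi0 hB d).codRestrict _ (phi0_mem hB hg d)

theorem phi_surjective (hB : Br q σ φ) (hg : g ∈ Cfsg.GU n F q) (d : DatP σ φ g g₀ P a l) : Function.Surjective (phi hB hg d) := by
  rintro ⟨y, hy⟩
  obtain ⟨hy1, hy2⟩ := Subgroup.mem_inf.1 hy
  obtain ⟨t, ht, rfl⟩ := mem_inndiag.1 hy1
  rw [Subgroup.mem_centralizer_singleton_iff, ← mul_inv_eq_iff_eq_mul, psuSemi_conj ht hg σ (twist_mem ht hg σ)] at hy2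
  obtain ⟨-, κ, hκ, e⟩ := psuSemi_inj' _ _ hy2
  obtain ⟨ν, h₀, m, hν, hm, hu, hs⟩ := descent_u hB d d ht hκ e
  have hh₀ : h₀ ∈ Cfsg.Geo.similarityGroup (bf g₀) := (mem_sim_mat h₀).2 ⟨m, hm, hs⟩
  refine ⟨⟨h₀, hh₀⟩, ?_⟩
  apply Subtype.ext
  show guAut (rep hB d ⟨h₀, hh₀⟩) = guAut ⟨t, ht⟩
  obtain ⟨c, hc, e'⟩ := rep_spec hB d ⟨h₀, hh₀⟩
  symm
  apply guAut_eq_of_smul (c := ν * c) (mul_ne_zero hν hc)
  show (t : MM) = _
  rw [hu, mul_smul]
  exact congrArg _ e'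

theorem phi_ker (hB : Br q σ φ) (hg : g ∈ Cfsg.GU n F q) (d : DatP σ φ g g₀ P a l) :
    (phi hB hg d).ker = (Cfsg.Geo.scalars (Fin n) K).subgroupOf (Cfsg.Geo.similarityGroup (bf g₀) : Subgroup GK) := by
  ext h₀
  rw [MonoidHom.mem_ker, Subgroup.mem_subgroupOf, Cfsg.Geo.mem_scalars_iff]
  obtain ⟨c, hc, e⟩ := rep_spec hB d h₀
  have hPi : ((P⁻¹ : GG) : MM) * (P : MM) = 1 := by
    rw [← Units.val_mul, inv_mul_cancel]
    rfl
  have hPi' : (P : MM) * ((P⁻¹ : GG) : MM) = 1 := by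
    rw [← Units.val_mul, mul_inv_cancel]
    rfl
  constructor
  · intro h1
    have h2 : psuSemi (rep hB d h₀).1 (rep hB d h₀).2 (RingEquiv.refl F) = 1 := congrArg Subtype.val h1
    obtain ⟨-, c', hc', e'⟩ := eq_one_imp _ h2
    have h3 : (h₀.1 : MK).map φ = (c * c') • (1 : MK).map φ := by
      rw [e', smul_smul] at e
      have h4 : (P : MM) * ((h₀.1 : MK).map φ) * ((P⁻¹ : GG) : MM) = (c * c') • (1 : MM) := e
      calc (h₀.1 : MK).map φ = ((P⁻¹ : GG) : MM) * (P : MM) * ((h₀.1 : MK).map φ) * (((P⁻¹ : GG) : MM) * (P : MM)) := by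
            rw [hPi, Matrix.one_mul, Matrix.mul_one]
        _ = ((P⁻¹ : GG) : MM) * ((P : MM) * ((h₀.1 : MK).map φ) * ((P⁻¹ : GG) : MM)) * (P : MM) := by
            simp only [Matrix.mul_assoc]
        _ = _ := by
            rw [h4, Matrix.mul_smul, Matrix.smul_mul, Matrix.mul_one, hPi]
            simp
    obtain ⟨m, hm, hT⟩ := exists_K_scalar φ one_ne_zero h3
    have hm0 : m ≠ 0 := by
      rintro rfl
      rw [zero_smul] at hT
      exact gl_ne_zero h₀.1 hT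
    exact ⟨Units.mk0 m hm0, hT⟩
  · rintro ⟨m, hm⟩
    apply Subtype.ext
    show psuSemi (rep hB d h₀).1 (rep hB d h₀).2 (RingEquiv.refl F) = 1
    rw [← psuSemi_one_refl]
    apply psuSemi_smul_eq' _ _ (c := c⁻¹ * φ m) (mul_ne_zero (inv_ne_zero hc) (by simp))
    have h3 : c • (((rep hB d h₀).1 : GG) : MM) = φ m • (1 : MM) := by
      rw [← e]
      have h4 : (h₀.1 : MK).map φ = φ m • (1 : MM) := by
        rw [hm]
        ext i j
        simp [Matrix.one_apply]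
        split_ifs <;> simp
      show (P : MM) * ((h₀.1 : MK).map φ) * ((P⁻¹ : GG) : MM) = _
      rw [h4, Matrix.mul_smul, Matrix.smul_mul, Matrix.mul_one, hPi']
    rw [Units.val_one, mul_smul, ← h3, smul_smul, inv_mul_cancel₀ hc, one_smul]

/-- The centraliser as a projective similitude group. -/
noncomputable def centProj (hB : Br q σ φ) (hg : g ∈ Cfsg.GU n F q) (d : DatP σ φ g g₀ P a l) :
    Cfsg.projQuot (Cfsg.Geo.similarityGroup (bf g₀) : Subgroup GK) ≃* ↥(Cfsg.inndiagPSU n F q ⊓ Subgroup.centralizer {psuSemi g hg σ}) :=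
  (QuotientGroup.quotientMulEquivOfEq (phi_ker hB hg d).symm).trans
    (QuotientGroup.quotientKerEquivOfSurjective (phi hB hg d) (phi_surjective hB hg d))

/-- The centraliser in the unitary setting and in the linear setting agree. -/
theorem cent_equiv (hB : Br q σ φ) (hg : g ∈ Cfsg.GU n F q) (d : Dat σ φ g g₀) :
    Nonempty (↥(Cfsg.inndiagPSU n F q ⊓ Subgroup.centralizer {psuSemi g hg σ}) ≃* ↥(Cfsg.inndiagPSL n K ⊓ Subgroup.centralizer {th g₀})) := by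
  obtain ⟨P, a, l, d⟩ := d
  obtain ⟨e⟩ := Cfsg.Agent.Lib.AutPSL.projQuot_of_eq (Cfsg.Agent.Lib.AutPSL.Chat_th_eq g₀)
  exact ⟨(centProj hB hg d).symm.trans (e.symm.trans (Cfsg.Agent.Lib.AutPSL.centEquivChat (th g₀)))⟩

end cent

section dat

variable [h : Good n q F] {σ : F ≃+* F} {φ : K →+* F}

omit h in
theorem sym_inv {L : Type*} [Field L] (g : GL (Fin n) L) {ε : L} (hε : ε ^ 2 = 1) (hs : (g : Matrix (Fin n) (Fin n) L) = ε • (g : Matrix (Fin n) (Fin n) L)ᵀ) :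
    ((g⁻¹ : GL (Fin n) L) : Matrix (Fin n) (Fin n) L) = ε • (((g⁻¹ : GL (Fin n) L) : Matrix (Fin n) (Fin n) L))ᵀ := by
  have h5 : (g : Matrix (Fin n) (Fin n) L)ᵀ = ε • (g : Matrix (Fin n) (Fin n) L) := by
    conv_rhs => rw [hs]
    rw [smul_smul, ← pow_two, hε, one_smul]
  rw [Cfsg.Agent.Lib.AutPSL.inv_transpose_eq hε h5, smul_smul, ← pow_two, hε, one_smul]

include h in
theorem exists_twist (hB : Br q σ φ) {c : F} (hc : c ^ 2 = 1) : ∃ a : F, a ≠ 0 ∧ σ a = c * a := by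
  have h1 : (c - 1) * (c + 1) = 0 := by linear_combination hc
  rcases mul_eq_zero.1 h1 with h2 | h2
  · refine ⟨1, one_ne_zero, ?_⟩
    rw [map_one, sub_eq_zero.1 h2, one_mul]
  · obtain ⟨s, hs0, hs⟩ := exists_s0 (n := n) (q := q) (F := F)
    refine ⟨s, hs0, ?_⟩
    rw [hB.hq, eq_neg_of_add_eq_zero_left h2]
    linear_combination hs

omit h in
theorem sig_form (hB2 : ∀ a, σ (σ a) = a) (P : GG) : (adj σ (P : MM) * (P : MM)).map σ = (P : MM)ᵀ * ((glMap σ P : GG) : MM) := by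
  rw [Matrix.map_mul, adj_map_self hB2, glMap_coe]

omit h in
theorem adj_twist (hB2 : ∀ a, σ (σ a) = a) (P : GG) (l : F) :
    adj σ (l • ((P * (glMap σ P)⁻¹ : GG) : MM)) * (l • ((P * (glMap σ P)⁻¹ : GG) : MM)) =
      (σ l * l) • (((P⁻¹ : GG) : MM)ᵀ * (adj σ (P : MM) * (P : MM)) * (((glMap σ P)⁻¹ : GG) : MM)) := by
  rw [adj_smul, Units.val_mul, adj_mul, adj_glMap_inv hB2, Matrix.smul_mul, Matrix.mul_smul, smul_smul]
  simp only [Matrix.mul_assoc]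

omit h in
theorem twist_cancel (P : GG) :
    ((P⁻¹ : GG) : MM)ᵀ * ((P : MM)ᵀ * ((glMap σ P : GG) : MM)) * (((glMap σ P)⁻¹ : GG) : MM) = 1 := by
  have h1 : ((P⁻¹ : GG) : MM)ᵀ * (P : MM)ᵀ = 1 := by
    rw [← Matrix.transpose_mul, ← Units.val_mul, mul_inv_cancel]
    simp
  have h2 : ((glMap σ P : GG) : MM) * (((glMap σ P)⁻¹ : GG) : MM) = 1 := by
    rw [← Units.val_mul, mul_inv_cancel]
    rfl
  calc _ = (((P⁻¹ : GG) : MM)ᵀ * (P : MM)ᵀ) * (((glMap σ P : GG) : MM) * (((glMap σ P)⁻¹ : GG) : MM)) := by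
        simp only [Matrix.mul_assoc]
    _ = 1 := by rw [h1, h2, Matrix.mul_one]

/-- Existence of a unitary semilinear map for each form. -/
theorem exists_dat (hB : Br q σ φ) (g₀ : GK) {ε : K} (hε : ε ^ 2 = 1) (hs : (g₀ : MK) = ε • (g₀ : MK)ᵀ) :
    ∃ (g : GG) (hg : g ∈ Cfsg.GU n F q), Dat σ φ g g₀ := by
  have hφε : (φ ε) ^ 2 = 1 := by rw [← map_pow, hε, map_one]
  have hφε' : φ ε * φ ε = 1 := by rw [← pow_two, hφε]
  have hφε0 : φ ε ≠ 0 := by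
    intro h0
    rw [h0] at hφε'
    simp at hφε'
  obtain ⟨a, ha, hσa⟩ := exists_twist (n := n) hB hφε
  have hσa0 : σ a ≠ 0 := by simpa using ha
  set S : MM := ((g₀⁻¹ : GK) : MK).map φ with hS
  have hST : Sᵀ = φ ε • S := by
    have h1 := sym_inv g₀ hε hs
    have h2 : (((g₀⁻¹ : GK) : MK))ᵀ = ε • ((g₀⁻¹ : GK) : MK) := by
      conv_rhs => rw [h1]
      rw [smul_smul, ← pow_two, hε, one_smul]
    rw [hS, ← Matrix.transpose_map, h2]
    ext i j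
    simp
  set ua : Fˣ := Units.mk0 a ha with hua
  set A : GG := Matrix.GeneralLinearGroup.scalar (Fin n) ua * Matrix.GeneralLinearGroup.map φ g₀⁻¹ with hA
  have hAc : (A : MM) = a • S := by
    rw [hA, Cfsg.Agent.Lib.AutPSL.coe_scalar_mul]
    rfl
  have hAadj : adj σ (A : MM) = A := by
    rw [hAc, adj_smul, adj_map_fix hB, ← hS, hST, smul_smul, hσa]
    congr 1
    linear_combination a * hφε'
  obtain ⟨w, hw⟩ := herm_eq σ hB.hne hB.h2 A hAadj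
  set P : GG := glT (glMap σ w) with hP
  have hPc : (P : MM) = adj σ (w : MM) := by
    rw [hP, glT_coe]
    rfl
  have hPadj : adj σ (P : MM) = w := by rw [hPc, adj_adj σ hB.h2]
  have hform : adj σ (P : MM) * (P : MM) = a • S := by rw [hPadj, hPc, ← hw, hAc]
  obtain ⟨l, hl⟩ := exists_nrmF_eq σ (by norm_num) hB.order (hB.fix ε)
  rw [nrmF_two σ hB.h2] at hl
  have hl0 : l ≠ 0 := by
    rintro rfl
    rw [zero_mul] at hl
    exact hφε0 hl.symm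
  set ul : Fˣ := Units.mk0 l hl0 with hul
  set g : GG := Matrix.GeneralLinearGroup.scalar (Fin n) ul * (P * (glMap σ P)⁻¹) with hg
  have hgc : (g : MM) = l • ((P * (glMap σ P)⁻¹ : GG) : MM) := by
    rw [hg, Cfsg.Agent.Lib.AutPSL.coe_scalar_mul]
    rfl
  have hS' : S = (σ a)⁻¹ • ((P : MM)ᵀ * ((glMap σ P : GG) : MM)) := by
    rw [← sig_form hB.h2, hform]
    have : (a • S).map σ = σ a • S.map σ := by
      ext i j
      simp
    rw [this, smul_smul, inv_mul_cancel₀ hσa0, one_smul, hS, map_map_fix hB]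
  have hmem : g ∈ Cfsg.GU n F q := by
    rw [mem_GU_iff σ hB.hq hB.h2, mul_eq_one_comm, hgc, adj_twist hB.h2, hform, hS']
    simp only [Matrix.mul_smul, Matrix.smul_mul, smul_smul]
    rw [twist_cancel]
    have e1 : σ l * l * (a * (σ a)⁻¹) = 1 := by
      rw [mul_comm (σ l), hl, hσa]
      field_simp
    rw [e1, one_smul]
  exact ⟨g, hmem, P, a, l, ⟨ha, hl0, hform, hgc⟩⟩

/-- An involutory semilinear map gives a form. -/
theorem exists_dat_of_sq (hB : Br q σ φ) [Nontrivial (Fin n)] {g : GG} (hg : g ∈ Cfsg.GU n F q) (hsq : psuSemi g hg σ ^ 2 = 1) :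
    ∃ g₀ : GK, Dat σ φ g g₀ ∧ ∃ ε : K, (g₀ : MK) = ε • (g₀ : MK)ᵀ ∧ ε ^ 2 = 1 := by
  rw [pow_two, psuSemi_mul] at hsq
  obtain ⟨-, c, hc0, hc⟩ := eq_one_imp _ hsq
  set G : MM := (g : MM) with hG
  set Gi : MM := ((g⁻¹ : GG) : MM) with hGi
  set R : MM := G.map σ with hR
  have hGR : G * R = c • (1 : MM) := hc
  have hGGi : G * Gi = 1 := by rw [hG, hGi, ← Units.val_mul, mul_inv_cancel]; rfl
  have hGiG : Gi * G = 1 := by rw [hG, hGi, ← Units.val_mul, inv_mul_cancel]; rfl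
  have hadj : G * Rᵀ = 1 := (mem_GU_iff σ hB.hq hB.h2).1 hg
  have hRT : Rᵀ = Gi := by
    calc Rᵀ = (Gi * G) * Rᵀ := by rw [hGiG, Matrix.one_mul]
      _ = Gi := by rw [Matrix.mul_assoc, hadj, Matrix.mul_one]
  have hRc : R = c • Gi := by
    calc R = (Gi * G) * R := by rw [hGiG, Matrix.one_mul]
      _ = c • Gi := by rw [Matrix.mul_assoc, hGR, Matrix.mul_smul, Matrix.mul_one]
  have h1 : Gi = c • Giᵀ := by
    calc Gi = Rᵀ := hRT.symm
      _ = (c • Gi)ᵀ := by rw [← hRc]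
      _ = c • Giᵀ := Matrix.transpose_smul _ _
  have hc2 : c ^ 2 = 1 := by
    have h2 : Giᵀ = c • Gi := by
      conv_lhs => rw [h1]
      rw [Matrix.transpose_smul, Matrix.transpose_transpose]
    have h3 : c ^ 2 • Gi = (1 : F) • Gi := by
      rw [one_smul, pow_two, mul_smul, ← h2, ← h1]
    exact smul_gl_eq g⁻¹ h3
  have hRG : R * G = c • (1 : MM) := by
    have h2 : (c⁻¹ • R) * G = 1 := by
      rw [hRc, smul_smul, inv_mul_cancel₀ hc0, one_smul, hGiG]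
    rw [Matrix.smul_mul] at h2
    have h3 := congrArg (fun M : MM => c • M) h2
    simpa only [smul_smul, mul_inv_cancel₀ hc0, one_smul] using h3
  have hσc : σ c = c := by
    have h2 := congrArg (fun M : MM => M.map σ) hGR
    simp only [Matrix.map_mul] at h2
    have h3 : R.map σ = G := by
      rw [hR]
      ext i j
      simp [hB.h2]
    rw [h3, hRG] at h2
    have h4 : ((c • (1 : MM)).map σ) = σ c • (1 : MM) := by
      ext i j
      simp [Matrix.one_apply]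
      split_ifs <;> simp
    rw [h4] at h2
    exact (smul_gl_eq (1 : GG) (by simpa using h2)).symm
  obtain ⟨l, hl⟩ := exists_nrmF_eq σ (by norm_num) hB.order hσc
  rw [nrmF_two σ hB.h2] at hl
  have hl0 : l ≠ 0 := by
    rintro rfl
    rw [zero_mul] at hl
    exact hc0 hl.symm
  have hσl0 : σ l ≠ 0 := by simpa using hl0
  set ul : Fˣ := Units.mk0 l hl0 with hul
  set g₁ : GG := Matrix.GeneralLinearGroup.scalar (Fin n) ul⁻¹ * g with hg₁
  have hg₁c : (g₁ : MM) = l⁻¹ • G := by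
    rw [hg₁, Cfsg.Agent.Lib.AutPSL.coe_scalar_mul]
    rfl
  have hnrm : nrm g₁ σ 2 = 1 := by
    have e1 : nrm g₁ σ 2 = g₁ * glMap σ g₁ := by
      simp [Cfsg.Agent.Lib.AutPSL.nrm]
    rw [e1]
    apply Units.ext
    rw [Units.val_mul, glMap_coe, hg₁c]
    have e2 : (l⁻¹ • G).map σ = (σ l)⁻¹ • R := by
      ext i j
      simp [hR]
    rw [e2, Matrix.smul_mul, Matrix.mul_smul, hGR, smul_smul, smul_smul]
    have e3 : l⁻¹ * ((σ l)⁻¹ * c) = 1 := by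
      rw [← hl]
      field_simp
    rw [mul_assoc, e3, one_smul]
    rfl
  obtain ⟨P, hP⟩ := exists_gl_of_nrm_one g₁ σ (by norm_num) hB.order hnrm
  have hGP : (g : MM) = l • ((P * (glMap σ P)⁻¹ : GG) : MM) := by
    rw [← hP, hg₁c, smul_smul, mul_inv_cancel₀ hl0, one_smul]
  set A : MM := adj σ (P : MM) * (P : MM) with hA
  have huu := adj_mul_self_of_mem hB hg
  rw [hGP, adj_twist hB.h2, mul_comm (σ l), hl] at huu
  have hσA : A.map σ = c • A := by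
    rw [sig_form hB.h2]
    have e1 : (P : MM)ᵀ * ((P⁻¹ : GG) : MM)ᵀ = 1 := by
      rw [← Matrix.transpose_mul, ← Units.val_mul, inv_mul_cancel]
      simp
    have e2 : (((glMap σ P)⁻¹ : GG) : MM) * ((glMap σ P : GG) : MM) = 1 := by
      rw [← Units.val_mul, inv_mul_cancel]
      rfl
    calc (P : MM)ᵀ * ((glMap σ P : GG) : MM) = (P : MM)ᵀ * (c • (((P⁻¹ : GG) : MM)ᵀ * A * (((glMap σ P)⁻¹ : GG) : MM))) * ((glMap σ P : GG) : MM) := by
          rw [huu, Matrix.mul_one]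
      _ = c • (((P : MM)ᵀ * ((P⁻¹ : GG) : MM)ᵀ) * A * ((((glMap σ P)⁻¹ : GG) : MM) * ((glMap σ P : GG) : MM))) := by
          simp only [Matrix.mul_smul, Matrix.smul_mul, Matrix.mul_assoc]
      _ = c • A := by rw [e1, e2, Matrix.one_mul, Matrix.mul_one]
  obtain ⟨a, ha, hσa⟩ := exists_twist (n := n) hB hc2
  have hσa0 : σ a ≠ 0 := by simpa using ha
  set ua : Fˣ := Units.mk0 a ha with hua
  set BG : GG := Matrix.GeneralLinearGroup.scalar (Fin n) ua⁻¹ * (glT (glMap σ P) * P) with hBG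
  have hBGc : (BG : MM) = a⁻¹ • A := by
    rw [hBG, Cfsg.Agent.Lib.AutPSL.coe_scalar_mul]
    show a⁻¹ • (((glT (glMap σ P) : GG) : MM) * (P : MM)) = _
    rw [glT_coe]
    rfl
  have hfix : (BG : MM).map σ = (BG : MM) := by
    rw [hBGc]
    have e1 : (a⁻¹ • A).map σ = (σ a)⁻¹ • A.map σ := by
      ext i j
      simp
    rw [e1, hσA, smul_smul, hσa]
    congr 1
    field_simp
  obtain ⟨S₀, hS₀⟩ := exists_GL_fixed_gen σ φ hB.ex BG hfix
  have hS₀c : (S₀ : MK).map φ = a⁻¹ • A := by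
    rw [← hBGc, ← hS₀]
    rfl
  have hform : adj σ (P : MM) * (P : MM) = a • (((S₀⁻¹)⁻¹ : GK) : MK).map φ := by
    rw [inv_inv, hS₀c, smul_smul, mul_inv_cancel₀ ha, one_smul]
  obtain ⟨ε, hε⟩ := hB.ex c hσc
  have hε2 : ε ^ 2 = 1 := by
    apply φ.injective
    rw [map_pow, hε, hc2, map_one]
  refine ⟨S₀⁻¹, ⟨P, a, l, ⟨ha, hl0, hform, hGP⟩⟩, ε, ?_, hε2⟩
  apply sym_inv S₀ hε2
  have hAadj : adj σ A = A := by
    rw [hA, adj_mul, adj_adj σ hB.h2]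
  have hAc : A = c • Aᵀ := by
    have e1 : adj σ A = (A.map σ)ᵀ := rfl
    rw [hσA, Matrix.transpose_smul, hAadj] at e1
    exact e1
  have hBs : (S₀ : MK).map φ = φ ε • ((S₀ : MK)ᵀ).map φ := by
    rw [Matrix.transpose_map, hS₀c, hε, Matrix.transpose_smul, smul_smul, mul_comm, ← smul_smul, ← hAc]
  apply Matrix.map_injective φ.injective
  show (S₀ : MK).map φ = (ε • (S₀ : MK)ᵀ).map φ
  rw [hBs]
  ext i j
  simp

end dat

section setup

variable [h : Good n q F] {σ : F ≃+* F} {φ : K →+* F}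

omit h in
theorem frobE_mul_self (hF : Fintype.card F = q ^ 2) : frobE hF * frobE hF = 1 := by
  ext x
  show frobE hF (frobE hF x) = x
  rw [frobE_apply, frobE_apply, pow_q_pow_q hF]

omit h in
theorem frobE_ne_one (hF : Fintype.card F = q ^ 2) : frobE hF ≠ RingEquiv.refl F := by
  intro e
  apply frobQ_ne_id hF
  ext x
  have := congrArg (fun τ : F ≃+* F => τ x) e
  simp only [frobE_apply] at this
  rw [frobQ_apply, this]
  rfl

omit h in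
/-- `frobE` is the unique involution of `F`. -/
theorem unique_invol (hF : Fintype.card F = q ^ 2) {τ : F ≃+* F} (hτ : τ * τ = 1) (hne : τ ≠ 1) : τ = frobE hF := by
  classical
  obtain ⟨f, hp, hf⟩ := FiniteField.card F (ringChar F)
  haveI : Fact (ringChar F).Prime := ⟨hp⟩
  have hcyc := (Cfsg.Agent.Lib.AutPSL.card_gal (F := F) (p := ringChar F) (f := f) f.pos hf).1
  haveI : Finite (F ≃+* F) := Finite.of_injective (fun s : F ≃+* F => (s : F → F)) DFunLike.coe_injective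
  letI := Fintype.ofFinite (F ≃+* F)
  by_contra hτf
  have h1 := IsCyclic.card_pow_eq_one_le (α := F ≃+* F) (n := 2) (by norm_num)
  have hf1 : frobE hF ≠ 1 := frobE_ne_one hF
  have h2 : ({1, τ, frobE hF} : Finset (F ≃+* F)) ⊆ Finset.univ.filter (fun a : F ≃+* F => a ^ 2 = 1) := by
    intro x hx
    simp only [Finset.mem_insert, Finset.mem_singleton] at hx
    simp only [Finset.mem_filter, Finset.mem_univ, true_and]
    rcases hx with rfl | rfl | rfl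
    · simp
    · rw [pow_two, hτ]
    · rw [pow_two, frobE_mul_self]
  have h3 := Finset.card_le_card h2
  have h4 : ({1, τ, frobE hF} : Finset (F ≃+* F)).card = 3 := by
    rw [Finset.card_insert_of_notMem, Finset.card_pair hτf]
    simp only [Finset.mem_insert, Finset.mem_singleton, not_or]
    exact ⟨hne.symm, hf1.symm⟩
  omega

omit h in
/-- The standard setup. -/
theorem exists_br (hF : Fintype.card F = q ^ 2) (K : Type*) [Field K] [Fintype K] (hK : Fintype.card K = q) :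
    ∃ φ : K →+* F, Br q (frobE hF) φ := by
  classical
  have hq2 := two_le_q hF
  have h2 : orderOf (frobE hF) = 2 := by
    apply orderOf_eq_prime
    · rw [pow_two, frobE_mul_self]
    · exact frobE_ne_one hF
  have hK1 : Nat.card (fixedField (frobE hF)) = q := card_fixedField (by norm_num) hF _ h2
  have : Fintype (fixedField (frobE hF)) := Fintype.ofFinite _
  have e₀ : K ≃+* fixedField (frobE hF) := FiniteField.ringEquivOfCardEq (by
    rw [hK, ← Nat.card_eq_fintype_card, hK1])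
  refine ⟨(fixedField (frobE hF)).subtype.comp (e₀ : K →+* fixedField (frobE hF)), ?_⟩
  refine ⟨frobE_apply hF, fun a => ?_, frobE_ne_one hF, fun b => mem_fixedField.1 (e₀ b).2, fun a ha => ⟨e₀.symm ⟨a, mem_fixedField.2 ha⟩, ?_⟩⟩
  · rw [frobE_apply, frobE_apply, pow_q_pow_q hF]
  · show ((e₀ (e₀.symm ⟨a, mem_fixedField.2 ha⟩) : fixedField (frobE hF)) : F) = a
    rw [e₀.apply_symm_apply]

/-- Semilinear maps attached to data are involutions. -/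
theorem psi_sq (hB : Br q σ φ) {g : GG} (hg : g ∈ Cfsg.GU n F q) {g₀ : GK} (d : Dat σ φ g g₀) : psuSemi g hg σ ^ 2 = 1 := by
  obtain ⟨P, a, l, d⟩ := d
  rw [pow_two, psuSemi_mul]
  have hl0 := d.hl
  have hσl0 : σ l ≠ 0 := by simpa using hl0
  have e1 : (σ.trans σ) = RingEquiv.refl F := by
    ext x
    exact hB.h2 x
  rw [← psuSemi_one_refl]
  have e2 : psuSemi (g * glMap σ g) (gMul_mem hg hg σ) (σ.trans σ) = psuSemi (g * glMap σ g) (gMul_mem hg hg σ) (RingEquiv.refl F) :=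
    psuSemi_congr _ _ rfl e1
  rw [e2]
  apply psuSemi_smul_eq' _ _ (c := l * σ l) (mul_ne_zero hl0 hσl0)
  have e3 := glMap_smul σ (A := g) (B := P * (glMap σ P)⁻¹) d.hg
  rw [Units.val_mul, e3, d.hg, Matrix.smul_mul, Matrix.mul_smul, smul_smul]
  congr 1
  have e4 : (glMap σ (glMap σ P) : GG) = P := by
    apply Units.ext
    rw [glMap_coe, glMap_coe]
    ext i j
    simp [hB.h2]
  have e5 : P * (glMap σ P)⁻¹ * glMap σ (P * (glMap σ P)⁻¹) = 1 := by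
    rw [map_mul, map_inv, e4]
    group
  rw [← Units.val_mul, e5]

theorem psi_ne_one (hB : Br q σ φ) {g : GG} (hg : g ∈ Cfsg.GU n F q) : psuSemi g hg σ ≠ 1 := by
  intro e
  exact hB.hne (eq_one_imp hg e).1

theorem orderOf_psi (hB : Br q σ φ) {g : GG} (hg : g ∈ Cfsg.GU n F q) {g₀ : GK} (d : Dat σ φ g g₀) : orderOf (psuSemi g hg σ) = 2 :=
  orderOf_eq_prime (psi_sq hB hg d) (psi_ne_one hB hg)

theorem psi_isGraph (hB : Br q σ φ) {g : GG} (hg : g ∈ Cfsg.GU n F q) : Cfsg.IsGraphAutClassPSU (psuSemi g hg σ) := by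
  refine ⟨h.hn, psuSemi g hg (RingEquiv.refl F), psuSemi 1 one_mem_GU σ, σ, ?_, psuSemi_innerDiag hg, psuSemi_fieldAut σ, ?_⟩
  · rw [hB.order]
    exact even_two
  · rw [psuSemi_refl_mul]
    exact psuSemi_congr _ _ (mul_one g).symm rfl

/-- Any involutory graph automorphism has a standard form. -/
theorem step0 {β : MulAut (Cfsg.PSU n F q)} (hβ : Cfsg.IsGraphAutClassPSU β) (h2 : orderOf β = 2) :
    ∃ (g : GG) (hg : g ∈ Cfsg.GU n F q), β = psuSemi g hg (frobE h.hF) := by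
  obtain ⟨-, δ, φ₁, τ, hτ, hδ, hφ₁, rfl⟩ := hβ
  obtain ⟨g, hg, rfl⟩ := innerDiag_eq hδ
  rw [fieldAut_eq hφ₁, psuSemi_refl_mul] at h2 ⊢
  have hsq : (psuSemi (g * 1) (Subgroup.mul_mem _ hg one_mem_GU) τ) ^ 2 = 1 := by
    rw [← h2]
    exact pow_orderOf_eq_one _
  rw [pow_two, psuSemi_mul] at hsq
  have e1 := (eq_one_imp _ hsq).1
  have hττ : τ * τ = 1 := by
    ext x
    exact congrArg (fun f : F ≃+* F => f x) e1
  have hne : τ ≠ 1 := by
    rintro rfl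
    simp at hτ
  have hτ' := unique_invol h.hF hττ hne
  subst hτ'
  exact ⟨_, _, rfl⟩

end setup

section corr

variable [h : Good n q F] {σ : F ≃+* F} {φ : K →+* F}

/-- Correspondence of involutory graph automorphisms. -/
def Corr (σ : F ≃+* F) (φ : K →+* F) (β : MulAut (Cfsg.PSU n F q)) (γ : MulAut (Cfsg.Agent.Lib.AutPSL.PS (Fin n) K)) : Prop :=
  ∃ (g : GG) (hg : g ∈ Cfsg.GU n F q) (g₀ : GK), β = psuSemi g hg σ ∧ γ = th g₀ ∧ Dat σ φ g g₀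

theorem Corr.conj [Nontrivial (Fin n)] (hB : Br q σ φ) {β β' : MulAut (Cfsg.PSU n F q)} {γ γ' : MulAut (Cfsg.Agent.Lib.AutPSL.PS (Fin n) K)}
    (c : Corr σ φ β γ) (c' : Corr σ φ β' γ') :
    Cfsg.IsConjUnder (Cfsg.inndiagPSU n F q) β β' ↔ Cfsg.IsConjUnder (Cfsg.inndiagPSL n K) γ γ' := by
  obtain ⟨g, hg, g₀, rfl, rfl, d⟩ := c
  obtain ⟨g', hg', g₀', rfl, rfl, d'⟩ := c'
  exact conj_iff hB hg hg' d d'

theorem Corr.cent [Nontrivial (Fin n)] (hB : Br q σ φ) {β : MulAut (Cfsg.PSU n F q)} {γ : MulAut (Cfsg.Agent.Lib.AutPSL.PS (Fin n) K)}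
    (c : Corr σ φ β γ) :
    Nonempty (↥(Cfsg.inndiagPSU n F q ⊓ Subgroup.centralizer {β}) ≃* ↥(Cfsg.inndiagPSL n K ⊓ Subgroup.centralizer {γ})) := by
  obtain ⟨g, hg, g₀, rfl, rfl, d⟩ := c
  exact cent_equiv hB hg d

/-- Every involutory graph automorphism of `PSL` corresponds to one of `PSU`. -/
theorem exists_corr_of_psl (hB : Br q σ φ) {γ : MulAut (Cfsg.Agent.Lib.AutPSL.PS (Fin n) K)} (hγ : Cfsg.IsGraphAutClassPSL γ) (h2 : orderOf γ = 2) :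
    ∃ β : MulAut (Cfsg.PSU n F q), Cfsg.IsGraphAutClassPSU β ∧ orderOf β = 2 ∧ Corr σ φ β γ := by
  obtain ⟨g₀, rfl⟩ := Cfsg.Agent.Lib.AutPSL.graph_eq_th hγ
  obtain ⟨ε, hs, hε⟩ := (Cfsg.Agent.Lib.AutPSL.orderOf_th_iff h.hn g₀).1 h2
  obtain ⟨g, hg, d⟩ := exists_dat hB g₀ hε hs
  exact ⟨psuSemi g hg σ, psi_isGraph hB hg, orderOf_psi hB hg d, g, hg, g₀, rfl, rfl, d⟩

/-- Every involutory graph automorphism of `PSU` corresponds to one of `PSL`. -/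
theorem exists_corr_of_psu (hB : Br q (frobE h.hF) φ) {β : MulAut (Cfsg.PSU n F q)} (hβ : Cfsg.IsGraphAutClassPSU β) (h2 : orderOf β = 2) :
    ∃ γ : MulAut (Cfsg.Agent.Lib.AutPSL.PS (Fin n) K), Cfsg.IsGraphAutClassPSL γ ∧ orderOf γ = 2 ∧ Corr (frobE h.hF) φ β γ := by
  haveI : Nontrivial (Fin n) := Fin.nontrivial_iff_two_le.2 (by have := h.hn; omega)
  obtain ⟨g, hg, rfl⟩ := step0 hβ h2
  have hsq : psuSemi g hg (frobE h.hF) ^ 2 = 1 := by
    rw [← h2]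
    exact pow_orderOf_eq_one _
  obtain ⟨g₀, d, ε, hs, hε⟩ := exists_dat_of_sq hB hg hsq
  refine ⟨th g₀, Cfsg.Agent.Lib.AutPSL.th_isGraph h.hn g₀, (Cfsg.Agent.Lib.AutPSL.orderOf_th_iff h.hn g₀).2 ⟨ε, hs, hε⟩, g, hg, g₀, rfl, rfl, d⟩

end corr

end Cfsg.Agent.Lib.AutPSU
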