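import Cfsg.Agent.Lib.AutPSU.GraphBridge

/-! Splitting of the inner-diagonal classes of involutory graph automorphisms of `PSU_n(q)`. -/

set_option autoImplicit false
set_option linter.unusedSimpArgs false
set_option linter.unusedVariables false
set_option linter.unusedSectionVars false
set_option linter.style.haveILetI false

namespace Cfsg.Agent.Lib.AutPSU

open Matrix MulAction Cfsg.Agent.Lib.Classical Cfsg.Agent.Lib.FieldAut
open Cfsg.Agent.Lib.AutPSp (exists_GL_fixed_gen)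
open Cfsg.Agent.Lib.AutPSL (adj adj_apply adj_mul adj_adj adj_smul adj_one adj_inv_mul glMap glMap_coe nrm nrmF nrmF_succ exists_gl_of_nrm_one exists_nrmF_eq exists_of_nrmF_one exists_unitary_of_similitude mem_GU_iff herm_eq th bf dot_mul_mul glT glT_coe det_sim units_sq_eq)
open scoped MatrixGroups

variable {F : Type*} [Field F] [Fintype F] {q n : ℕ} {K : Type*} [Field K]

local notation "MM" => Matrix (Fin n) (Fin n) F
local notation "GG" => GL (Fin n) F
local notation "MK" => Matrix (Fin n) (Fin n) K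
local notation "GK" => GL (Fin n) K

/-! ### `K`-level facts on similitudes -/

section Klevel

/-- Similitudes of alternating forms: the determinant is a power of the multiplier. -/
theorem det_alt_sim {m : ℕ} (hnm : n = 2 * m) {g : GK} (hA : ∀ x, bf g x x = 0) {h : GK} {c : Kˣ}
    (hc : ∀ u v, bf g ((h : MK) *ᵥ u) ((h : MK) *ᵥ v) = (c : K) * bf g u v) :
    Matrix.GeneralLinearGroup.det h = c ^ m := by
  open Cfsg.Agent.Lib.AutPSL in
  obtain ⟨L, hL⟩ := alt_type hnm hA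
  open Cfsg.Agent.Lib.AutPSL in
  rw [← det_glConj L h, ← det_Dc (m := m) c]
  open Cfsg.Agent.Lib.AutPSL in
  set h' := glConj L h with hh'
  have hsim : ∀ u v, Cfsg.sympForm m K ((h' : Matrix (Fin m ⊕ Fin m) (Fin m ⊕ Fin m) K) *ᵥ u) ((h' : Matrix (Fin m ⊕ Fin m) (Fin m ⊕ Fin m) K) *ᵥ v) =
      (c : K) * Cfsg.sympForm m K u v := by
    intro u v
    obtain ⟨u, rfl⟩ := L.surjective u
    obtain ⟨v, rfl⟩ := L.surjective v
    rw [hh', Cfsg.Agent.Lib.AutPSL.glConj_mulVec', Cfsg.Agent.Lib.AutPSL.glConj_mulVec', hL, hL, hc]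
  set A : GL (Fin m ⊕ Fin m) K := (Cfsg.Agent.Lib.AutPSL.Dc c)⁻¹ * h' with hA'
  have hAs : (A : Matrix (Fin m ⊕ Fin m) (Fin m ⊕ Fin m) K) ∈ Matrix.symplecticGroup (Fin m) K := by
    apply mem_sp_of_preserves
    intro u v
    have hD : ∀ w, ((Cfsg.Agent.Lib.AutPSL.Dc c : GL (Fin m ⊕ Fin m) K) : Matrix (Fin m ⊕ Fin m) (Fin m ⊕ Fin m) K) *ᵥ ((A : Matrix (Fin m ⊕ Fin m) (Fin m ⊕ Fin m) K) *ᵥ w) =
        (h' : Matrix (Fin m ⊕ Fin m) (Fin m ⊕ Fin m) K) *ᵥ w := by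
      intro w
      rw [Matrix.mulVec_mulVec, ← Units.val_mul, hA', mul_inv_cancel_left]
    have h1 := Cfsg.Agent.Lib.AutPSL.Dc_sim c ((A : Matrix (Fin m ⊕ Fin m) (Fin m ⊕ Fin m) K) *ᵥ u) ((A : Matrix (Fin m ⊕ Fin m) (Fin m ⊕ Fin m) K) *ᵥ v)
    rw [hD, hD, hsim] at h1
    exact (mul_left_cancel₀ c.ne_zero h1).symm
  have hdet : Matrix.GeneralLinearGroup.det A = 1 := by
    apply Units.ext
    exact Cfsg.Agent.Lib.AutPSL.det_sp ⟨_, hAs⟩
  rw [hA', map_mul, map_inv] at hdet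
  exact inv_mul_eq_one.1 hdet |>.symm

/-- Existence of similitudes of alternating forms. -/
theorem exists_alt_sim {m : ℕ} (hnm : n = 2 * m) {g : GK} (hA : ∀ x, bf g x x = 0) (a : Kˣ) :
    ∃ h : GK, (∀ u v, bf g ((h : MK) *ᵥ u) ((h : MK) *ᵥ v) = (a : K) * bf g u v) ∧ Matrix.GeneralLinearGroup.det h = a ^ m := by
  obtain ⟨L, hL⟩ := Cfsg.Agent.Lib.AutPSL.alt_type hnm hA
  refine ⟨(Cfsg.Agent.Lib.AutPSL.glConj L).symm (Cfsg.Agent.Lib.AutPSL.Dc a), ?_, ?_⟩
  · intro u v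
    have e : ∀ w, L ((((Cfsg.Agent.Lib.AutPSL.glConj L).symm (Cfsg.Agent.Lib.AutPSL.Dc a) : GK) : MK) *ᵥ w) =
        ((Cfsg.Agent.Lib.AutPSL.Dc a : GL (Fin m ⊕ Fin m) K) : Matrix (Fin m ⊕ Fin m) (Fin m ⊕ Fin m) K) *ᵥ L w := by
      intro w
      rw [← Cfsg.Agent.Lib.AutPSL.glConj_mulVec', MulEquiv.apply_symm_apply]
    rw [← hL, e, e, Cfsg.Agent.Lib.AutPSL.Dc_sim, hL]
  · rw [← Cfsg.Agent.Lib.AutPSL.det_Dc (m := m) a, ← Cfsg.Agent.Lib.AutPSL.det_glConj L, MulEquiv.apply_symm_apply]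

/-- Existence of similitudes of symmetric forms. -/
theorem exists_sym_sim [Finite K] (h2 : (2 : K) ≠ 0) {m : ℕ} (hm : 1 ≤ m) (hnm : n = 2 * m) {g : GK} (hg : (g : MK)ᵀ = g) (c : Kˣ) :
    ∃ h : GK, ∀ u v, bf g ((h : MK) *ᵥ u) ((h : MK) *ᵥ v) = (c : K) * bf g u v := by
  obtain ⟨L, hL⟩ := Cfsg.Agent.Lib.Quad.exists_similarity (m := m) hm (V := Fin n → K) (by simp [hnm]) (Cfsg.Agent.Lib.AutPSL.qOf g) (Cfsg.Agent.Lib.AutPSL.qOf_nondeg h2 hg) c.ne_zero
  have hsim : ∀ u v, bf g (L u) (L v) = (c : K) * bf g u v := by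
    apply Cfsg.Agent.Lib.AutPSL.bf_of_quad h2 hg hg (L : (Fin n → K) →ₗ[K] (Fin n → K))
    intro v
    have := hL v
    simpa using this
  exact ⟨Cfsg.Agent.Lib.ClassMax.glOfEquiv L, fun u v => by rw [Cfsg.Agent.Lib.ClassMax.glOfEquiv_mulVec, Cfsg.Agent.Lib.ClassMax.glOfEquiv_mulVec, hsim]⟩

end Klevel

/-! ### The determinant group -/

section W

variable [h : Good n q F] {σ : F ≃+* F} {φ : K →+* F} [Nontrivial (Fin n)] {g : GL (Fin n) F} {g₀ : GL (Fin n) K} {P : GL (Fin n) F} {a l : F}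

/-- The determinants of the elements commuting with `x₀`. -/
noncomputable def Wu (x₀ : MulAut (Cfsg.PSU n F q)) : Subgroup (muN F q) :=
  ((Subgroup.centralizer {x₀}).comap (guAut (n := n) (F := F) (q := q))).map (detU (n := n) (F := F) (q := q))

omit h [Nontrivial (Fin n)] in
theorem det_conj_map (φ : K →+* F) (P : GG) (h₀ : GK) :
    ((P * Matrix.GeneralLinearGroup.map φ h₀ * P⁻¹ : GG) : MM).det = φ ((h₀ : MK).det) := by
  have h1 : ((P * Matrix.GeneralLinearGroup.map φ h₀ * P⁻¹ : GG) : MM) = (P : MM) * ((h₀ : MK).map φ) * ((P⁻¹ : GG) : MM) := rfl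
  rw [h1, Matrix.det_mul, Matrix.det_mul]
  have h2 : (P : MM).det * ((P⁻¹ : GG) : MM).det = 1 := by
    rw [← Matrix.det_mul, ← Units.val_mul, mul_inv_cancel]
    simp
  have h3 : ((h₀ : MK).map φ).det = φ ((h₀ : MK).det) := (φ.map_det _).symm
  rw [h3]
  linear_combination φ ((h₀ : MK).det) * h2

theorem Wu_imp (hB : Br q σ φ) (hg : g ∈ Cfsg.GU n F q) (d : DatP σ φ g g₀ P a l) {x : muN F q} (hx : x ∈ Wu (psuSemi g hg σ)) :
    ∃ (ν : F) (h₀ : GK) (m : Kˣ), ν ≠ 0 ∧ (∀ u v, bf g₀ ((h₀ : MK) *ᵥ u) ((h₀ : MK) *ᵥ v) = (m : K) * bf g₀ u v) ∧ σ ν * ν * φ m = 1 ∧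
      ((x.1 : Fˣ) : F) = ν ^ n * φ ((h₀ : MK).det) := by
  obtain ⟨t, ht, rfl⟩ := hx
  have ht' : psuSemi t.1 t.2 (RingEquiv.refl F) ∈ Subgroup.centralizer {psuSemi g hg σ} := ht
  rw [Subgroup.mem_centralizer_singleton_iff, ← mul_inv_eq_iff_eq_mul, psuSemi_conj t.2 hg σ (twist_mem t.2 hg σ)] at ht'
  obtain ⟨-, κ, hκ, e⟩ := psuSemi_inj' _ _ ht'
  obtain ⟨ν, h₀, m, hν, hm, hu, hs⟩ := descent_u hB d d t.2 hκ e
  have hX := adj_X hB d d h₀ hs
  have huu := adj_mul_self_of_mem hB t.2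
  rw [hu, adj_smul, Matrix.smul_mul, Matrix.mul_smul, hX, smul_smul, smul_smul] at huu
  have hN : σ ν * ν * φ m = 1 := by
    have e1 : σ ν * ν * (a * φ m * a⁻¹) = σ ν * ν * φ m := by
      have := d.ha
      field_simp
    rw [e1] at huu
    have e2 : (σ ν * ν * φ m) • (1 : MM) = (1 : F) • ((1 : GG) : MM) := by
      rw [huu, one_smul]
      rfl
    exact smul_gl_eq (1 : GG) e2
  refine ⟨ν, h₀, Units.mk0 m hm, hν, (bf_iff_mat _ _ _ _).2 hs, hN, ?_⟩
  show ((t.1 : GG) : MM).det = _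
  rw [hu, Matrix.det_smul, Fintype.card_fin, det_conj_map]

theorem imp_Wu (hB : Br q σ φ) (hg : g ∈ Cfsg.GU n F q) (d : DatP σ φ g g₀ P a l) {ν : F} (hν : ν ≠ 0) (h₀ : GK) (m : Kˣ)
    (hs : ∀ u v, bf g₀ ((h₀ : MK) *ᵥ u) ((h₀ : MK) *ᵥ v) = (m : K) * bf g₀ u v) (hN : σ ν * ν * φ m = 1) {x : muN F q}
    (hx : ((x.1 : Fˣ) : F) = ν ^ n * φ ((h₀ : MK).det)) : x ∈ Wu (psuSemi g hg σ) := by
  have hs' := (bf_iff_mat _ _ _ _).1 hs
  have hX := adj_X hB d d h₀ hs'
  set X : GG := P * Matrix.GeneralLinearGroup.map φ h₀ * P⁻¹ with hXd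
  set νu : Fˣ := Units.mk0 ν hν with hνu
  set t : GG := Matrix.GeneralLinearGroup.scalar (Fin n) νu * X with ht
  have htc : (t : MM) = ν • (X : MM) := by
    rw [ht, Cfsg.Agent.Lib.AutPSL.coe_scalar_mul]
    rfl
  have hmem : t ∈ Cfsg.GU n F q := by
    rw [mem_GU_iff σ hB.hq hB.h2, mul_eq_one_comm, htc, adj_smul, Matrix.smul_mul, Matrix.mul_smul, hX, smul_smul, smul_smul]
    have e1 : σ ν * ν * (a * φ m * a⁻¹) = σ ν * ν * φ m := by
      have := d.ha
      field_simp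
    rw [e1, hN, one_smul]
  have hXt : (X : MM) = ν⁻¹ • (t : MM) := by
    rw [htc, smul_smul, inv_mul_cancel₀ hν, one_smul]
  obtain ⟨κ, hκ, e⟩ := twist_of_smul hB d d h₀ (inv_ne_zero hν) hXt
  refine ⟨⟨t, hmem⟩, ?_, ?_⟩
  · show psuSemi t hmem (RingEquiv.refl F) ∈ Subgroup.centralizer {psuSemi g hg σ}
    rw [Subgroup.mem_centralizer_singleton_iff, ← mul_inv_eq_iff_eq_mul, psuSemi_conj hmem hg σ (twist_mem hmem hg σ)]
    exact (psuSemi_smul_eq' _ _ hκ e).symm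
  · apply Subtype.ext
    apply Units.ext
    rw [detU_val, hx, htc, Matrix.det_smul, Fintype.card_fin, hXd, det_conj_map]

omit h [Nontrivial (Fin n)] in
/-- Norm-one scalars. -/
theorem mem_muN_of (hB : Br q σ φ) {w : F} (hw : w * σ w = 1) : ∃ x : muN F q, ((x.1 : Fˣ) : F) = w := by
  have hw0 : w ≠ 0 := by
    rintro rfl
    rw [zero_mul] at hw
    exact zero_ne_one hw
  refine ⟨⟨Units.mk0 w hw0, ?_⟩, rfl⟩
  rw [muN, MonoidHom.mem_ker]
  apply Units.ext
  show w ^ (q + 1) = 1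
  rw [pow_succ, mul_comm, ← hB.hq, hw]

omit h [Nontrivial (Fin n)] in
theorem muN_norm (hB : Br q σ φ) (x : muN F q) : ((x.1 : Fˣ) : F) * σ ((x.1 : Fˣ) : F) = 1 := by
  rw [hB.hq, ← pow_succ']
  exact muN_val x

/-- The generic case. -/
theorem Wu_generic [Finite K] (hB : Br q σ φ) (hg : g ∈ Cfsg.GU n F q) (d : DatP σ φ g g₀ P a l) (hA : Odd n ∨ (2 : K) = 0) :
    Wu (psuSemi g hg σ) = (powMonoidHom n : muN F q →* muN F q).range := by
  apply le_antisymm
  · intro x hx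
    obtain ⟨ν, h₀, m, hν, hs, hN, hx'⟩ := Wu_imp hB hg d hx
    have hd := det_sim hs
    have hkey : ∃ b : Kˣ, b ^ 2 = m ∧ (Matrix.GeneralLinearGroup.det h₀ = b ^ n ∨ (Odd n ∧ Matrix.GeneralLinearGroup.det h₀ = -(b ^ n))) := by
      rcases hA with hodd | h2
      · obtain ⟨k, hk⟩ := id hodd
        set D := Matrix.GeneralLinearGroup.det h₀ with hD
        have hb : (m ^ (k + 1) * D⁻¹) ^ 2 = m := by
          rw [mul_pow, inv_pow, hd, hk, ← pow_mul]
          have : (k + 1) * 2 = (2 * k + 1) + 1 := by ring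
          rw [this, pow_succ]
          group
        refine ⟨m ^ (k + 1) * D⁻¹, hb, ?_⟩
        have h1 : D ^ 2 = ((m ^ (k + 1) * D⁻¹) ^ n) ^ 2 := by
          rw [hd, ← pow_mul, mul_comm n 2, pow_mul, hb]
        rcases units_sq_eq h1 with h3 | h3
        · exact Or.inl h3
        · exact Or.inr ⟨hodd, h3⟩
      · have : CharP K 2 := CharTwo.of_one_ne_zero_of_two_eq_zero one_ne_zero h2
        obtain ⟨b, hb⟩ := Cfsg.Agent.Lib.AutPSL.exists_sqrt_two (m : K)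
        have hb0 : b ≠ 0 := by
          rintro rfl
          apply m.ne_zero
          rw [← hb]
          simp
        refine ⟨Units.mk0 b hb0, Units.ext hb, Or.inl ?_⟩
        apply Units.ext
        apply Cfsg.Agent.Lib.AutPSL.sq_inj_two
        rw [← Units.val_pow_eq_pow_val, hd, Units.val_pow_eq_pow_val, Units.val_pow_eq_pow_val, ← hb, ← pow_mul, ← pow_mul, mul_comm]
        rfl
    obtain ⟨b, hb, hdb⟩ := hkey
    have hb' : φ (b : K) * φ (b : K) = φ (m : K) := by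
      rw [← map_mul, ← pow_two, ← Units.val_pow_eq_pow_val, hb]
    set w : F := ν * φ (b : K) with hw
    have hwN : w * σ w = 1 := by
      rw [hw, map_mul, hB.fix, ← hN, ← hb']
      ring
    have hneg : (-w) * σ (-w) = 1 := by
      rw [map_neg, neg_mul_neg, hwN]
    rcases hdb with h1 | ⟨hodd, h1⟩
    · obtain ⟨y, hy⟩ := mem_muN_of hB hwN
      refine ⟨y, ?_⟩
      apply Subtype.ext
      apply Units.ext
      show ((y.1 : Fˣ) : F) ^ n = _
      rw [hy, hx', hw, mul_pow, ← map_pow]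
      congr 2
      have := congrArg Units.val h1
      rw [Units.val_pow_eq_pow_val] at this
      exact this.symm
    · obtain ⟨y, hy⟩ := mem_muN_of hB hneg
      refine ⟨y, ?_⟩
      apply Subtype.ext
      apply Units.ext
      show ((y.1 : Fˣ) : F) ^ n = _
      rw [hy, hx', hw, hodd.neg_pow, mul_pow, ← map_pow, ← mul_neg, ← map_neg]
      congr 2
      have := congrArg Units.val h1
      rw [Units.val_neg, Units.val_pow_eq_pow_val] at this
      exact this.symm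
  · rintro _ ⟨t, rfl⟩
    refine ⟨guScal t 1, ?_, ?_⟩
    · show guAut (guScal t 1) ∈ Subgroup.centralizer {psuSemi g hg σ}
      have h1 : guAut (guScal t (1 : Cfsg.GU n F q)) = 1 := by
        rw [guAut_apply, ← psuSemi_one_refl]
        exact psuSemi_smul_eq' _ _ (c := ((t.1 : Fˣ) : F)) t.1.ne_zero (guScal_one_coe t)
      rw [h1]
      exact Subgroup.one_mem _
    · apply Subtype.ext
      apply Units.ext
      rw [detU_val, guScal_one_coe, Matrix.det_smul, Matrix.det_one, mul_one, Fintype.card_fin]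
      rfl

omit h [Nontrivial (Fin n)] in
/-- Hilbert 90 in the form needed. -/
theorem h90_mu (hB : Br q σ φ) (x : muN F q) :
    ∃ (ν : F) (m : Kˣ), ν ≠ 0 ∧ σ ν * ν * φ m = 1 ∧ ν ^ 2 * φ m = ((x.1 : Fˣ) : F) := by
  have hxN := muN_norm hB x
  set w : F := ((x.1 : Fˣ) : F) with hw
  obtain ⟨ν, hν0, hν⟩ := exists_of_nrmF_one σ (by norm_num) hB.order (c := w) (by rw [nrmF_two σ hB.h2]; exact hxN)
  have hσν : σ ν ≠ 0 := by simpa using hν0
  obtain ⟨N₀, hN₀⟩ := hB.ex (σ ν * ν) (by rw [map_mul, hB.h2, mul_comm])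
  have hN₀0 : N₀ ≠ 0 := by
    rintro rfl
    rw [map_zero] at hN₀
    exact mul_ne_zero hσν hν0 hN₀.symm
  refine ⟨ν, Units.mk0 N₀⁻¹ (inv_ne_zero hN₀0), hν0, ?_, ?_⟩
  · show σ ν * ν * φ N₀⁻¹ = 1
    rw [map_inv₀, hN₀]
    field_simp
  · show ν ^ 2 * φ N₀⁻¹ = w
    rw [map_inv₀, hN₀]
    field_simp
    linear_combination -hν

/-- The alternating case. -/
theorem Wu_alt (hB : Br q σ φ) (hg : g ∈ Cfsg.GU n F q) (d : DatP σ φ g g₀ P a l) {m' : ℕ} (hnm : n = 2 * m') (hA : ∀ x, bf g₀ x x = 0) :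
    Wu (psuSemi g hg σ) = (powMonoidHom m' : muN F q →* muN F q).range := by
  apply le_antisymm
  · intro x hx
    obtain ⟨ν, h₀, m, hν, hs, hN, hx'⟩ := Wu_imp hB hg d hx
    have hD := det_alt_sim hnm hA hs
    have hD' : (h₀ : MK).det = (m : K) ^ m' := by
      have := congrArg Units.val hD
      rwa [Units.val_pow_eq_pow_val] at this
    have hwN : (ν ^ 2 * φ (m : K)) * σ (ν ^ 2 * φ (m : K)) = 1 := by
      rw [map_mul, map_pow, hB.fix]
      calc _ = (σ ν * ν * φ (m : K)) ^ 2 := by ring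
        _ = 1 := by rw [hN, one_pow]
    obtain ⟨y, hy⟩ := mem_muN_of hB hwN
    refine ⟨y, ?_⟩
    apply Subtype.ext
    apply Units.ext
    show ((y.1 : Fˣ) : F) ^ m' = _
    rw [hy, hx', hD', map_pow, mul_pow, ← pow_mul, hnm]
  · rintro _ ⟨y, rfl⟩
    obtain ⟨ν, m, hν, hN, hy⟩ := h90_mu hB y
    obtain ⟨h₀, hs, hD⟩ := exists_alt_sim hnm hA m
    have hD' : (h₀ : MK).det = (m : K) ^ m' := by
      have := congrArg Units.val hD
      rwa [Units.val_pow_eq_pow_val] at this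
    apply imp_Wu hB hg d hν h₀ m hs hN
    show ((y.1 : Fˣ) : F) ^ m' = _
    rw [← hy, hD', map_pow, mul_pow, ← pow_mul, hnm]

/-- The element `-1`. -/
noncomputable def negU (hB : Br q σ φ) : muN F q :=
  ⟨-1, by
    rw [muN, MonoidHom.mem_ker]
    apply Units.ext
    show ((-1 : F)) ^ (q + 1) = 1
    rw [pow_succ, ← hB.hq]
    simp⟩

omit h [Nontrivial (Fin n)] in
theorem negU_val (hB : Br q σ φ) : (((negU hB).1 : Fˣ) : F) = -1 := rfl

omit h [Nontrivial (Fin n)] in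
theorem negU_sq (hB : Br q σ φ) : negU hB * negU hB = 1 := by
  apply Subtype.ext
  apply Units.ext
  show (((negU hB).1 : Fˣ) : F) * (((negU hB).1 : Fˣ) : F) = 1
  rw [negU_val]
  ring

/-- The symmetric case. -/
theorem Wu_sym [Finite K] (hB : Br q σ φ) (hg : g ∈ Cfsg.GU n F q) (d : DatP σ φ g g₀ P a l) (h2 : (2 : K) ≠ 0) {m' : ℕ} (hm : 1 ≤ m') (hnm : n = 2 * m')
    (hS : (g₀ : MK)ᵀ = g₀) :
    Wu (psuSemi g hg σ) = Subgroup.zpowers (negU hB) ⊔ (powMonoidHom m' : muN F q →* muN F q).range := by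
  have hsq : ∀ (D c : Kˣ), D ^ 2 = c ^ n → D = c ^ m' ∨ D = -(c ^ m') := by
    intro D c h
    apply units_sq_eq
    rw [h, ← pow_mul, hnm, mul_comm]
  have hneg : negU hB ∈ Wu (psuSemi g hg σ) := by
    obtain ⟨x, hx⟩ := Cfsg.Agent.Lib.AutPSL.exists_noniso h2 hS
    obtain ⟨r, hr, hdet⟩ := Cfsg.Agent.Lib.AutPSL.exists_reflection h2 hS hx
    apply imp_Wu hB hg d one_ne_zero r 1 (fun u v => by rw [hr, Units.val_one, one_mul]) (by simp)
    rw [negU_val, one_pow, one_mul]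
    have h3 : (r : MK).det = -1 := by
      have := congrArg Units.val hdet
      simpa using this
    rw [h3]
    simp
  apply le_antisymm
  · intro x hx
    obtain ⟨ν, h₀, m, hν, hs, hN, hx'⟩ := Wu_imp hB hg d hx
    have hwN : (ν ^ 2 * φ (m : K)) * σ (ν ^ 2 * φ (m : K)) = 1 := by
      rw [map_mul, map_pow, hB.fix]
      calc _ = (σ ν * ν * φ (m : K)) ^ 2 := by ring
        _ = 1 := by rw [hN, one_pow]
    obtain ⟨y, hy⟩ := mem_muN_of hB hwN
    rw [Subgroup.mem_sup]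
    rcases hsq _ _ (det_sim hs) with h3 | h3
    · refine ⟨1, Subgroup.one_mem _, y ^ m', ⟨y, rfl⟩, ?_⟩
      rw [one_mul]
      apply Subtype.ext
      apply Units.ext
      show ((y.1 : Fˣ) : F) ^ m' = _
      have h4 : (h₀ : MK).det = (m : K) ^ m' := by
        have := congrArg Units.val h3
        rwa [Units.val_pow_eq_pow_val] at this
      rw [hy, hx', h4, map_pow, mul_pow, ← pow_mul, hnm]
    · refine ⟨negU hB, Subgroup.mem_zpowers _, y ^ m', ⟨y, rfl⟩, ?_⟩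
      apply Subtype.ext
      apply Units.ext
      show ((negU hB).1 : Fˣ).1 * ((y.1 : Fˣ) : F) ^ m' = _
      have h4 : (h₀ : MK).det = -((m : K) ^ m') := by
        have := congrArg Units.val h3
        rwa [Units.val_neg, Units.val_pow_eq_pow_val] at this
      rw [negU_val, hy, hx', h4, map_neg, map_pow, mul_pow, ← pow_mul, hnm]
      ring
  · apply sup_le
    · rw [Subgroup.zpowers_le]
      exact hneg
    · rintro _ ⟨y, rfl⟩
      obtain ⟨ν, m, hν, hN, hy⟩ := h90_mu hB y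
      obtain ⟨h₀, hs⟩ := exists_sym_sim h2 hm hnm hS m
      rcases hsq _ _ (det_sim hs) with h3 | h3
      · apply imp_Wu hB hg d hν h₀ m hs hN
        show ((y.1 : Fˣ) : F) ^ m' = _
        have h4 : (h₀ : MK).det = (m : K) ^ m' := by
          have := congrArg Units.val h3
          rwa [Units.val_pow_eq_pow_val] at this
        rw [← hy, h4, map_pow, mul_pow, ← pow_mul, hnm]
      · have h5 : negU hB * y ^ m' ∈ Wu (psuSemi g hg σ) := by
          apply imp_Wu hB hg d hν h₀ m hs hN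
          show ((negU hB).1 : Fˣ).1 * ((y.1 : Fˣ) : F) ^ m' = _
          have h4 : (h₀ : MK).det = -((m : K) ^ m') := by
            have := congrArg Units.val h3
            rwa [Units.val_neg, Units.val_pow_eq_pow_val] at this
          rw [negU_val, ← hy, h4, map_neg, map_pow, mul_pow, ← pow_mul, hnm]
          ring
        have h6 := Subgroup.mul_mem _ hneg h5
        rw [← mul_assoc, negU_sq, one_mul] at h6
        exact h6

omit h [Nontrivial (Fin n)] in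
theorem index_powU (hF : Fintype.card F = q ^ 2) (k : ℕ) :
    ((powMonoidHom k : muN F q →* muN F q).range).index = Nat.gcd k (q + 1) := by
  rw [IsCyclic.index_powMonoidHom_range, card_muN hF, Nat.gcd_comm]

omit h [Nontrivial (Fin n)] in
theorem index_sym_u (hF : Fintype.card F = q ^ 2) (hB : Br q σ φ) (h2 : (2 : F) ≠ 0) (m' : ℕ) :
    (Subgroup.zpowers (negU hB) ⊔ (powMonoidHom m' : muN F q →* muN F q).range).index = Nat.gcd (2 * m') (q + 1) / 2 := by
  rw [Cfsg.Agent.Lib.AutPSL.index_pow_sup]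
  have hne : negU hB ≠ 1 := by
    intro e
    have h3 := congrArg (fun x : muN F q => ((x.1 : Fˣ) : F)) e
    simp only [negU_val] at h3
    apply h2
    have h4 : (-1 : F) = 1 := h3
    linear_combination -h4
  have hord : orderOf (negU hB) = 2 := orderOf_eq_prime (by rw [pow_two, negU_sq]) hne
  have hcard := (Subgroup.zpowers (negU hB)).index_mul_card
  rw [Nat.card_zpowers, hord, card_muN hF] at hcard
  rw [← hcard, mul_comm _ 2, Nat.gcd_mul_left, Nat.mul_div_cancel_left _ (by norm_num)]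

end W

/-- The splitting numbers. -/
theorem split_main_psu {p f : ℕ} [Fact p.Prime] (hq : q = p ^ f) (hf : 1 ≤ f) (hF : Fintype.card F = q ^ 2) (hn : 3 ≤ n)
    (F₀ : Type*) [Field F₀] [Fintype F₀] (hF₀ : Fintype.card F₀ = q) (γ : MulAut (Cfsg.PSU n F q)) (hγ : Cfsg.IsGraphAutClassPSU γ) (hγ2 : orderOf γ = 2) :
    ((Even n ∧ Odd q ∧ Nonempty (↥(Cfsg.inndiagPSU n F q ⊓ Subgroup.centralizer {γ}) ≃* Cfsg.PGSp (n / 2) F₀)) → Cfsg.splitClassCount (Cfsg.inndiagPSU n F q) (Cfsg.Inn (Cfsg.PSU n F q)) γ = Nat.gcd (n / 2) (q + 1)) ∧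
      ((Even n ∧ Odd q ∧ ¬ Nonempty (↥(Cfsg.inndiagPSU n F q ⊓ Subgroup.centralizer {γ}) ≃* Cfsg.PGSp (n / 2) F₀)) → Cfsg.splitClassCount (Cfsg.inndiagPSU n F q) (Cfsg.Inn (Cfsg.PSU n F q)) γ = Nat.gcd n (q + 1) / 2) ∧
      (¬ (Even n ∧ Odd q) → Cfsg.splitClassCount (Cfsg.inndiagPSU n F q) (Cfsg.Inn (Cfsg.PSU n F q)) γ = Nat.gcd n (q + 1)) := by
  have hp : p.Prime := Fact.out
  haveI hG : Good n q F := ⟨hF, hn⟩
  haveI : Nontrivial (Fin n) := Fin.nontrivial_iff_two_le.2 (by omega)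
  obtain ⟨φ, hB⟩ := exists_br hF F₀ hF₀
  obtain ⟨g, hg, rfl⟩ := step0 hγ hγ2
  have hsq : psuSemi g hg (frobE hF) ^ 2 = 1 := by
    rw [← hγ2]
    exact pow_orderOf_eq_one _
  obtain ⟨g₀, hd, ε, hs, hε⟩ := exists_dat_of_sq hB hg hsq
  have hd' := hd
  obtain ⟨P, a, l, d⟩ := hd
  have hsplit : Cfsg.splitClassCount (Cfsg.inndiagPSU n F q) (Cfsg.Inn (Cfsg.PSU n F q)) (psuSemi g hg (frobE hF)) = (Wu (psuSemi g hg (frobE hF))).index :=
    split_count_psu _
  rw [hsplit]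
  have hcases : Even n → Odd q → ∃ m, 2 ≤ m ∧ n = 2 * m ∧ m = n / 2 ∧ (2 : F₀) ≠ 0 ∧ (2 : F) ≠ 0 ∧ 3 ≤ q := by
    rintro ⟨m, hm⟩ hodd
    have h2K : (2 : F₀) ≠ 0 := by
      apply Cfsg.Agent.Lib.ClassMax.QuadOver.two_ne_zero_of_odd
      rwa [hF₀]
    refine ⟨m, by omega, by omega, by omega, h2K, ?_, ?_⟩
    · intro h0
      apply h2K
      apply φ.injective
      rw [map_ofNat, map_zero]
      exact h0
    · have := two_le_q hF
      obtain ⟨r, hr⟩ := hodd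
      omega
  have hε' := Cfsg.Agent.Lib.AutPSL.sq_eq_one_cases hε
  refine ⟨?_, ?_, ?_⟩
  · rintro ⟨hev, hodd, hiso⟩
    obtain ⟨m, hm, hnm, hm2, h2, h2F, hq3⟩ := hcases hev hodd
    rcases hε' with rfl | rfl
    · rw [one_smul] at hs
      exfalso
      obtain ⟨e⟩ := hiso
      obtain ⟨e'⟩ := cent_equiv hB hg hd'
      rw [← hm2] at e
      exact Cfsg.Agent.Lib.AutPSL.not_PGSp_of_sym hF₀ hq3 h2 (by omega) hnm hs.symm ⟨e'.symm.trans e⟩
    · have hanti : (g₀ : Matrix (Fin n) (Fin n) F₀)ᵀ = (-1 : F₀) • (g₀ : Matrix (Fin n) (Fin n) F₀) := by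
        conv_lhs => rw [hs, Matrix.transpose_smul, Matrix.transpose_transpose]
      rw [Wu_alt hB hg d hnm (Cfsg.Agent.Lib.AutPSL.bf_alt_of_anti h2 hanti), index_powU hF, ← hm2]
  · rintro ⟨hev, hodd, hiso⟩
    obtain ⟨m, hm, hnm, hm2, h2, h2F, hq3⟩ := hcases hev hodd
    rcases hε' with rfl | rfl
    · rw [one_smul] at hs
      rw [Wu_sym hB hg d h2 (by omega) hnm hs.symm, index_sym_u hF hB h2F, ← hnm]
    · exfalso
      apply hiso
      have hanti : (g₀ : Matrix (Fin n) (Fin n) F₀)ᵀ = (-1 : F₀) • (g₀ : Matrix (Fin n) (Fin n) F₀) := by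
        conv_lhs => rw [hs, Matrix.transpose_smul, Matrix.transpose_transpose]
      obtain ⟨L, hL⟩ := Cfsg.Agent.Lib.AutPSL.alt_type hnm (Cfsg.Agent.Lib.AutPSL.bf_alt_of_anti h2 hanti)
      obtain ⟨e⟩ := Cfsg.Agent.Lib.AutPSL.cent_of_form g₀ L (Cfsg.sympForm m F₀) one_ne_zero (fun u v => by rw [one_mul, hL])
      obtain ⟨e'⟩ := cent_equiv hB hg hd'
      rw [← hm2]
      exact ⟨e'.trans e⟩
  · intro hnot
    have hA : Odd n ∨ (2 : F₀) = 0 := by
      by_cases hev : Even n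
      · right
        have hnq : ¬ Odd q := fun h => hnot ⟨hev, h⟩
        have heven : Even q := Nat.not_odd_iff_even.1 hnq
        have h3 : ringChar F₀ = 2 := by
          rw [FiniteField.even_card_iff_char_two, hF₀]
          exact Nat.even_iff.1 heven
        have : CharP F₀ 2 := by
          rw [← h3]
          exact ringChar.charP F₀
        exact Cfsg.Agent.Lib.AutPSL.two_zero
      · left
        exact Nat.not_even_iff_odd.1 hev
    rw [Wu_generic hB hg d hA, index_powU hF]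

end Cfsg.Agent.Lib.AutPSU
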