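import Mathlib
import Cfsg.Agent.Lib.AutPSU.Comm
import Cfsg.Agent.Lib.Classical.SLVec
import Cfsg.Agent.Lib.Classical.PSUSimple

/-! Unitary transvections. -/

set_option autoImplicit false
set_option linter.unusedSimpArgs false
set_option linter.unusedVariables false
set_option linter.unusedSectionVars false

namespace Cfsg.Agent.Lib.AutPSU

open Matrix Module MulAction Cfsg.Agent.Lib.Classical
open scoped LinearAlgebra.Projectivization MatrixGroups

variable {F : Type*} [Field F] [Fintype F] {q n : ℕ}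

local notation "hh" => Cfsg.hermForm n F q
local notation "VV" => (Fin n → F)
local notation "MM" => Matrix (Fin n) (Fin n) F

/-- A transvection in `SU` has the standard form. -/
theorem transvection_form (hF : Fintype.card F = q ^ 2) (s : Cfsg.SU n F q) (hs : Cfsg.IsTransvection (((s : GL (Fin n) F) : MM))) :
    ∃ (v : VV) (c : F) (H : UV q v (0 : VV) c), v ≠ 0 ∧ c ≠ 0 ∧ s = ue hF H := by
  classical
  have hq2 := two_le_q hF
  obtain ⟨hr, hsq⟩ := hs
  obtain ⟨a, b, ha, hb, hM⟩ := exists_vecMulVec_of_rank_one hr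
  have hab : b ⬝ᵥ a = 0 := by
    rw [hM, Matrix.vecMulVec_mul_vecMulVec, Matrix.vecMulVec_eq_zero] at hsq
    rcases hsq with hs | hs
    · exact absurd hs ha
    · rcases smul_eq_zero.1 hs with h1 | h1
      · simpa [MulOpposite.op_eq_zero_iff] using h1
      · exact absurd h1 hb
  have hact : ∀ x : VV, (((s : GL (Fin n) F) : MM)) *ᵥ x = x + (b ⬝ᵥ x) • a := by
    intro x
    have h1 : (((s : GL (Fin n) F) : MM)) = 1 + vecMulVec a b := by
      rw [← hM]
      abel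
    rw [h1, Matrix.add_mulVec, Matrix.one_mulVec, Matrix.vecMulVec_mulVec]
    congr 1
    ext i
    simp [mul_comm, dotProduct]
  have hform : ∀ x y : VV, hh (((s : GL (Fin n) F) : MM) *ᵥ x) (((s : GL (Fin n) F) : MM) *ᵥ y) = hh x y := fun x y => s.2 x y
  have hE : ∀ x y : VV, (b ⬝ᵥ y) ^ q * hh x a + (b ⬝ᵥ x) * hh a y + (b ⬝ᵥ x) * (b ⬝ᵥ y) ^ q * hh a a = 0 := by
    intro x y
    have h1 := hform x y
    rw [hact, hact, herm_add_left, herm_add_right hF, herm_add_right hF, herm_smul_left, herm_smul_left, herm_smul_right, herm_smul_right] at h1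
    linear_combination h1
  obtain ⟨i, hi⟩ : ∃ i, b i ≠ 0 := by
    by_contra hcon
    push Not at hcon
    exact hb (funext hcon)
  set y₀ : VV := (b i)⁻¹ • Pi.single i 1 with hy₀
  have hby₀ : b ⬝ᵥ y₀ = 1 := by
    rw [hy₀, dotProduct_smul, dotProduct_single, mul_one, smul_eq_mul, inv_mul_cancel₀ hi]
  set κ : F := -(hh a y₀ + hh a a) with hκ
  have hact2 : ∀ x, hh x a = κ * (b ⬝ᵥ x) := by
    intro x
    have h1 := hE x y₀
    rw [hby₀, one_pow, one_mul] at h1
    rw [hκ]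
    linear_combination h1
  have hκ0 : κ ≠ 0 := by
    intro h0
    apply ha
    apply herm_nondeg_right hF
    intro u
    rw [herm_conj hF u a, hact2, h0, zero_mul, zero_pow (by omega)]
  have haa : hh a a = 0 := by
    rw [hact2, hab, mul_zero]
  have hκq : κ + κ ^ q = 0 := by
    have h1 := hE y₀ y₀
    rw [hby₀, one_pow, one_mul, one_mul, one_mul, haa] at h1
    have h2 : hh y₀ a = κ := by rw [hact2, hby₀, mul_one]
    have h3 : hh a y₀ = κ ^ q := by rw [herm_conj hF y₀ a, h2]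
    rw [h2, h3] at h1
    linear_combination h1
  have hκq0 : κ ^ q ≠ 0 := pow_ne_zero _ hκ0
  have H : UV q a (0 : VV) κ⁻¹ := by
    refine ⟨haa, herm_zero_right hF a, ?_⟩
    rw [herm_zero_right hF, add_zero, inv_pow]
    field_simp
    linear_combination hκq
  refine ⟨a, κ⁻¹, H, ha, inv_ne_zero hκ0, ?_⟩
  apply su_ext
  intro x
  change (((s : GL (Fin n) F) : MM)) *ᵥ x = _
  rw [hact, ue_mulVec, herm_zero_right hF, zero_smul, sub_zero, zero_add, smul_smul, hact2]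
  congr 2
  field_simp

/-- Any two transvections of `SU` are conjugate. -/
theorem transvection_conj (hF : Fintype.card F = q ^ 2) (hn : 3 ≤ n) (s t : Cfsg.SU n F q) (hs : Cfsg.IsTransvection (((s : GL (Fin n) F) : MM)))
    (ht : Cfsg.IsTransvection (((t : GL (Fin n) F) : MM))) : IsConj s t := by
  classical
  haveI hG : Good n q F := ⟨hF, hn⟩
  have hq2 := two_le_q hF
  obtain ⟨v₁, s₁, H₁, hv₁, hs₁, rfl⟩ := transvection_form hF s hs
  obtain ⟨v₂, s₂, H₂, hv₂, hs₂, rfl⟩ := transvection_form hF t ht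
  haveI := su_preprimitive hF hn
  obtain ⟨g, hg⟩ := MulAction.exists_smul_eq (Cfsg.SU n F q) (isoMk hv₁ H₁.vv : IsoPt n F q) (isoMk hv₂ H₂.vv)
  rw [su_smul_isoMk, isoMk_eq_iff] at hg
  obtain ⟨c, hc0, hc⟩ := hg
  have hc' : suM g *ᵥ v₁ = c • v₂ := hc.symm
  have hg0 : suM g *ᵥ (0 : VV) = 0 := mulVec_zero _
  have H₃ : UV q (c • v₂) (0 : VV) s₁ := by
    have := UV.conj hF H₁ g
    rw [show (g.1 : Matrix.SpecialLinearGroup (Fin n) F).1 *ᵥ v₁ = c • v₂ from hc', show (g.1 : Matrix.SpecialLinearGroup (Fin n) F).1 *ᵥ (0 : VV) = 0 from hg0] at this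
    exact this
  have e1 : g * ue hF H₁ * g⁻¹ = ue hF H₃ := by
    rw [ue_conj' g H₁]
    exact ue_congr _ _ hc' hg0 rfl
  have H₄ := UV.scale H₃ hc0
  have e2 := ue_scale H₃ hc0
  set s₃ := c * c ^ q * s₁ with hs₃
  have hs₃0 : s₃ ≠ 0 := mul_ne_zero (mul_ne_zero hc0 (pow_ne_zero _ hc0)) hs₁
  -- scaling
  have tr₃ : s₃ + s₃ ^ q = 0 := by
    have := H₄.sw
    rw [smul_zero, herm_zero_right hF, add_zero] at this
    exact this
  have tr₂ : s₂ + s₂ ^ q = 0 := by
    have := H₂.sw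
    rw [herm_zero_right hF, add_zero] at this
    exact this
  have hq3 : s₃ ^ q ≠ 0 := pow_ne_zero _ hs₃0
  have hr : (s₂ / s₃) ^ q = s₂ / s₃ := by
    rw [div_pow]
    field_simp
    linear_combination s₃ * tr₂ - s₂ * tr₃
  obtain ⟨τ, hτ⟩ := exists_norm_eq' hF _ hr
  have hτ0 : τ ≠ 0 := by
    rintro rfl
    rw [zero_mul] at hτ
    exact (div_ne_zero hs₂ hs₃0) hτ.symm
  obtain ⟨f, hff, hvf⟩ := exists_partner hv₂ H₂.vv
  let K : HP n q F := ⟨v₂, f, H₂.vv, hff, hvf⟩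
  obtain ⟨w₀, hw₀, hww⟩ := K.exists_unit_W
  obtain ⟨A, hA, -⟩ := exists_lv_refl hw₀ hww hτ0
  have hAe : suM A *ᵥ v₂ = τ • v₂ := hA.he
  have hA0 : suM A *ᵥ (0 : VV) = 0 := mulVec_zero _
  have H₅ : UV q (τ • v₂) (0 : VV) s₃ := by
    have := UV.conj hF (UV.scale H₃ hc0) A
    rw [show (A.1 : Matrix.SpecialLinearGroup (Fin n) F).1 *ᵥ v₂ = τ • v₂ from hAe, smul_zero, show (A.1 : Matrix.SpecialLinearGroup (Fin n) F).1 *ᵥ (0 : VV) = 0 from hA0] at this
    exact this
  have e3 : A * ue hF (UV.scale H₃ hc0) * A⁻¹ = ue hF H₅ := by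
    rw [ue_conj' A _]
    exact ue_congr _ _ hAe (by rw [smul_zero]; exact hA0) rfl
  have e4 := ue_scale H₅ hτ0
  have e5 : ue hF (UV.scale H₅ hτ0) = ue hF H₂ := by
    apply ue_congr
    · rfl
    · rw [smul_zero]
    · rw [hτ]
      field_simp
  rw [isConj_iff]
  refine ⟨A * g, ?_⟩
  rw [_root_.mul_inv_rev, show A * g * ue hF H₁ * (g⁻¹ * A⁻¹) = A * (g * ue hF H₁ * g⁻¹) * A⁻¹ by group, e1, e2, e3, e4, e5]

end Cfsg.Agent.Lib.AutPSU
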